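import Mathlib
import Cfsg.Agent.Lib.Helper65.MonoDefs

/-!
# S5634, piece MONO-TRANS: monomial matrices of determinant `1` are transitive on the vectors
with exactly one zero coordinate
-/

set_option autoImplicit false

namespace Cfsg.Agent.Lib.Helper65.Mono

open Matrix

section
variable {F : Type*} [Field F] {κ : Type} [Fintype κ] [DecidableEq κ]

/-- TRANS -/
theorem trans_one_zero : TransP κ F := by
  intro u w p p' hup hu hwp hw
  set σ : Equiv.Perm κ := Equiv.swap p p' with hσ
  have hσσ : ∀ i, σ (σ i) = i := fun i => Equiv.swap_apply_self p p' i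
  have hσp : σ p = p' := Equiv.swap_apply_left p p'
  have hσp' : σ p' = p := Equiv.swap_apply_right p p'
  have hσne : ∀ j, j ≠ p → σ j ≠ p' := by
    intro j hj h
    apply hj
    have := congrArg σ h
    rw [hσσ, hσp'] at this
    exact this
  set s : F := (((Equiv.Perm.sign σ : ℤˣ) : ℤ) : F) with hsdef
  have hs : s * s = 1 := by
    rw [hsdef, ← Int.cast_mul, ← Units.val_mul, Int.units_mul_self, Units.val_one, Int.cast_one]
  have hs0 : s ≠ 0 := by
    intro h
    rw [h, zero_mul] at hs
    exact zero_ne_one hs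
  set d₀ : κ → F := fun j => w (σ j) / u j with hd₀def
  have hd₀ : ∀ j, j ≠ p → d₀ j ≠ 0 := fun j hj => div_ne_zero (hw _ (hσne j hj)) (hu j hj)
  set c : F := s * ∏ j ∈ Finset.univ.erase p, d₀ j with hcdef
  have hc : c ≠ 0 :=
    mul_ne_zero hs0 (Finset.prod_ne_zero_iff.mpr fun j hj => hd₀ j (Finset.ne_of_mem_erase hj))
  set d : κ → F := fun j => if j = p then c⁻¹ else d₀ j with hddef
  set M : Matrix κ κ F := σ.permMatrix F * Matrix.diagonal d with hMdef
  have hM : ∀ i j, M i j = if σ i = j then d j else 0 := by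
    intro i j
    rw [hMdef, Matrix.mul_diagonal, Equiv.Perm.permMatrix, PEquiv.toMatrix_apply,
      Equiv.toPEquiv_apply]
    by_cases h : σ i = j
    · rw [if_pos h, if_pos (by rw [h]; exact Option.mem_some_self j), one_mul]
    · rw [if_neg h, if_neg (by rw [Option.mem_some_iff]; exact h), zero_mul]
  have hdet : M.det = 1 := by
    rw [hMdef, Matrix.det_mul, Matrix.det_permutation, Matrix.det_diagonal,
      ← Finset.mul_prod_erase Finset.univ d (Finset.mem_univ p)]
    have h1 : ∏ j ∈ Finset.univ.erase p, d j = ∏ j ∈ Finset.univ.erase p, d₀ j :=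
      Finset.prod_congr rfl fun j hj => if_neg (Finset.ne_of_mem_erase hj)
    have h2 : d p = c⁻¹ := if_pos rfl
    rw [h1, h2]
    change s * (c⁻¹ * ∏ j ∈ Finset.univ.erase p, d₀ j) = 1
    rw [mul_left_comm]
    exact inv_mul_cancel₀ hc
  refine ⟨Matrix.GeneralLinearGroup.mkOfDetNeZero M (by rw [hdet]; exact one_ne_zero), hdet,
    ?_, ?_⟩
  · intro j
    refine ⟨σ.symm j, fun i' h => ?_⟩
    have h' : M i' j ≠ 0 := h
    rw [hM] at h'
    by_contra hne
    apply h'
    rw [if_neg]
    intro h2
    apply hne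
    rw [← h2, Equiv.symm_apply_apply]
  · funext i
    change (M *ᵥ u) i = w i
    rw [Matrix.mulVec, dotProduct]
    simp only [hM]
    rw [Finset.sum_eq_single (σ i)]
    · rw [if_pos rfl]
      by_cases hi : σ i = p
      · rw [hi, hup, mul_zero]
        have hip : i = p' := by
          have := congrArg σ hi
          rw [hσσ, hσp] at this
          exact this
        rw [hip, hwp]
      · have h3 : d (σ i) = w (σ (σ i)) / u (σ i) := if_neg hi
        rw [h3, hσσ, div_mul_cancel₀ _ (hu _ hi)]
    · intro j _ hj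
      rw [if_neg (Ne.symm hj), zero_mul]
    · intro h
      exact absurd (Finset.mem_univ _) h

end

end Cfsg.Agent.Lib.Helper65.Mono
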