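import Mathlib
import Cfsg.Prelude.Def_GeometricClasses
import Cfsg.Agent.Lib.Helper82.ASSG

/-! Project SPG-XT (architect helper1, S5662), piece XT-M2: `IsOfMinusType k L` from the core
lemma M1 (a subgroup of index 2 avoiding `-1`). -/

set_option autoImplicit false

namespace Cfsg.Agent.Lib.Helper21.SPGXTM2

open Matrix Cfsg.Geo Cfsg.Agent.Lib.Helper71.Asch

variable {n : ℕ} {F : Type*} [Field F] [Fintype F]

/-- A finite elementary abelian 2-subgroup has a subgroup of index at most 2 avoiding a given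
non-trivial element. -/
theorem exists_half {G : Type*} [Group G] [Finite G] (A : Subgroup G)
    (hcomm : ∀ x ∈ A, ∀ y ∈ A, x * y = y * x) (hsq : ∀ x ∈ A, x * x = 1) (z : G) (hz : z ∈ A)
    (hz1 : z ≠ 1) :
    ∃ B : Subgroup G, B ≤ A ∧ z ∉ B ∧ Nat.card A ≤ 2 * Nat.card B := by
  have hfin : Finite (Subgroup G) :=
    Finite.of_injective (fun H : Subgroup G => (H : Set G)) SetLike.coe_injective
  obtain ⟨B, -, hB⟩ := Finite.exists_le_maximal (p := fun B : Subgroup G => B ≤ A ∧ z ∉ B)
    (a := ⊥) ⟨bot_le, by rw [Subgroup.mem_bot]; exact hz1⟩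
  obtain ⟨⟨hBA, hzB⟩, hmax⟩ := hB
  have key : ∀ x ∈ A, x ∈ B ∨ z * x ∈ B := by
    intro x hx
    by_contra hcon
    push Not at hcon
    obtain ⟨hxB, hzxB⟩ := hcon
    have hxi : x⁻¹ = x := inv_eq_of_mul_eq_one_left (hsq x hx)
    let B' : Subgroup G :=
      { carrier := {y | y ∈ A ∧ (y ∈ B ∨ x * y ∈ B)}
        one_mem' := ⟨A.one_mem, Or.inl B.one_mem⟩
        mul_mem' := by
          rintro a b ⟨haA, ha⟩ ⟨hbA, hb⟩
          refine ⟨A.mul_mem haA hbA, ?_⟩
          rcases ha with ha | ha
          · rcases hb with hb | hb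
            · exact Or.inl (B.mul_mem ha hb)
            · right
              have e : x * (a * b) = a * (x * b) := by
                rw [← mul_assoc, hcomm x hx a haA, mul_assoc]
              rw [e]; exact B.mul_mem ha hb
          · rcases hb with hb | hb
            · right
              rw [← mul_assoc]; exact B.mul_mem ha hb
            · left
              have e : a * b = (x * a) * (x * b) := by
                calc a * b = (x * x) * (a * b) := by rw [hsq x hx, one_mul]
                  _ = x * (x * a) * b := by simp only [mul_assoc]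
                  _ = x * (a * x) * b := by rw [hcomm x hx a haA]
                  _ = (x * a) * (x * b) := by simp only [mul_assoc]
              rw [e]; exact B.mul_mem ha hb
        inv_mem' := by
          rintro a ⟨haA, ha⟩
          refine ⟨A.inv_mem haA, ?_⟩
          rcases ha with ha | ha
          · exact Or.inl (B.inv_mem ha)
          · right
            have e : x * a⁻¹ = (x * a)⁻¹ := by
              rw [_root_.mul_inv_rev, hxi, hcomm x hx a⁻¹ (A.inv_mem haA)]
            rw [e]; exact B.inv_mem ha }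
    have hBB' : B ≤ B' := fun y hy => ⟨hBA hy, Or.inl hy⟩
    have hxB' : x ∈ B' := ⟨hx, Or.inr (by rw [hsq x hx]; exact B.one_mem)⟩
    have hB'A : B' ≤ A := fun y hy => hy.1
    by_cases hzB' : z ∈ B'
    · rcases hzB'.2 with h | h
      · exact hzB h
      · apply hzxB
        rw [hcomm z hz x hx]; exact h
    · have h3 := hmax ⟨hB'A, hzB'⟩ hBB'
      exact hxB (h3 hxB')
  refine ⟨B, hBA, hzB, ?_⟩
  have hsub : (A : Set G) ⊆ (B : Set G) ∪ (fun y => z * y) '' (B : Set G) := by
    intro x hx
    rcases key x hx with h | h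
    · exact Or.inl h
    · right
      refine ⟨z * x, h, ?_⟩
      show z * (z * x) = x
      rw [← mul_assoc, hsq z hz, one_mul]
  calc Nat.card A = (A : Set G).ncard := Nat.card_coe_set_eq _
    _ ≤ ((B : Set G) ∪ (fun y => z * y) '' (B : Set G)).ncard :=
        Set.ncard_le_ncard hsub (Set.toFinite _)
    _ ≤ (B : Set G).ncard + ((fun y => z * y) '' (B : Set G)).ncard := Set.ncard_union_le _ _
    _ ≤ (B : Set G).ncard + (B : Set G).ncard :=
        Nat.add_le_add_left (Set.ncard_image_le (Set.toFinite _)) _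
    _ = 2 * Nat.card B := by rw [← two_mul]; rfl

theorem XTM2 (hn : 4 ≤ n) (f : (Fin n → F) → (Fin n → F) → F) (hf : IsSymplecticForm f)
    (H L : Subgroup (GL (Fin n) F)) (hfix : FixesForm (matrixSet H) f) (h : SymT H L)
    (h2 : (2 : F) ≠ 0) (hn0 : (n : F) ≠ 0)
    (hZ : ∀ x ∈ L, x ∈ scalars (Fin n) F → x.1 = 1 ∨ x.1 = -1) (k : ℕ) (hk : n = 2 ^ k)
    (hM1 : ∀ S : Subgroup (GL (Fin n) F), (∀ x ∈ S, ∀ y ∈ S, x * y = y * x) →
      (∀ x ∈ S, x * x = 1) → (∀ x ∈ S, ∀ u v, f (x.1 *ᵥ u) (x.1 *ᵥ v) = f u v) →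
      (∀ x ∈ S, x ≠ 1 → Matrix.trace x.1 = 0) → Nat.card S < n) :
    IsOfMinusType k L := by
  classical
  intro A hAc hAsq
  have hcard : Nat.card (A.map L.subtype) = Nat.card A :=
    Subgroup.card_map_of_injective (Subgroup.subtype_injective L)
  have hA1L : A.map L.subtype ≤ L := Subgroup.map_subtype_le A
  have hcomm : ∀ x ∈ A.map L.subtype, ∀ y ∈ A.map L.subtype, x * y = y * x := by
    rintro _ ⟨a, ha, rfl⟩ _ ⟨b, hb, rfl⟩
    have h1 : (⟨a, ha⟩ : A) * ⟨b, hb⟩ = ⟨b, hb⟩ * ⟨a, ha⟩ := hAc.is_comm.comm _ _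
    have h3 : a * b = b * a := congrArg Subtype.val h1
    exact congrArg Subtype.val h3
  have hsq : ∀ x ∈ A.map L.subtype, x * x = 1 := by
    rintro _ ⟨a, ha, rfl⟩
    have h1 := hAsq a ha
    exact congrArg Subtype.val h1
  have hfixA : ∀ x ∈ A.map L.subtype, ∀ u v, f (x.1 *ᵥ u) (x.1 *ᵥ v) = f u v := by
    intro x hx u v
    exact hfix x.1 ⟨x, h.min.le (hA1L hx), rfl⟩ u v
  have htr : ∀ x ∈ A.map L.subtype, x ∉ scalars (Fin n) F → Matrix.trace x.1 = 0 :=
    fun x hx hxs => Cfsg.Agent.Lib.Helper82.ASSG.SG H L h x (hA1L hx) hxs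
  by_cases hex : ∃ z ∈ A.map L.subtype, z.1 = -1
  · obtain ⟨z, hzA, hz⟩ := hex
    have hz1 : z ≠ 1 := by
      intro h1
      rw [h1, Units.val_one] at hz
      have h3 := congrFun (congrFun hz ⟨0, by omega⟩) ⟨0, by omega⟩
      rw [Matrix.one_apply_eq, Matrix.neg_apply, Matrix.one_apply_eq] at h3
      apply h2
      linear_combination h3
    obtain ⟨B, hBA, hzB, hle⟩ := exists_half (A.map L.subtype) hcomm hsq z hzA hz1
    have hB : Nat.card B < n := by
      apply hM1 B (fun x hx y hy => hcomm x (hBA hx) y (hBA hy)) (fun x hx => hsq x (hBA hx))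
        (fun x hx => hfixA x (hBA hx))
      intro x hx hx1
      by_cases hxs : x ∈ scalars (Fin n) F
      · rcases hZ x (hA1L (hBA hx)) hxs with h1 | h1
        · exact absurd (Units.ext h1) hx1
        · exfalso
          apply hzB
          have e : x = z := Units.ext (by rw [h1, hz])
          rw [← e]; exact hx
      · exact htr x (hBA hx) hxs
    rw [← hcard]
    calc Nat.card (A.map L.subtype) ≤ 2 * Nat.card B := hle
      _ < 2 ^ (k + 1) := by rw [pow_succ, ← hk]; omega
  · push Not at hex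
    have hA1 : Nat.card (A.map L.subtype) < n := by
      apply hM1 _ hcomm hsq hfixA
      intro x hx hx1
      by_cases hxs : x ∈ scalars (Fin n) F
      · rcases hZ x (hA1L hx) hxs with h1 | h1
        · exact absurd (Units.ext h1) hx1
        · exact absurd h1 (hex x hx)
      · exact htr x hx hxs
    rw [← hcard, pow_succ, ← hk]
    omega

end Cfsg.Agent.Lib.Helper21.SPGXTM2
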