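import Mathlib
import Cfsg.Prelude.Def_GeometricClasses
import Cfsg.Agent.Lib.Helper71.Asch0

/-!
# S5630 (Aschbacher's theorem), piece COREC (helper71's project)

Homogeneous case with absolutely irreducible constituent: the commutant of `N` is
`P (1 ⊗ M_k) P⁻¹` and the normaliser of `N` lies in the tensor product subgroup
(Skolem–Noether for `M_k(F)`).
-/

set_option autoImplicit false

namespace Cfsg.Agent.Lib.Helper21.ASCOREC

open Matrix Cfsg.Geo Cfsg.Agent.Lib.Helper71.Asch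
open scoped Kronecker

variable {n : ℕ} {F : Type*} [Field F]

/-- transport of a matrix on `Fin d × Fin k` to `Fin n`: `P (reindex Y) P⁻¹` -/
def cT {d k : ℕ} (e : Fin n ≃ Fin d × Fin k) (P : GL (Fin n) F)
    (Y : Matrix (Fin d × Fin k) (Fin d × Fin k) F) : Matrix (Fin n) (Fin n) F :=
  P.1 * Matrix.reindex e.symm e.symm Y * (P⁻¹ : GL (Fin n) F).1

/-- the inverse transport -/
def cS {d k : ℕ} (e : Fin n ≃ Fin d × Fin k) (P : GL (Fin n) F)
    (X : Matrix (Fin n) (Fin n) F) : Matrix (Fin d × Fin k) (Fin d × Fin k) F :=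
  Matrix.reindex e e ((P⁻¹ : GL (Fin n) F).1 * X * P.1)

theorem tmat_eq_cT {d k : ℕ} (e : Fin n ≃ Fin d × Fin k) (P : GL (Fin n) F)
    (a : Matrix (Fin d) (Fin d) F) (b : Matrix (Fin k) (Fin k) F) :
    tmat e P a b = cT e P (a ⊗ₖ b) := rfl

theorem cc_P_inv_mul (P : GL (Fin n) F) : (P⁻¹ : GL (Fin n) F).1 * P.1 = 1 := by
  rw [← Units.val_mul, inv_mul_cancel, Units.val_one]

theorem cc_P_mul_inv (P : GL (Fin n) F) : P.1 * (P⁻¹ : GL (Fin n) F).1 = 1 := by
  rw [← Units.val_mul, mul_inv_cancel, Units.val_one]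

theorem cT_mul {d k : ℕ} (e : Fin n ≃ Fin d × Fin k) (P : GL (Fin n) F)
    (Y Y' : Matrix (Fin d × Fin k) (Fin d × Fin k) F) :
    cT e P (Y * Y') = cT e P Y * cT e P Y' := by
  unfold cT
  have h : Matrix.reindex e.symm e.symm (Y * Y') =
      Matrix.reindex e.symm e.symm Y * Matrix.reindex e.symm e.symm Y' := by
    simp only [Matrix.reindex_apply]
    rw [Matrix.submatrix_mul_equiv]
  rw [h]
  calc P.1 * (Matrix.reindex e.symm e.symm Y * Matrix.reindex e.symm e.symm Y') *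
        (P⁻¹ : GL (Fin n) F).1
      = P.1 * Matrix.reindex e.symm e.symm Y * 1 * Matrix.reindex e.symm e.symm Y' *
        (P⁻¹ : GL (Fin n) F).1 := by simp only [mul_one, mul_assoc]
    _ = P.1 * Matrix.reindex e.symm e.symm Y * (P⁻¹ : GL (Fin n) F).1 *
        (P.1 * Matrix.reindex e.symm e.symm Y' * (P⁻¹ : GL (Fin n) F).1) := by
        rw [← cc_P_inv_mul P]; simp only [mul_assoc]

theorem cT_one {d k : ℕ} (e : Fin n ≃ Fin d × Fin k) (P : GL (Fin n) F) :
    cT e P (1 : Matrix (Fin d × Fin k) (Fin d × Fin k) F) = 1 := by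
  unfold cT
  have h : Matrix.reindex e.symm e.symm (1 : Matrix (Fin d × Fin k) (Fin d × Fin k) F) = 1 := by
    simp only [Matrix.reindex_apply]
    rw [Matrix.submatrix_one_equiv]
  rw [h, mul_one, cc_P_mul_inv]

theorem cT_add {d k : ℕ} (e : Fin n ≃ Fin d × Fin k) (P : GL (Fin n) F)
    (Y Y' : Matrix (Fin d × Fin k) (Fin d × Fin k) F) :
    cT e P (Y + Y') = cT e P Y + cT e P Y' := by
  unfold cT
  have h : Matrix.reindex e.symm e.symm (Y + Y') =
      Matrix.reindex e.symm e.symm Y + Matrix.reindex e.symm e.symm Y' := by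
    ext i j
    simp [Matrix.reindex_apply]
  rw [h, mul_add, add_mul]

theorem cT_smul {d k : ℕ} (e : Fin n ≃ Fin d × Fin k) (P : GL (Fin n) F) (c : F)
    (Y : Matrix (Fin d × Fin k) (Fin d × Fin k) F) :
    cT e P (c • Y) = c • cT e P Y := by
  unfold cT
  have h : Matrix.reindex e.symm e.symm (c • Y) = c • Matrix.reindex e.symm e.symm Y := by
    ext i j
    simp [Matrix.reindex_apply]
  rw [h, Matrix.mul_smul, Matrix.smul_mul]

theorem cT_cS {d k : ℕ} (e : Fin n ≃ Fin d × Fin k) (P : GL (Fin n) F)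
    (X : Matrix (Fin n) (Fin n) F) : cT e P (cS e P X) = X := by
  unfold cT cS
  have h : Matrix.reindex e.symm e.symm (Matrix.reindex e e ((P⁻¹ : GL (Fin n) F).1 * X * P.1)) =
      (P⁻¹ : GL (Fin n) F).1 * X * P.1 := by
    ext i j
    simp [Matrix.reindex_apply]
  rw [h]
  calc P.1 * ((P⁻¹ : GL (Fin n) F).1 * X * P.1) * (P⁻¹ : GL (Fin n) F).1
      = (P.1 * (P⁻¹ : GL (Fin n) F).1) * X * (P.1 * (P⁻¹ : GL (Fin n) F).1) := by
        simp only [mul_assoc]
    _ = X := by rw [cc_P_mul_inv, one_mul, mul_one]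

theorem cS_cT {d k : ℕ} (e : Fin n ≃ Fin d × Fin k) (P : GL (Fin n) F)
    (Y : Matrix (Fin d × Fin k) (Fin d × Fin k) F) : cS e P (cT e P Y) = Y := by
  unfold cT cS
  have h : (P⁻¹ : GL (Fin n) F).1 * (P.1 * Matrix.reindex e.symm e.symm Y *
      (P⁻¹ : GL (Fin n) F).1) * P.1 = Matrix.reindex e.symm e.symm Y := by
    calc (P⁻¹ : GL (Fin n) F).1 * (P.1 * Matrix.reindex e.symm e.symm Y *
          (P⁻¹ : GL (Fin n) F).1) * P.1
        = ((P⁻¹ : GL (Fin n) F).1 * P.1) * Matrix.reindex e.symm e.symm Y *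
          ((P⁻¹ : GL (Fin n) F).1 * P.1) := by simp only [mul_assoc]
      _ = Matrix.reindex e.symm e.symm Y := by rw [cc_P_inv_mul, one_mul, mul_one]
  rw [h]
  ext i j
  simp [Matrix.reindex_apply]

theorem cT_inj {d k : ℕ} (e : Fin n ≃ Fin d × Fin k) (P : GL (Fin n) F)
    {Y Y' : Matrix (Fin d × Fin k) (Fin d × Fin k) F} (h : cT e P Y = cT e P Y') : Y = Y' := by
  rw [← cS_cT e P Y, ← cS_cT e P Y', h]

/-! ### entries of products with Kronecker products -/

theorem cc_mul_kron_one {d k : ℕ} (Y : Matrix (Fin d × Fin k) (Fin d × Fin k) F)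
    (y : Matrix (Fin d) (Fin d) F) (i j : Fin d) (s t : Fin k) :
    (Y * (y ⊗ₖ (1 : Matrix (Fin k) (Fin k) F))) (i, s) (j, t) = ∑ l, Y (i, s) (l, t) * y l j := by
  rw [Matrix.mul_apply, Fintype.sum_prod_type]
  refine Finset.sum_congr rfl fun l _ => ?_
  rw [Finset.sum_eq_single t]
  · rw [Matrix.kronecker_apply, Matrix.one_apply_eq, mul_one]
  · intro u _ hu
    rw [Matrix.kronecker_apply, Matrix.one_apply_ne hu, mul_zero, mul_zero]
  · intro h; exact absurd (Finset.mem_univ _) h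

theorem cc_kron_one_mul {d k : ℕ} (Y : Matrix (Fin d × Fin k) (Fin d × Fin k) F)
    (y : Matrix (Fin d) (Fin d) F) (i j : Fin d) (s t : Fin k) :
    ((y ⊗ₖ (1 : Matrix (Fin k) (Fin k) F)) * Y) (i, s) (j, t) = ∑ l, y i l * Y (l, s) (j, t) := by
  rw [Matrix.mul_apply, Fintype.sum_prod_type]
  refine Finset.sum_congr rfl fun l _ => ?_
  rw [Finset.sum_eq_single s]
  · rw [Matrix.kronecker_apply, Matrix.one_apply_eq, mul_one]
  · intro u _ hu
    rw [Matrix.kronecker_apply, Matrix.one_apply_ne hu.symm, mul_zero, zero_mul]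
  · intro h; exact absurd (Finset.mem_univ _) h

theorem cc_mul_one_kron {d k : ℕ} (Y : Matrix (Fin d × Fin k) (Fin d × Fin k) F)
    (b : Matrix (Fin k) (Fin k) F) (i j : Fin d) (s t : Fin k) :
    (Y * ((1 : Matrix (Fin d) (Fin d) F) ⊗ₖ b)) (i, s) (j, t) = ∑ u, Y (i, s) (j, u) * b u t := by
  rw [Matrix.mul_apply, Fintype.sum_prod_type, Finset.sum_eq_single j]
  · refine Finset.sum_congr rfl fun u _ => ?_
    rw [Matrix.kronecker_apply, Matrix.one_apply_eq, one_mul]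
  · intro l _ hl
    refine Finset.sum_eq_zero fun u _ => ?_
    rw [Matrix.kronecker_apply, Matrix.one_apply_ne hl, zero_mul, mul_zero]
  · intro h; exact absurd (Finset.mem_univ _) h

theorem cc_one_kron_mul {d k : ℕ} (Y : Matrix (Fin d × Fin k) (Fin d × Fin k) F)
    (b : Matrix (Fin k) (Fin k) F) (i j : Fin d) (s t : Fin k) :
    (((1 : Matrix (Fin d) (Fin d) F) ⊗ₖ b) * Y) (i, s) (j, t) = ∑ u, b s u * Y (i, u) (j, t) := by
  rw [Matrix.mul_apply, Fintype.sum_prod_type, Finset.sum_eq_single i]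
  · refine Finset.sum_congr rfl fun u _ => ?_
    rw [Matrix.kronecker_apply, Matrix.one_apply_eq, one_mul]
  · intro l _ hl
    refine Finset.sum_eq_zero fun u _ => ?_
    rw [Matrix.kronecker_apply, Matrix.one_apply_ne hl.symm, zero_mul, zero_mul]
  · intro h; exact absurd (Finset.mem_univ _) h

/-! ### Part 1: the commutant -/

theorem cc_commutant {d k : ℕ} (e : Fin n ≃ Fin d × Fin k) (P : GL (Fin n) F)
    (R : Subgroup (GL (Fin d) F)) (N : Subgroup (GL (Fin n) F))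
    (hR : ∀ M : Matrix (Fin d) (Fin d) F, (∀ s ∈ matrixSet R, M * s = s * M) →
      ∃ c : F, M = c • (1 : Matrix (Fin d) (Fin d) F))
    (h2 : ∀ y ∈ R, ∃ x ∈ N, x.1 = tmat e P y.1 1)
    (X : Matrix (Fin n) (Fin n) F) (hX : ∀ x ∈ N, X * x.1 = x.1 * X) :
    ∃ b : Matrix (Fin k) (Fin k) F, X = tmat e P 1 b := by
  have hY : ∀ y ∈ R, cS e P X * (y.1 ⊗ₖ (1 : Matrix (Fin k) (Fin k) F)) =
      (y.1 ⊗ₖ (1 : Matrix (Fin k) (Fin k) F)) * cS e P X := by
    intro y hy
    obtain ⟨x, hx, hxy⟩ := h2 y hy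
    have h := hX x hx
    rw [hxy, tmat_eq_cT] at h
    apply cT_inj e P
    rw [cT_mul, cT_mul, cT_cS]
    exact h
  have hb : ∀ s t : Fin k, ∃ c : F, (Matrix.of fun i j => cS e P X (i, s) (j, t)) =
      c • (1 : Matrix (Fin d) (Fin d) F) := by
    intro s t
    apply hR
    rintro _ ⟨y, hy, rfl⟩
    ext i j
    have h := congrFun (congrFun (hY y hy) (i, s)) (j, t)
    rw [cc_mul_kron_one, cc_kron_one_mul] at h
    rw [Matrix.mul_apply, Matrix.mul_apply]
    exact h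
  choose b hb using hb
  refine ⟨Matrix.of b, ?_⟩
  rw [tmat_eq_cT]
  conv_lhs => rw [← cT_cS e P X]
  congr 1
  ext ⟨i, s⟩ ⟨j, t⟩
  have h := congrFun (congrFun (hb s t) i) j
  simp only [Matrix.of_apply, Matrix.smul_apply, smul_eq_mul] at h
  rw [Matrix.kronecker_apply, Matrix.of_apply, h, mul_comm]

/-! ### Part 2: the normaliser -/

theorem cc_inv_normal [Fintype F] (N : Subgroup (GL (Fin n) F)) (g : GL (Fin n) F)
    (hg : ∀ x ∈ N, g * x * g⁻¹ ∈ N) : ∀ x ∈ N, g⁻¹ * x * g ∈ N := by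
  intro x hx
  let f : N → N := fun y => ⟨g * y.1 * g⁻¹, hg y.1 y.2⟩
  have hinj : Function.Injective f := by
    intro a b hab
    have h : g * a.1 * g⁻¹ = g * b.1 * g⁻¹ := congrArg Subtype.val hab
    apply Subtype.ext
    exact mul_left_cancel (mul_right_cancel h)
  obtain ⟨y, hy⟩ := (Finite.injective_iff_surjective.1 hinj) ⟨x, hx⟩
  have h : g * y.1 * g⁻¹ = x := congrArg Subtype.val hy
  have h' : g⁻¹ * x * g = y.1 := by rw [← h]; group
  rw [h']
  exact y.2

theorem cc_one_kron_inj {d k : ℕ} (hd : 0 < d) {b b' : Matrix (Fin k) (Fin k) F}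
    (h : (1 : Matrix (Fin d) (Fin d) F) ⊗ₖ b = (1 : Matrix (Fin d) (Fin d) F) ⊗ₖ b') :
    b = b' := by
  ext s t
  have h' := congrFun (congrFun h (⟨0, hd⟩, s)) (⟨0, hd⟩, t)
  rw [Matrix.kronecker_apply, Matrix.kronecker_apply, Matrix.one_apply_eq, one_mul, one_mul] at h'
  exact h'

theorem cc_kron_one_inj {d k : ℕ} (hk : 0 < k) {a a' : Matrix (Fin d) (Fin d) F}
    (h : a ⊗ₖ (1 : Matrix (Fin k) (Fin k) F) = a' ⊗ₖ (1 : Matrix (Fin k) (Fin k) F)) :
    a = a' := by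
  ext i j
  have h' := congrFun (congrFun h (i, ⟨0, hk⟩)) (j, ⟨0, hk⟩)
  rw [Matrix.kronecker_apply, Matrix.kronecker_apply, Matrix.one_apply_eq, mul_one, mul_one] at h'
  exact h'

theorem cc_tmat_mul {d k : ℕ} (e : Fin n ≃ Fin d × Fin k) (P : GL (Fin n) F)
    (a a' : Matrix (Fin d) (Fin d) F) (b b' : Matrix (Fin k) (Fin k) F) :
    tmat e P a b * tmat e P a' b' = tmat e P (a * a') (b * b') := by
  rw [tmat_eq_cT, tmat_eq_cT, tmat_eq_cT, ← cT_mul, Matrix.mul_kronecker_mul]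

theorem cc_tmat_one {d k : ℕ} (e : Fin n ≃ Fin d × Fin k) (P : GL (Fin n) F) :
    tmat e P (1 : Matrix (Fin d) (Fin d) F) (1 : Matrix (Fin k) (Fin k) F) = 1 := by
  rw [tmat_eq_cT, Matrix.one_kronecker_one, cT_one]

theorem cc_comm_one_kron {d k : ℕ} (hk : 0 < k) (Y : Matrix (Fin d × Fin k) (Fin d × Fin k) F)
    (h : ∀ b : Matrix (Fin k) (Fin k) F, Y * ((1 : Matrix (Fin d) (Fin d) F) ⊗ₖ b) =
      ((1 : Matrix (Fin d) (Fin d) F) ⊗ₖ b) * Y) :
    ∃ a : Matrix (Fin d) (Fin d) F, Y = a ⊗ₖ (1 : Matrix (Fin k) (Fin k) F) := by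
  refine ⟨Matrix.of fun i j => Y (i, ⟨0, hk⟩) (j, ⟨0, hk⟩), ?_⟩
  ext ⟨i, s⟩ ⟨j, t⟩
  rw [Matrix.kronecker_apply, Matrix.of_apply]
  by_cases hst : s = t
  · subst hst
    rw [Matrix.one_apply_eq, mul_one]
    have hb := congrFun (congrFun (h (Matrix.of fun u v =>
      if u = s ∧ v = (⟨0, hk⟩ : Fin k) then (1 : F) else 0)) (i, s)) (j, ⟨0, hk⟩)
    rw [cc_mul_one_kron, cc_one_kron_mul] at hb
    have e1 : ∑ u, Y (i, s) (j, u) * (Matrix.of fun u v =>
        if u = s ∧ v = (⟨0, hk⟩ : Fin k) then (1 : F) else 0) u ⟨0, hk⟩ = Y (i, s) (j, s) := by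
      rw [Finset.sum_eq_single s]
      · simp
      · intro u _ hu; simp [hu]
      · intro h'; exact absurd (Finset.mem_univ _) h'
    have e2 : ∑ u, (Matrix.of fun u v =>
        if u = s ∧ v = (⟨0, hk⟩ : Fin k) then (1 : F) else 0) s u * Y (i, u) (j, ⟨0, hk⟩) =
        Y (i, ⟨0, hk⟩) (j, ⟨0, hk⟩) := by
      rw [Finset.sum_eq_single (⟨0, hk⟩ : Fin k)]
      · simp
      · intro u _ hu; simp [hu]
      · intro h'; exact absurd (Finset.mem_univ _) h'
    rw [e1, e2] at hb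
    exact hb
  · rw [Matrix.one_apply_ne hst, mul_zero]
    have hb := congrFun (congrFun (h (Matrix.of fun u v =>
      if u = t ∧ v = t then (1 : F) else 0)) (i, s)) (j, t)
    rw [cc_mul_one_kron, cc_one_kron_mul] at hb
    have e1 : ∑ u, Y (i, s) (j, u) * (Matrix.of fun u v =>
        if u = t ∧ v = t then (1 : F) else 0) u t = Y (i, s) (j, t) := by
      rw [Finset.sum_eq_single t]
      · simp
      · intro u _ hu; simp [hu]
      · intro h'; exact absurd (Finset.mem_univ _) h'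
    have e2 : ∑ u, (Matrix.of fun u v =>
        if u = t ∧ v = t then (1 : F) else 0) s u * Y (i, u) (j, t) = 0 := by
      refine Finset.sum_eq_zero fun u _ => ?_
      simp [hst]
    rw [e1, e2] at hb
    exact hb

/-- Skolem–Noether for the matrix algebra `M_k(F)`: a multiplicative linear endomorphism not
killing the matrix unit `E₀₀` is conjugation by an invertible matrix. -/
theorem cc_skolem_noether {k : ℕ} (hk : 0 < k)
    (φ : Matrix (Fin k) (Fin k) F →ₗ[F] Matrix (Fin k) (Fin k) F)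
    (hmul : ∀ b b', φ (b * b') = φ b * φ b')
    (hne : φ (Matrix.of fun u v : Fin k =>
      if u = ⟨0, hk⟩ ∧ v = ⟨0, hk⟩ then (1 : F) else 0) ≠ 0) :
    ∃ c : Matrix (Fin k) (Fin k) F, c.det ≠ 0 ∧ ∀ b, φ b * c = c * b := by
  classical
  set o : Fin k := ⟨0, hk⟩ with ho
  set E : Matrix (Fin k) (Fin k) F := Matrix.of fun u v : Fin k =>
      if u = o ∧ v = o then (1 : F) else 0 with hE
  have hEE : E * E = E := by
    ext u v
    rw [Matrix.mul_apply, Finset.sum_eq_single o]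
    · simp only [hE, Matrix.of_apply]
      by_cases hu : u = o <;> by_cases hv : v = o <;> simp [hu, hv]
    · intro w _ hw
      simp [hE, hw]
    · intro h'; exact absurd (Finset.mem_univ _) h'
  have hφEE : φ E * φ E = φ E := by rw [← hmul, hEE]
  obtain ⟨u₀, hu₀⟩ : ∃ u₀ : Fin k → F, φ E *ᵥ u₀ ≠ 0 := by
    by_contra hcon
    push Not at hcon
    apply hne
    ext i j
    have h := congrFun (hcon (Pi.single j 1)) i
    simpa using h
  obtain ⟨v, hv⟩ : ∃ v : Fin k → F, v = φ E *ᵥ u₀ := ⟨_, rfl⟩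
  have hEv : φ E *ᵥ v = v := by
    rw [hv, Matrix.mulVec_mulVec, hφEE]
  let colM : (Fin k → F) → Matrix (Fin k) (Fin k) F :=
    fun x => Matrix.of fun u w => if w = o then x u else 0
  have hcol_mul : ∀ (b : Matrix (Fin k) (Fin k) F) (x : Fin k → F),
      b * colM x = colM (b *ᵥ x) := by
    intro b x
    ext u w
    simp only [colM, Matrix.mul_apply, Matrix.of_apply, Matrix.mulVec, dotProduct]
    by_cases hw : w = o
    · simp [hw]
    · simp [hw]
  have hcol_add : ∀ x y : Fin k → F, colM (x + y) = colM x + colM y := by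
    intro x y
    ext u w
    simp only [colM, Matrix.of_apply, Matrix.add_apply, Pi.add_apply]
    split_ifs <;> simp
  have hcol_smul : ∀ (r : F) (x : Fin k → F), colM (r • x) = r • colM x := by
    intro r x
    ext u w
    simp only [colM, Matrix.of_apply, Matrix.smul_apply, Pi.smul_apply]
    split_ifs <;> simp
  let T : (Fin k → F) →ₗ[F] (Fin k → F) :=
    { toFun := fun x => φ (colM x) *ᵥ v
      map_add' := by
        intro x y
        rw [hcol_add, map_add, Matrix.add_mulVec]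
      map_smul' := by
        intro r x
        rw [hcol_smul, map_smul, Matrix.smul_mulVec]
        rfl }
  have hTapp : ∀ x, T x = φ (colM x) *ᵥ v := fun x => rfl
  have hT : ∀ (b : Matrix (Fin k) (Fin k) F) (x : Fin k → F), T (b *ᵥ x) = φ b *ᵥ T x := by
    intro b x
    rw [hTapp, hTapp, ← hcol_mul, hmul]
    exact (Matrix.mulVec_mulVec v (φ b) (φ (colM x))).symm
  have hTo : T (Pi.single o 1) = v := by
    rw [hTapp]
    have h1 : colM (Pi.single o 1) = E := by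
      ext u w
      simp only [colM, hE, Matrix.of_apply, Pi.single_apply]
      by_cases hu : u = o <;> by_cases hw : w = o <;> simp [hu, hw]
    rw [h1]
    exact hEv
  have hv0 : v ≠ 0 := by rw [hv]; exact hu₀
  have hTinj : Function.Injective T := by
    rw [injective_iff_map_eq_zero]
    intro x hx
    by_contra hx0
    obtain ⟨i, hi⟩ : ∃ i, x i ≠ 0 := by
      by_contra h
      push Not at h
      exact hx0 (funext h)
    have hb : (Matrix.of fun u w => if w = i then (Pi.single o (1 : F) : Fin k → F) u * (x i)⁻¹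
        else 0) *ᵥ x = Pi.single o 1 := by
      ext u
      simp only [Matrix.mulVec, dotProduct, Matrix.of_apply]
      rw [Finset.sum_eq_single i]
      · simp [hi]
      · intro w _ hw; simp [hw]
      · intro h'; exact absurd (Finset.mem_univ _) h'
    have h0 : T (Pi.single o 1) = 0 := by
      rw [← hb, hT, hx, Matrix.mulVec_zero]
    rw [hTo] at h0
    exact hv0 h0
  refine ⟨LinearMap.toMatrix' T, ?_, ?_⟩
  · intro h0
    obtain ⟨x, hx0, hx⟩ := Matrix.exists_mulVec_eq_zero_iff.2 h0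
    have h1 : T x = 0 := by
      rw [← hx, ← Matrix.toLin'_apply, Matrix.toLin'_toMatrix']
    exact hx0 (hTinj (by rw [h1, map_zero]))
  · intro b
    have h1 : (Matrix.toLin' (φ b)).comp T = T.comp (Matrix.toLin' b) := by
      apply LinearMap.ext
      intro x
      rw [LinearMap.comp_apply, LinearMap.comp_apply, Matrix.toLin'_apply, Matrix.toLin'_apply, hT]
    have h2 := congrArg LinearMap.toMatrix' h1
    rw [LinearMap.toMatrix'_comp, LinearMap.toMatrix'_comp, LinearMap.toMatrix'_toLin',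
      LinearMap.toMatrix'_toLin'] at h2
    exact h2

theorem cT_zero {d k : ℕ} (e : Fin n ≃ Fin d × Fin k) (P : GL (Fin n) F) :
    cT e P (0 : Matrix (Fin d × Fin k) (Fin d × Fin k) F) = 0 := by
  have h := cT_smul e P (0 : F) (0 : Matrix (Fin d × Fin k) (Fin d × Fin k) F)
  rw [zero_smul, zero_smul] at h
  exact h

theorem cc_normalizer [Fintype F] {d k : ℕ} (e : Fin n ≃ Fin d × Fin k) (P : GL (Fin n) F)
    (R : Subgroup (GL (Fin d) F)) (N : Subgroup (GL (Fin n) F))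
    (hR : ∀ M : Matrix (Fin d) (Fin d) F, (∀ s ∈ matrixSet R, M * s = s * M) →
      ∃ c : F, M = c • (1 : Matrix (Fin d) (Fin d) F))
    (h1 : ∀ x ∈ N, ∃ y ∈ R, x.1 = tmat e P y.1 1)
    (h2 : ∀ y ∈ R, ∃ x ∈ N, x.1 = tmat e P y.1 1)
    (g : GL (Fin n) F) (hg : ∀ x ∈ N, g * x * g⁻¹ ∈ N) :
    g ∈ tensorProductSubgroup d k e P := by
  by_cases hn : n = 0
  · subst hn
    have h1g : g = 1 := by
      apply Units.ext
      ext i
      exact i.elim0
    rw [h1g]
    exact one_mem _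
  have hcard : n = d * k := by
    have := Fintype.card_congr e
    simpa using this
  have hd : 0 < d := by
    rcases Nat.eq_zero_or_pos d with h | h
    · rw [h, zero_mul] at hcard; exact absurd hcard hn
    · exact h
  have hk : 0 < k := by
    rcases Nat.eq_zero_or_pos k with h | h
    · rw [h, mul_zero] at hcard; exact absurd hcard hn
    · exact h
  have hginv := cc_inv_normal N g hg
  have hGG' : g.1 * (g⁻¹ : GL (Fin n) F).1 = 1 := cc_P_mul_inv g
  have hG'G : (g⁻¹ : GL (Fin n) F).1 * g.1 = 1 := cc_P_inv_mul g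
  have hGG'a : ∀ Z : Matrix (Fin n) (Fin n) F, g.1 * ((g⁻¹ : GL (Fin n) F).1 * Z) = Z := by
    intro Z; rw [← Matrix.mul_assoc, hGG', Matrix.one_mul]
  have hG'Ga : ∀ Z : Matrix (Fin n) (Fin n) F, (g⁻¹ : GL (Fin n) F).1 * (g.1 * Z) = Z := by
    intro Z; rw [← Matrix.mul_assoc, hG'G, Matrix.one_mul]
  -- `1 ⊗ b` commutes with `N`
  have hcommN : ∀ (b : Matrix (Fin k) (Fin k) F), ∀ x ∈ N,
      tmat e P 1 b * x.1 = x.1 * tmat e P 1 b := by
    intro b x hx
    obtain ⟨y, -, hy⟩ := h1 x hx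
    rw [hy, cc_tmat_mul, cc_tmat_mul, Matrix.one_mul, Matrix.mul_one, Matrix.one_mul,
      Matrix.mul_one]
  have hcomm : ∀ (b : Matrix (Fin k) (Fin k) F), ∀ x ∈ N,
      (g.1 * tmat e P 1 b * (g⁻¹ : GL (Fin n) F).1) * x.1 =
        x.1 * (g.1 * tmat e P 1 b * (g⁻¹ : GL (Fin n) F).1) := by
    intro b x hx
    have hc := hcommN b (g⁻¹ * x * g) (hginv x hx)
    rw [Units.val_mul, Units.val_mul] at hc
    calc (g.1 * tmat e P 1 b * (g⁻¹ : GL (Fin n) F).1) * x.1
        = g.1 * (tmat e P 1 b * ((g⁻¹ : GL (Fin n) F).1 * x.1 * g.1)) *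
            (g⁻¹ : GL (Fin n) F).1 := by
          simp only [Matrix.mul_assoc, hGG', Matrix.mul_one]
      _ = g.1 * (((g⁻¹ : GL (Fin n) F).1 * x.1 * g.1) * tmat e P 1 b) *
            (g⁻¹ : GL (Fin n) F).1 := by rw [hc]
      _ = x.1 * (g.1 * tmat e P 1 b * (g⁻¹ : GL (Fin n) F).1) := by
          simp only [Matrix.mul_assoc, hGG'a]
  have hφex : ∀ b : Matrix (Fin k) (Fin k) F, ∃ b' : Matrix (Fin k) (Fin k) F,
      g.1 * tmat e P 1 b * (g⁻¹ : GL (Fin n) F).1 = tmat e P 1 b' :=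
    fun b => cc_commutant e P R N hR h2 _ (hcomm b)
  choose φ hφ using hφex
  have hιinj : ∀ b b' : Matrix (Fin k) (Fin k) F, tmat e P 1 b = tmat e P 1 b' → b = b' :=
    fun b b' h => cc_one_kron_inj hd (cT_inj e P h)
  have hιmul : ∀ b b' : Matrix (Fin k) (Fin k) F,
      tmat e P 1 b * tmat e P 1 b' = tmat e P 1 (b * b') := by
    intro b b'
    rw [cc_tmat_mul, Matrix.one_mul]
  have hιadd : ∀ b b' : Matrix (Fin k) (Fin k) F,
      tmat e P 1 (b + b') = tmat e P 1 b + tmat e P 1 b' := by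
    intro b b'
    rw [tmat_eq_cT, tmat_eq_cT, tmat_eq_cT, Matrix.kronecker_add, cT_add]
  have hιsmul : ∀ (r : F) (b : Matrix (Fin k) (Fin k) F),
      tmat e P 1 (r • b) = r • tmat e P 1 b := by
    intro r b
    rw [tmat_eq_cT, tmat_eq_cT, Matrix.kronecker_smul, cT_smul]
  have hι0 : tmat e P 1 (0 : Matrix (Fin k) (Fin k) F) = 0 := by
    rw [tmat_eq_cT, Matrix.kronecker_zero, cT_zero]
  have hφadd : ∀ b b', φ (b + b') = φ b + φ b' := by
    intro b b'
    apply hιinj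
    rw [← hφ, hιadd, hιadd, ← hφ, ← hφ, Matrix.mul_add, Matrix.add_mul]
  have hφsmul : ∀ (r : F) b, φ (r • b) = r • φ b := by
    intro r b
    apply hιinj
    rw [← hφ, hιsmul, hιsmul, ← hφ, Matrix.mul_smul, Matrix.smul_mul]
  have hφmul : ∀ b b', φ (b * b') = φ b * φ b' := by
    intro b b'
    apply hιinj
    rw [← hφ, ← hιmul, ← hιmul, ← hφ, ← hφ]
    simp only [Matrix.mul_assoc, hG'Ga]
  let φL : Matrix (Fin k) (Fin k) F →ₗ[F] Matrix (Fin k) (Fin k) F :=
    { toFun := φ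
      map_add' := hφadd
      map_smul' := fun r b => by rw [hφsmul]; rfl }
  have hφL : ∀ b, φL b = φ b := fun b => rfl
  have hφE : φL (Matrix.of fun u v : Fin k =>
      if u = ⟨0, hk⟩ ∧ v = ⟨0, hk⟩ then (1 : F) else 0) ≠ 0 := by
    rw [hφL]
    intro h0
    have h3 := hφ (Matrix.of fun u v : Fin k =>
      if u = ⟨0, hk⟩ ∧ v = ⟨0, hk⟩ then (1 : F) else 0)
    rw [h0, hι0] at h3
    have h4 : tmat e P 1 (Matrix.of fun u v : Fin k =>
        if u = ⟨0, hk⟩ ∧ v = ⟨0, hk⟩ then (1 : F) else 0) = 0 := by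
      have h5 := congrArg (fun Z => (g⁻¹ : GL (Fin n) F).1 * Z * g.1) h3
      simp only [Matrix.mul_assoc, hG'G, hG'Ga, Matrix.mul_one, Matrix.mul_zero,
        Matrix.zero_mul] at h5
      exact h5
    rw [← hι0] at h4
    have h6 := hιinj _ _ h4
    have h7 := congrFun (congrFun h6 ⟨0, hk⟩) ⟨0, hk⟩
    simp at h7
  obtain ⟨c, hcdet, hc⟩ := cc_skolem_noether hk φL hφmul hφE
  have hcu : IsUnit c.det := isUnit_iff_ne_zero.2 hcdet
  have hcc' : c * c⁻¹ = 1 := Matrix.mul_nonsing_inv c hcu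
  have hc'c : c⁻¹ * c = 1 := Matrix.nonsing_inv_mul c hcu
  have hφc : ∀ b, φ b = c * b * c⁻¹ := by
    intro b
    rw [← hc b, hφL, Matrix.mul_assoc, hcc', Matrix.mul_one]
  have hgι : ∀ b, g.1 * tmat e P 1 b = tmat e P 1 (φ b) * g.1 := by
    intro b
    rw [← hφ b]
    simp only [Matrix.mul_assoc, hG'G, Matrix.mul_one]
  obtain ⟨u, hu⟩ : ∃ u : Matrix (Fin n) (Fin n) F, u = tmat e P 1 c⁻¹ * g.1 := ⟨_, rfl⟩
  obtain ⟨u', hu'⟩ : ∃ u' : Matrix (Fin n) (Fin n) F,
      u' = (g⁻¹ : GL (Fin n) F).1 * tmat e P 1 c := ⟨_, rfl⟩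
  have huu' : u * u' = 1 := by
    rw [hu, hu']
    calc tmat e P 1 c⁻¹ * g.1 * ((g⁻¹ : GL (Fin n) F).1 * tmat e P 1 c)
        = tmat e P 1 c⁻¹ * tmat e P 1 c := by simp only [Matrix.mul_assoc, hGG'a]
      _ = 1 := by rw [hιmul, hc'c, cc_tmat_one]
  have hu'u : u' * u = 1 := by
    rw [hu, hu']
    calc (g⁻¹ : GL (Fin n) F).1 * tmat e P 1 c * (tmat e P 1 c⁻¹ * g.1)
        = (g⁻¹ : GL (Fin n) F).1 * (tmat e P 1 c * tmat e P 1 c⁻¹) * g.1 := by
          simp only [Matrix.mul_assoc]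
      _ = 1 := by rw [hιmul, hcc', cc_tmat_one, Matrix.mul_one, hG'G]
  have hucomm : ∀ b, u * tmat e P 1 b = tmat e P 1 b * u := by
    intro b
    calc u * tmat e P 1 b = tmat e P 1 c⁻¹ * (g.1 * tmat e P 1 b) := by
          rw [hu, Matrix.mul_assoc]
      _ = tmat e P 1 c⁻¹ * tmat e P 1 (c * b * c⁻¹) * g.1 := by
          rw [hgι, hφc]
          exact (Matrix.mul_assoc _ _ _).symm
      _ = tmat e P 1 (b * c⁻¹) * g.1 := by
          rw [hιmul]
          congr 2
          rw [← Matrix.mul_assoc, ← Matrix.mul_assoc, hc'c, Matrix.one_mul]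
      _ = tmat e P 1 b * u := by
          rw [hu, ← hιmul, Matrix.mul_assoc]
  have hu'comm : ∀ b, u' * tmat e P 1 b = tmat e P 1 b * u' := by
    intro b
    calc u' * tmat e P 1 b = u' * tmat e P 1 b * (u * u') := by rw [huu', Matrix.mul_one]
      _ = u' * (tmat e P 1 b * u) * u' := by simp only [Matrix.mul_assoc]
      _ = u' * (u * tmat e P 1 b) * u' := by rw [hucomm]
      _ = (u' * u) * tmat e P 1 b * u' := by simp only [Matrix.mul_assoc]
      _ = tmat e P 1 b * u' := by rw [hu'u, Matrix.one_mul]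
  obtain ⟨a, ha⟩ := cc_comm_one_kron hk (cS e P u) (by
    intro b
    apply cT_inj e P
    rw [cT_mul, cT_mul, cT_cS, ← tmat_eq_cT]
    exact hucomm b)
  obtain ⟨a', ha'⟩ := cc_comm_one_kron hk (cS e P u') (by
    intro b
    apply cT_inj e P
    rw [cT_mul, cT_mul, cT_cS, ← tmat_eq_cT]
    exact hu'comm b)
  have hua : u = tmat e P a 1 := by rw [tmat_eq_cT, ← ha, cT_cS]
  have hu'a : u' = tmat e P a' 1 := by rw [tmat_eq_cT, ← ha', cT_cS]
  have haa' : a * a' = 1 := by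
    apply cc_kron_one_inj hk
    apply cT_inj e P
    rw [← tmat_eq_cT, ← tmat_eq_cT, cc_tmat_one, ← huu', hua, hu'a, cc_tmat_mul, Matrix.mul_one]
  have ha'a : a' * a = 1 := by
    apply cc_kron_one_inj hk
    apply cT_inj e P
    rw [← tmat_eq_cT, ← tmat_eq_cT, cc_tmat_one, ← hu'u, hua, hu'a, cc_tmat_mul, Matrix.mul_one]
  have hg_eq : g.1 = tmat e P a c := by
    have h3 : tmat e P 1 c * u = g.1 := by
      rw [hu, ← Matrix.mul_assoc, hιmul, hcc', cc_tmat_one, Matrix.one_mul]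
    rw [← h3, hua, cc_tmat_mul, Matrix.one_mul, Matrix.mul_one]
  rw [mem_tensorProductSubgroup_iff]
  exact ⟨⟨a, a', haa', ha'a⟩, ⟨c, c⁻¹, hcc', hc'c⟩, hg_eq⟩

variable [Fintype F]

/-- COREC: homogeneous case, constituent absolutely irreducible: commutant and normaliser. -/
theorem coreC {d k : ℕ} (e : Fin n ≃ Fin d × Fin k) (P : GL (Fin n) F)
    (R : Subgroup (GL (Fin d) F)) (N : Subgroup (GL (Fin n) F))
    (hR : ActsAbsolutelyIrreducibly (matrixSet R)) (h1 : ∀ x ∈ N, ∃ y ∈ R, x.1 = tmat e P y.1 1)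
    (h2 : ∀ y ∈ R, ∃ x ∈ N, x.1 = tmat e P y.1 1) :
    (∀ X : Matrix (Fin n) (Fin n) F, (∀ x ∈ N, X * x.1 = x.1 * X) →
      ∃ b : Matrix (Fin k) (Fin k) F, X = tmat e P 1 b) ∧
    (∀ g : GL (Fin n) F, (∀ x ∈ N, g * x * g⁻¹ ∈ N) → g ∈ tensorProductSubgroup d k e P) :=
  ⟨fun X hX => cc_commutant e P R N hR.2 h2 X hX,
    fun g hg => cc_normalizer e P R N hR.2 h1 h2 g hg⟩

end Cfsg.Agent.Lib.Helper21.ASCOREC
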