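import Mathlib
import Cfsg.Prelude.Def_GeometricClasses
import Cfsg.Agent.Lib.Helper71.Asch0
import Cfsg.Agent.Lib.Helper71.Asch5

/-!
# S5630 (Aschbacher's theorem), piece SL1 (helper71's project)

A maximal commutative subgroup `A` of `L` and a common eigenvector of `A` (all elements of `L`
have order dividing `z`, and `F` contains a primitive `z`-th root of unity).
-/

set_option autoImplicit false

namespace Cfsg.Agent.Lib.Helper21.ASSL1

open Matrix Cfsg.Geo Cfsg.Agent.Lib.Helper71.Asch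
open scoped Kronecker

variable {n : ℕ} {F : Type*} [Field F]

/-- a maximal commutative subgroup of a subgroup of a finite group -/
theorem sl1_exists_max_abelian {G : Type*} [Group G] [Finite G] (L : Subgroup G) :
    ∃ A : Subgroup G, A ≤ L ∧ (∀ a ∈ A, ∀ b ∈ A, a * b = b * a) ∧
      (∀ x ∈ L, (∀ a ∈ A, x * a = a * x) → x ∈ A) := by
  obtain ⟨A, ⟨hAL, hAc⟩, hmax⟩ := Set.exists_max_image
    {A : Subgroup G | A ≤ L ∧ ∀ a ∈ A, ∀ b ∈ A, a * b = b * a} (fun A => Nat.card A)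
    (Set.toFinite _) ⟨⊥, bot_le, by
      intro a ha b hb
      rw [Subgroup.mem_bot] at ha hb
      rw [ha, hb]⟩
  refine ⟨A, hAL, hAc, ?_⟩
  intro x hx hxA
  obtain ⟨S, hS⟩ : ∃ S : Set G, S = (A : Set G) ∪ {x} := ⟨_, rfl⟩
  have hScomm : ∀ a ∈ S, ∀ b ∈ S, a * b = b * a := by
    intro a ha b hb
    rw [hS] at ha hb
    rcases ha with ha | ha <;> rcases hb with hb | hb
    · exact hAc a ha b hb
    · rw [Set.mem_singleton_iff.1 hb]; exact (hxA a ha).symm
    · rw [Set.mem_singleton_iff.1 ha]; exact hxA b hb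
    · rw [Set.mem_singleton_iff.1 ha, Set.mem_singleton_iff.1 hb]
  have hS1 : S ⊆ Subgroup.centralizer S := by
    intro a ha
    rw [SetLike.mem_coe, Subgroup.mem_centralizer_iff]
    intro b hb
    exact hScomm b hb a ha
  have hcl : Subgroup.closure S ≤ Subgroup.centralizer S :=
    (Subgroup.closure_le_centralizer_centralizer S).trans (Subgroup.centralizer_le hS1)
  have hclcomm : ∀ a ∈ Subgroup.closure S, ∀ b ∈ Subgroup.closure S, a * b = b * a := by
    intro a ha b hb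
    have h1 := Subgroup.closure_le_centralizer_centralizer S ha
    rw [Subgroup.mem_centralizer_iff] at h1
    exact (h1 b (hcl hb)).symm
  have hclL : Subgroup.closure S ≤ L := by
    rw [Subgroup.closure_le, hS]
    rintro a (ha | ha)
    · exact hAL ha
    · rw [Set.mem_singleton_iff.1 ha]; exact hx
  have hAle : A ≤ Subgroup.closure S := fun a ha =>
    Subgroup.subset_closure (by rw [hS]; exact Or.inl ha)
  have hcard := hmax (Subgroup.closure S) ⟨hclL, hclcomm⟩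
  have heq : A = Subgroup.closure S := Subgroup.eq_of_le_of_card_ge hAle hcard
  rw [heq]
  exact Subgroup.subset_closure (by rw [hS]; exact Or.inr rfl)

/-- invariance of a subspace under polynomials in a matrix -/
theorem sl1_aeval_mem (a : Matrix (Fin n) (Fin n) F) (E : Submodule F (Fin n → F))
    (hE : ∀ v ∈ E, a *ᵥ v ∈ E) (q : Polynomial F) :
    ∀ v ∈ E, (Polynomial.aeval a q) *ᵥ v ∈ E := by
  induction q using Polynomial.induction_on with
  | C c =>
    intro v hv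
    rw [Polynomial.aeval_C, Algebra.algebraMap_eq_smul_one, Matrix.smul_mulVec,
      Matrix.one_mulVec]
    exact E.smul_mem c hv
  | add p q hp hq =>
    intro v hv
    rw [map_add, Matrix.add_mulVec]
    exact E.add_mem (hp v hv) (hq v hv)
  | monomial k c ih =>
    intro v hv
    have h1 : Polynomial.C c * Polynomial.X ^ (k + 1) =
        Polynomial.C c * Polynomial.X ^ k * Polynomial.X := by ring
    rw [h1, map_mul, Polynomial.aeval_X, ← Matrix.mulVec_mulVec]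
    exact ih _ (hE v hv)

theorem sl1_exists_eig (a : Matrix (Fin n) (Fin n) F) (E : Submodule F (Fin n → F))
    (hE : ∀ v ∈ E, a *ᵥ v ∈ E) (T : Finset F) :
    ∀ v ∈ E, v ≠ 0 →
      (Polynomial.aeval a (∏ μ ∈ T, (Polynomial.X - Polynomial.C μ))) *ᵥ v = 0 →
      ∃ μ ∈ T, ∃ w ∈ E, w ≠ 0 ∧ a *ᵥ w = μ • w := by
  classical
  induction T using Finset.induction_on with
  | empty =>
    intro v hv hv0 h
    rw [Finset.prod_empty, map_one, Matrix.one_mulVec] at h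
    exact absurd h hv0
  | insert μ T hμ ih =>
    intro v hv hv0 h
    rw [Finset.prod_insert hμ, map_mul, ← Matrix.mulVec_mulVec] at h
    obtain ⟨w, hw⟩ : ∃ w : Fin n → F,
        w = (Polynomial.aeval a (∏ μ ∈ T, (Polynomial.X - Polynomial.C μ))) *ᵥ v := ⟨_, rfl⟩
    rw [← hw] at h
    by_cases hw0 : w = 0
    · obtain ⟨μ', hμ', w', hw', hw'0, hw'e⟩ := ih v hv hv0 (by rw [← hw]; exact hw0)
      exact ⟨μ', Finset.mem_insert_of_mem hμ', w', hw', hw'0, hw'e⟩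
    · refine ⟨μ, Finset.mem_insert_self μ T, w, ?_, hw0, ?_⟩
      · rw [hw]; exact sl1_aeval_mem a E hE _ v hv
      · rw [map_sub, Polynomial.aeval_X, Polynomial.aeval_C, Algebra.algebraMap_eq_smul_one,
          Matrix.sub_mulVec, Matrix.smul_mulVec, Matrix.one_mulVec, sub_eq_zero] at h
        exact h

theorem sl1_eig_of_pow {z : ℕ} (hz : 0 < z) (ζ : F) (hζ : IsPrimitiveRoot ζ z)
    (a : Matrix (Fin n) (Fin n) F) (ha : a ^ z = 1)
    (E : Submodule F (Fin n → F)) (hE : ∀ v ∈ E, a *ᵥ v ∈ E) (hE0 : E ≠ ⊥) :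
    ∃ c : F, ∃ w ∈ E, w ≠ 0 ∧ a *ᵥ w = c • w := by
  obtain ⟨v, hv, hv0⟩ := (Submodule.ne_bot_iff E).1 hE0
  have h0 : (Polynomial.aeval a (∏ μ ∈ Polynomial.nthRootsFinset z (1 : F),
      (Polynomial.X - Polynomial.C μ))) *ᵥ v = 0 := by
    rw [← Polynomial.X_pow_sub_one_eq_prod hz hζ, map_sub, map_pow, Polynomial.aeval_X, map_one,
      ha, sub_self, Matrix.zero_mulVec]
  obtain ⟨μ, -, w, hw, hw0, hwe⟩ := sl1_exists_eig a E hE _ v hv hv0 h0
  exact ⟨μ, w, hw, hw0, hwe⟩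

theorem sl1_common_eig (hn : 1 ≤ n) (A : Subgroup (GL (Fin n) F))
    (hAc : ∀ a ∈ A, ∀ b ∈ A, a * b = b * a) (z : ℕ) (hz : 0 < z) (ζ : F)
    (hζ : IsPrimitiveRoot ζ z) (hexp : ∀ a ∈ A, a ^ z = 1) (S : Finset (GL (Fin n) F))
    (hS : ∀ a ∈ S, a ∈ A) :
    ∃ E : Submodule F (Fin n → F), E ≠ ⊥ ∧ (∀ b ∈ A, ∀ v ∈ E, b.1 *ᵥ v ∈ E) ∧
      (∀ a ∈ S, ∃ c : F, ∀ v ∈ E, a.1 *ᵥ v = c • v) := by
  classical
  induction S using Finset.induction_on with
  | empty =>
    refine ⟨⊤, ?_, fun b _ v _ => Submodule.mem_top, fun a ha => absurd ha (Finset.notMem_empty a)⟩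
    intro h
    have h1 : (Pi.single (⟨0, hn⟩ : Fin n) (1 : F) : Fin n → F) ∈
        (⊥ : Submodule F (Fin n → F)) := by
      rw [← h]; exact Submodule.mem_top
    rw [Submodule.mem_bot] at h1
    have h2 := congrFun h1 ⟨0, hn⟩
    simp at h2
  | insert a S haS ih =>
    obtain ⟨E, hE0, hEinv, hEs⟩ := ih (fun a' ha' => hS a' (Finset.mem_insert_of_mem ha'))
    have haA : a ∈ A := hS a (Finset.mem_insert_self a S)
    have haz : a.1 ^ z = 1 := by
      rw [← Units.val_pow_eq_pow_val, hexp a haA, Units.val_one]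
    obtain ⟨c, w, hw, hw0, hwe⟩ := sl1_eig_of_pow hz ζ hζ a.1 haz E (hEinv a haA) hE0
    let E' : Submodule F (Fin n → F) :=
      { carrier := {v | v ∈ E ∧ a.1 *ᵥ v = c • v}
        add_mem' := by
          rintro u v ⟨hu, hu'⟩ ⟨hv, hv'⟩
          exact ⟨E.add_mem hu hv, by rw [Matrix.mulVec_add, hu', hv', smul_add]⟩
        zero_mem' := ⟨E.zero_mem, by rw [Matrix.mulVec_zero, smul_zero]⟩
        smul_mem' := by
          rintro r v ⟨hv, hv'⟩
          exact ⟨E.smul_mem r hv, by rw [Matrix.mulVec_smul, hv', smul_comm]⟩ }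
    have hE'mem : ∀ v, v ∈ E' ↔ v ∈ E ∧ a.1 *ᵥ v = c • v := fun v => Iff.rfl
    refine ⟨E', ?_, ?_, ?_⟩
    · intro h
      have h1 : w ∈ E' := (hE'mem w).2 ⟨hw, hwe⟩
      rw [h, Submodule.mem_bot] at h1
      exact hw0 h1
    · intro b hb v hv
      rw [hE'mem] at hv ⊢
      obtain ⟨hv, hv'⟩ := hv
      refine ⟨hEinv b hb v hv, ?_⟩
      have hab : a.1 * b.1 = b.1 * a.1 := by
        rw [← Units.val_mul, ← Units.val_mul, hAc a haA b hb]
      rw [Matrix.mulVec_mulVec, hab, ← Matrix.mulVec_mulVec, hv', Matrix.mulVec_smul]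
    · intro a' ha'
      rcases Finset.mem_insert.1 ha' with rfl | ha'
      · exact ⟨c, fun v hv => ((hE'mem v).1 hv).2⟩
      · obtain ⟨c', hc'⟩ := hEs a' ha'
        exact ⟨c', fun v hv => hc' v ((hE'mem v).1 hv).1⟩

variable [Fintype F]

/-- SL1 -/
theorem SL1 (hn : 1 ≤ n) (H L : Subgroup (GL (Fin n) F)) (h : SymT H L) (z : ℕ)
    (hexp : ∀ x ∈ L, x ^ z = 1) (hz0 : (z : F) ≠ 0) (hroot : ∃ ζ : F, IsPrimitiveRoot ζ z) :
    ∃ (A : Subgroup (GL (Fin n) F)) (v₀ : Fin n → F), A ≤ L ∧ (∀ a ∈ A, ∀ b ∈ A, a * b = b * a) ∧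
      (∀ x ∈ L, (∀ a ∈ A, x * a = a * x) → x ∈ A) ∧ v₀ ≠ 0 ∧
      ∀ a ∈ A, ∃ c : F, a.1 *ᵥ v₀ = c • v₀ := by
  classical
  have _ := h
  obtain ⟨ζ, hζ⟩ := hroot
  have hz : 0 < z := by
    rcases Nat.eq_zero_or_pos z with h0 | h0
    · rw [h0] at hz0; simp at hz0
    · exact h0
  obtain ⟨A, hAL, hAc, hAm⟩ := sl1_exists_max_abelian L
  have : Fintype (GL (Fin n) F) := Fintype.ofFinite _
  obtain ⟨E, hE0, -, hEs⟩ := sl1_common_eig hn A hAc z hz ζ hζ
    (fun a ha => hexp a (hAL ha)) (Finset.univ.filter (· ∈ A))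
    (by intro a ha; exact (Finset.mem_filter.1 ha).2)
  obtain ⟨v₀, hv₀, hv₀0⟩ := (Submodule.ne_bot_iff E).1 hE0
  refine ⟨A, v₀, hAL, hAc, hAm, hv₀0, ?_⟩
  intro a ha
  obtain ⟨c, hc⟩ := hEs a (Finset.mem_filter.2 ⟨Finset.mem_univ a, ha⟩)
  exact ⟨c, hc v₀ hv₀⟩

end Cfsg.Agent.Lib.Helper21.ASSL1
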