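import Mathlib
import Cfsg.Agent.Lib.Helper48.StB

set_option autoImplicit false

/-! # S2401, piece TORA: relations among the torus elements (for helper48) -/

namespace Cfsg.Agent.Lib.Helper48.St

open Cfsg.Agent.Lib.Helper48 Matrix

variable {K : Type*} [Field K] {G : Type*} [Group G] {n : ℕ}
variable {X : Fin n → Fin n → K → G}

theorem h21_H_rel (hW : WMon X) (hS : SL2Facts X) (a b c : Fin n) (hab : a ≠ b) (hac : a ≠ c)
    (hbc : b ≠ c) (t : K) (ht : t ≠ 0) :
    stH X b c t = stH X a c t * stH X a b t⁻¹ := by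
  have hν := hW a b hab 1 one_ne_zero
  have hsa : Equiv.swap a b a = b := Equiv.swap_apply_left a b
  have hsc : Equiv.swap a b c = c := Equiv.swap_apply_of_ne_of_ne hac.symm hbc.symm
  have hma : stM a b (1 : K) a = -1 := by simp [stM]
  have hmc : stM a b (1 : K) c = 1 := by simp [stM, hac.symm, hbc.symm]
  have e1 : ∀ u : K, stW X a b 1 * stW X a c u * (stW X a b 1)⁻¹ = stW X b c (-u) := by
    intro u
    rw [isMon_conj_W hν a c hac u, hsa, hsc, hma, hmc]
    congr 1
    simp
  have e2 : stW X a b 1 * stH X a c t * (stW X a b 1)⁻¹ = stH X b c t := by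
    have hdef : stH X a c t = stW X a c t * (stW X a c 1)⁻¹ := rfl
    have e : stW X a b 1 * stH X a c t * (stW X a b 1)⁻¹
        = (stW X a b 1 * stW X a c t * (stW X a b 1)⁻¹)
          * (stW X a b 1 * stW X a c 1 * (stW X a b 1)⁻¹)⁻¹ := by
      rw [hdef]
      group
    have e3 : stH X b c (-t) = stH X b c t * stH X b c (-1) := by
      have h := hS.H_mul b c hbc t (-1) ht (by simp)
      rwa [mul_neg_one] at h
    rw [e, e1 t, e1 1, stW_eq b c (-t), stW_eq b c (-1), e3]
    group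
  have hh := isMon_inv (isMon_H hW a c hac t ht)
  have e4 : (stH X a c t)⁻¹ * stW X a b 1 * (stH X a c t)⁻¹⁻¹ = stW X a b t⁻¹ := by
    rw [isMon_conj_W hh a b hab 1]
    simp [hab.symm, hbc]
  have e5 : stW X a b 1 * stH X a c t * (stW X a b 1)⁻¹ = stH X a c t * stH X a b t⁻¹ := by
    have e : stW X a b 1 * stH X a c t * (stW X a b 1)⁻¹
        = stH X a c t * ((stH X a c t)⁻¹ * stW X a b 1 * (stH X a c t)⁻¹⁻¹)
          * (stW X a b 1)⁻¹ := by
      group
    rw [e, e4, mul_assoc]
    rfl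
  rw [← e2, e5]

theorem h21_H_comm (hW : WMon X) (hS : SL2Facts X) (i j k l : Fin n) (hij : i ≠ j) (hkl : k ≠ l)
    (s t : K) (hs : s ≠ 0) (ht : t ≠ 0) :
    stH X i j s * stH X k l t = stH X k l t * stH X i j s := by
  obtain ⟨m, hm⟩ : ∃ m : Fin n → K, IsMon X (stH X i j s) 1 m := ⟨_, isMon_H hW i j hij s hs⟩
  obtain ⟨c, hc⟩ : ∃ c : K, c = m k * (m l)⁻¹ := ⟨_, rfl⟩
  have hc0 : c ≠ 0 := by
    rw [hc]
    exact mul_ne_zero (hm.1 k) (inv_ne_zero (hm.1 l))
  have e1 : ∀ u : K, stH X i j s * stW X k l u * (stH X i j s)⁻¹ = stW X k l (c * u) := by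
    intro u
    rw [isMon_conj_W hm k l hkl u, ← hc]
    rfl
  have e2 : stH X i j s * stH X k l t * (stH X i j s)⁻¹ = stH X k l t := by
    have hdef : stH X k l t = stW X k l t * (stW X k l 1)⁻¹ := rfl
    have e : stH X i j s * (stW X k l t * (stW X k l 1)⁻¹) * (stH X i j s)⁻¹
        = (stH X i j s * stW X k l t * (stH X i j s)⁻¹)
          * (stH X i j s * stW X k l 1 * (stH X i j s)⁻¹)⁻¹ := by
      group
    have e3 : stH X k l c * stH X k l t = stH X k l t * stH X k l c := by
      rw [← hS.H_mul k l hkl c t hc0 ht, ← hS.H_mul k l hkl t c ht hc0, mul_comm]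
    have e6 : stH X i j s * (stW X k l t * (stW X k l 1)⁻¹) * (stH X i j s)⁻¹
        = stW X k l t * (stW X k l 1)⁻¹ := by
      rw [e, e1 t, e1 1, mul_one, stW_eq k l (c * t), stW_eq k l c,
        hS.H_mul k l hkl c t hc0 ht, e3]
      have e7 : stW X k l t = stH X k l t * stW X k l 1 := stW_eq k l t
      rw [e7]
      group
    rw [hdef]
    exact e6
  calc stH X i j s * stH X k l t
      = (stH X i j s * stH X k l t * (stH X i j s)⁻¹) * stH X i j s := by group
    _ = stH X k l t * stH X i j s := by rw [e2]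

/-! ## Piece TORA : relations among the torus elements -/
theorem torFacts (hW : WMon X) (hS : SL2Facts X) : TorFacts X :=
  ⟨fun a b c hab hac hbc t ht => h21_H_rel hW hS a b c hab hac hbc t ht,
    fun i j k l hij hkl s t hs ht => h21_H_comm hW hS i j k l hij hkl s t hs ht⟩

end Cfsg.Agent.Lib.Helper48.St
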