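import Mathlib
import Cfsg.Prelude.Def_GeometricClasses
import Cfsg.Agent.Lib.Helper51.HypPairs
import Cfsg.Agent.Lib.Helper51.NegOne
import Cfsg.Agent.Lib.Helper52.GeoOmega
import Cfsg.Agent.Lib.Helper54.OrthSpin
import Cfsg.Agent.Lib.Helper54.EobQ
import Cfsg.Agent.Lib.Helper98.O72Defs
import Cfsg.Agent.Lib.Helper98.O72Fix
import Cfsg.Agent.Lib.Helper88.O72R2ANISO

/-!
# Project O72 (S5972, architect helper98): piece R2BWD (proof by helper21)

When `-1` is a nonsquare, `Ω_{2d+1}(F)` contains an involution fixing no totally singular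
`d`-space: the product of the reflections in `e₀` and `e₁ + f₁`.
-/

set_option autoImplicit false
set_option linter.unusedSectionVars false
set_option linter.unusedVariables false

namespace Cfsg.Agent.Lib.Helper98.O72

open Module Cfsg Cfsg.Agent.Lib.Helper96.Sp Cfsg.Agent.Lib.Helper51
open scoped MatrixGroups

section R2bwdGeneric

variable {ι : Type} [Fintype ι] [DecidableEq ι] {F : Type*} [Field F] [Fintype F]
variable (Q : QuadraticForm F (ι → F))

/-- decomposition of a vector along two orthogonal unit vectors -/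
theorem r2bwd_decomp (h2 : (2 : F) ≠ 0) (e u : ι → F) (hQe : Q e = 1) (hQu : Q u = 1)
    (hpol : QuadraticMap.polar ⇑Q e u = 0) (v : ι → F) :
    ∃ (a b : F) (w : ι → F), v = a • e + b • u + w ∧ QuadraticMap.polar ⇑Q e w = 0 ∧
      QuadraticMap.polar ⇑Q u w = 0 := by
  have hpol' : QuadraticMap.polar ⇑Q u e = 0 := by rw [QuadraticMap.polar_comm]; exact hpol
  refine ⟨QuadraticMap.polar ⇑Q e v / 2, QuadraticMap.polar ⇑Q u v / 2,
    v - (QuadraticMap.polar ⇑Q e v / 2) • e - (QuadraticMap.polar ⇑Q u v / 2) • u, ?_, ?_, ?_⟩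
  · abel
  · rw [QuadraticMap.polar_sub_right, QuadraticMap.polar_sub_right, QuadraticMap.polar_smul_right,
      QuadraticMap.polar_smul_right, Cfsg.Agent.Lib.Helper51.polar_self, hQe, hpol]
    simp only [smul_eq_mul]
    field_simp
    ring
  · rw [QuadraticMap.polar_sub_right, QuadraticMap.polar_sub_right, QuadraticMap.polar_smul_right,
      QuadraticMap.polar_smul_right, Cfsg.Agent.Lib.Helper51.polar_self, hQu, hpol']
    simp only [smul_eq_mul]
    field_simp
    ring

/-- the action of the product of the two reflections -/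
theorem r2bwd_act (e u : ι → F) (hQe : Q e = 1) (hQu : Q u = 1)
    (hpol : QuadraticMap.polar ⇑Q e u = 0) (a b : F) (w : ι → F)
    (hew : QuadraticMap.polar ⇑Q e w = 0) (huw : QuadraticMap.polar ⇑Q u w = 0) :
    (([e, u].map (fun v => reflectionMatrix ⇑Q v)).prod).mulVec (a • e + b • u + w) =
      (-a) • e + (-b) • u + w := by
  have hvs : ∀ v ∈ [e, u], Q v ≠ 0 := by
    intro v hv
    rcases List.mem_pair.1 hv with h | h
    · rw [h, hQe]; exact one_ne_zero
    · rw [h, hQu]; exact one_ne_zero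
  have hp : [e, u].Pairwise (fun v w => QuadraticMap.polar ⇑Q v w = 0) := by
    rw [List.pairwise_pair]
    exact hpol
  have h1 := prod_refl_neg Q [e, u] hvs hp e (by simp)
  have h2 := prod_refl_neg Q [e, u] hvs hp u (by simp)
  have h3 := prod_refl_fixed Q [e, u] w (by
    intro v hv
    rcases List.mem_pair.1 hv with h | h
    · rw [h]; exact hew
    · rw [h]; exact huw)
  rw [Matrix.mulVec_add, Matrix.mulVec_add, Matrix.mulVec_smul, Matrix.mulVec_smul, h1, h2, h3]
  simp

theorem r2bwd_sq (h2 : (2 : F) ≠ 0) (e u : ι → F) (hQe : Q e = 1) (hQu : Q u = 1)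
    (hpol : QuadraticMap.polar ⇑Q e u = 0) :
    ([e, u].map (fun v => reflectionMatrix ⇑Q v)).prod *
      ([e, u].map (fun v => reflectionMatrix ⇑Q v)).prod = 1 := by
  apply Matrix.mulVec_injective
  funext v
  obtain ⟨a, b, w, rfl, hew, huw⟩ := r2bwd_decomp Q h2 e u hQe hQu hpol v
  rw [← Matrix.mulVec_mulVec, r2bwd_act Q e u hQe hQu hpol a b w hew huw,
    r2bwd_act Q e u hQe hQu hpol (-a) (-b) w hew huw, neg_neg, neg_neg, Matrix.one_mulVec]

theorem r2bwd_ker (h2 : (2 : F) ≠ 0) (e u : ι → F) (hQe : Q e = 1) (hQu : Q u = 1)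
    (hpol : QuadraticMap.polar ⇑Q e u = 0) (v : ι → F)
    (hv : (([e, u].map (fun v => reflectionMatrix ⇑Q v)).prod).mulVec v + v = 0) :
    ∃ a b : F, v = a • e + b • u := by
  obtain ⟨a, b, w, rfl, hew, huw⟩ := r2bwd_decomp Q h2 e u hQe hQu hpol v
  rw [r2bwd_act Q e u hQe hQu hpol a b w hew huw] at hv
  have h3 : (2 : F) • w = 0 := by
    rw [← hv]
    module
  have hw : w = 0 := by
    rcases smul_eq_zero.1 h3 with h | h
    · exact absurd h h2
    · exact h
  exact ⟨a, b, by rw [hw, add_zero]⟩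

theorem r2bwd_norm (e u : ι → F) (hQe : Q e = 1) (hQu : Q u = 1)
    (hpol : QuadraticMap.polar ⇑Q e u = 0) (a b : F) :
    Q (a • e + b • u) = a * a + b * b := by
  rw [QuadraticMap.map_add ⇑Q, QuadraticMap.map_smul, QuadraticMap.map_smul,
    QuadraticMap.polar_smul_left, QuadraticMap.polar_smul_right, hQe, hQu, hpol]
  simp

end R2bwdGeneric

section Concrete

variable {ι : Type} [Fintype ι] [DecidableEq ι] {F : Type*} [Field F] [Fintype F]

theorem r2bwd_Qe (d : ℕ) :
    QOdd d F (Pi.single (Sum.inl ()) 1 : Unit ⊕ (Fin d ⊕ Fin d) → F) = 1 := by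
  rw [QOdd_apply]
  simp

theorem r2bwd_Qu (d : ℕ) (i0 : Fin d) :
    QOdd d F (Pi.single (Sum.inr (Sum.inl i0)) 1 + Pi.single (Sum.inr (Sum.inr i0)) 1 :
      Unit ⊕ (Fin d ⊕ Fin d) → F) = 1 := by
  rw [QOdd_apply]
  simp [Pi.single_apply]

theorem r2bwd_pol (d : ℕ) (i0 : Fin d) :
    QuadraticMap.polar ⇑(QOdd d F) (Pi.single (Sum.inl ()) 1 : Unit ⊕ (Fin d ⊕ Fin d) → F)
      (Pi.single (Sum.inr (Sum.inl i0)) 1 + Pi.single (Sum.inr (Sum.inr i0)) 1) = 0 := by
  rw [polar_QOdd]
  simp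

/-- PIECE R2BWD: when `-1` is a nonsquare, `Ω_{2d+1}` has an involution fixing no totally
singular `d`-space. -/
theorem exists_invol_no_ts (d : ℕ) (hd : 1 ≤ d) (h2 : (2 : F) ≠ 0)
    (hns : ¬ IsSquare (-1 : F)) :
    ∃ x : GL (Unit ⊕ (Fin d ⊕ Fin d)) F, x ∈ Cfsg.Geo.omegaGL (Cfsg.quadFormOdd d F) ∧
      orderOf x = 2 ∧
      ∀ W : Submodule F (Unit ⊕ (Fin d ⊕ Fin d) → F), finrank F W = d →
        (∀ w ∈ W, Cfsg.quadFormOdd d F w = 0) →
        ¬ W.map (Matrix.toLin' (x : Matrix (Unit ⊕ (Fin d ⊕ Fin d)) (Unit ⊕ (Fin d ⊕ Fin d)) F))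
          ≤ W := by
  classical
  obtain ⟨i0⟩ : Nonempty (Fin d) := ⟨⟨0, hd⟩⟩
  obtain ⟨e, he⟩ : ∃ e : Unit ⊕ (Fin d ⊕ Fin d) → F, e = Pi.single (Sum.inl ()) 1 := ⟨_, rfl⟩
  obtain ⟨u, hu⟩ : ∃ u : Unit ⊕ (Fin d ⊕ Fin d) → F,
      u = Pi.single (Sum.inr (Sum.inl i0)) 1 + Pi.single (Sum.inr (Sum.inr i0)) 1 := ⟨_, rfl⟩
  have hQe : QOdd d F e = 1 := by rw [he]; exact r2bwd_Qe d
  have hQu : QOdd d F u = 1 := by rw [hu]; exact r2bwd_Qu d i0
  have hpol : QuadraticMap.polar ⇑(QOdd d F) e u = 0 := by rw [he, hu]; exact r2bwd_pol d i0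
  have hvs : ∀ v ∈ [e, u], QOdd d F v ≠ 0 := by
    intro v hv
    rcases List.mem_pair.1 hv with h | h
    · rw [h, hQe]; exact one_ne_zero
    · rw [h, hQu]; exact one_ne_zero
  obtain ⟨M, hM⟩ : ∃ M : Matrix (Unit ⊕ (Fin d ⊕ Fin d)) (Unit ⊕ (Fin d ⊕ Fin d)) F,
      M = ([e, u].map (fun v => reflectionMatrix ⇑(QOdd d F) v)).prod := ⟨_, rfl⟩
  have hMM : M * M = 1 := by rw [hM]; exact r2bwd_sq (QOdd d F) h2 e u hQe hQu hpol
  have hMe : M.mulVec e = -e := by
    have h := r2bwd_act (QOdd d F) e u hQe hQu hpol 1 0 0 (QuadraticMap.polar_zero_right _ _)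
      (QuadraticMap.polar_zero_right _ _)
    rw [← hM] at h
    simpa using h
  have hMu : M.mulVec u = -u := by
    have h := r2bwd_act (QOdd d F) e u hQe hQu hpol 0 1 0 (QuadraticMap.polar_zero_right _ _)
      (QuadraticMap.polar_zero_right _ _)
    rw [← hM] at h
    simpa using h
  have hgM : (((reflList (QOdd d F) [e, u] hvs : isometryGroup F ⇑(QOdd d F)) :
      GL (Unit ⊕ (Fin d ⊕ Fin d)) F) :
      Matrix (Unit ⊕ (Fin d ⊕ Fin d)) (Unit ⊕ (Fin d ⊕ Fin d)) F) = M := by
    rw [coe_reflList, hM]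
  have hdet : Cfsg.Agent.Lib.Helper54.detO (QOdd d F) (reflList (QOdd d F) [e, u] hvs) = 1 := by
    rw [Cfsg.Agent.Lib.Helper54.detO_reflList]
    simp
  have hχ : spinChar (QOdd d F) 1 (reflList (QOdd d F) [e, u] hvs) = 1 := by
    rw [spinChar_reflList (QOdd d F) h2 1 one_ne_zero]
    simp [hQe, hQu]
  have hF : ringChar F ≠ 2 := by
    intro h
    apply h2
    have h3 := CharP.cast_eq_zero F (ringChar F)
    rw [h] at h3
    exact_mod_cast h3
  have hcomm := Cfsg.Agent.Lib.Helper54.mem_commutator_of_det_spin (QOdd d F) hF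
    (Cfsg.Agent.Lib.Helper54.EobQ.polarSep_odd h2) _ hdet hχ
  obtain ⟨x, hxΩ, hxM⟩ : ∃ x : GL (Unit ⊕ (Fin d ⊕ Fin d)) F,
      x ∈ Cfsg.Geo.omegaGL ⇑(QOdd d F) ∧
        (x : Matrix (Unit ⊕ (Fin d ⊕ Fin d)) (Unit ⊕ (Fin d ⊕ Fin d)) F) = M :=
    ⟨_, Cfsg.Agent.Lib.Helper52.coe_mem_omegaGL (QOdd d F) hcomm, hgM⟩
  rw [coe_QOdd] at hxΩ
  refine ⟨x, hxΩ, ?_, ?_⟩
  · -- order 2
    have : Fact (Nat.Prime 2) := ⟨Nat.prime_two⟩
    apply orderOf_eq_prime
    · apply Units.ext
      rw [Units.val_pow_eq_pow_val, pow_two, hxM, hMM]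
      rfl
    · intro h1
      have h3 : M = 1 := by rw [← hxM, h1]; rfl
      rw [h3, Matrix.one_mulVec] at hMe
      have h4 := congrFun hMe (Sum.inl ())
      rw [he, Pi.neg_apply, Pi.single_eq_same] at h4
      apply h2
      linear_combination h4
  · intro W hWd hWq hWinv
    rw [hxM] at hWinv
    obtain ⟨B, hB⟩ : ∃ B : LinearMap.BilinForm F (Unit ⊕ (Fin d ⊕ Fin d) → F),
        B = QuadraticMap.polarBilin (QOdd d F) := ⟨_, rfl⟩
    have hS : B.IsSymm := ⟨fun a b => by
      rw [hB, QuadraticMap.polarBilin_apply_apply, QuadraticMap.polarBilin_apply_apply]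
      exact QuadraticMap.polar_comm _ a b⟩
    have hN : ND B ⊤ := by
      intro a _ ha
      apply Cfsg.Agent.Lib.Helper54.EobQ.polarSep_odd h2 a
      intro y
      have h := ha y Submodule.mem_top
      rw [hB, QuadraticMap.polarBilin_apply_apply] at h
      rw [QuadraticMap.polar_comm]
      exact h
    have hT : Isom B (Matrix.toLin' M) := by
      intro a b
      rw [hB, QuadraticMap.polarBilin_apply_apply, QuadraticMap.polarBilin_apply_apply,
        Matrix.toLin'_apply, Matrix.toLin'_apply, ← hgM]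
      exact isometry_polar (QOdd d F) _ a b
    have hT2 : (Matrix.toLin' M : Module.End F (Unit ⊕ (Fin d ⊕ Fin d) → F)) *
        Matrix.toLin' M = 1 := by
      rw [Module.End.mul_eq_comp, ← Matrix.toLin'_mul, hMM, Matrix.toLin'_one]
      rfl
    have haniso : ∀ v ∈ LinearMap.ker
        ((Matrix.toLin' M : Module.End F (Unit ⊕ (Fin d ⊕ Fin d) → F)) + 1),
        B v v = 0 → v = 0 := by
      intro v hv hvv
      rw [LinearMap.mem_ker, LinearMap.add_apply, Matrix.toLin'_apply, Module.End.one_apply] at hv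
      rw [hM] at hv
      obtain ⟨a, b, rfl⟩ := r2bwd_ker (QOdd d F) h2 e u hQe hQu hpol v hv
      rw [hB, QuadraticMap.polarBilin_apply_apply, Cfsg.Agent.Lib.Helper51.polar_self,
        r2bwd_norm (QOdd d F) e u hQe hQu hpol] at hvv
      have h5 : a * a + b * b = 0 := by
        rcases mul_eq_zero.1 hvv with h | h
        · exact absurd h h2
        · exact h
      have hb0 : b = 0 := by
        by_contra hb
        apply hns
        refine ⟨a / b, ?_⟩
        field_simp
        linear_combination -h5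
      have ha0 : a = 0 := by
        rw [hb0, mul_zero, add_zero] at h5
        exact mul_self_eq_zero.1 h5
      rw [ha0, hb0, zero_smul, zero_smul, add_zero]
    have hq : ∀ w ∈ W, QOdd d F w = 0 := by
      intro w hw
      have h := hWq w hw
      rw [← coe_QOdd] at h
      exact h
    have hWti : Orth B W W := by
      intro a ha b hb
      rw [hB, QuadraticMap.polarBilin_apply_apply]
      unfold QuadraticMap.polar
      rw [hq _ (W.add_mem ha hb), hq a ha, hq b hb]
      simp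
    have hbound := ti_bound_of_aniso hS h2 hN (Matrix.toLin' M) hT hT2 haniso W hWinv hWti
    have hV : finrank F (Unit ⊕ (Fin d ⊕ Fin d) → F) = 2 * d + 1 := by
      rw [Module.finrank_fintype_fun_eq_card, Fintype.card_sum, Fintype.card_sum,
        Fintype.card_unit, Fintype.card_fin]
      omega
    have hker : 2 ≤ finrank F (LinearMap.ker
        ((Matrix.toLin' M : Module.End F (Unit ⊕ (Fin d ⊕ Fin d) → F)) + 1)) := by
      have hli : LinearIndependent F ![e, u] := by
        rw [LinearIndependent.pair_iff]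
        intro s t hst
        have h6 := congrFun hst (Sum.inl ())
        have h7 := congrFun hst (Sum.inr (Sum.inl i0))
        rw [he, hu] at h6 h7
        simp at h6 h7
        exact ⟨h6, h7⟩
      have hspan : Submodule.span F (Set.range ![e, u]) ≤ LinearMap.ker
          ((Matrix.toLin' M : Module.End F (Unit ⊕ (Fin d ⊕ Fin d) → F)) + 1) := by
        rw [Submodule.span_le]
        rintro _ ⟨i, rfl⟩
        fin_cases i
        · show e ∈ LinearMap.ker
            ((Matrix.toLin' M : Module.End F (Unit ⊕ (Fin d ⊕ Fin d) → F)) + 1)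
          rw [LinearMap.mem_ker, LinearMap.add_apply, Matrix.toLin'_apply,
            Module.End.one_apply, hMe, neg_add_cancel]
        · show u ∈ LinearMap.ker
            ((Matrix.toLin' M : Module.End F (Unit ⊕ (Fin d ⊕ Fin d) → F)) + 1)
          rw [LinearMap.mem_ker, LinearMap.add_apply, Matrix.toLin'_apply,
            Module.End.one_apply, hMu, neg_add_cancel]
      have h8 := Submodule.finrank_mono hspan
      rw [finrank_span_eq_card hli, Fintype.card_fin] at h8
      exact h8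
    rw [hV, hWd] at hbound
    omega

end Concrete

end Cfsg.Agent.Lib.Helper98.O72
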