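import Mathlib
import Cfsg.Agent.Lib.Helper18.CTDefs

/-! Project CT (S4699, architect helper18), piece MACK2: the relative trace `dN ρ N t` of an
`N`-invariant operator commutes with `ρ`. -/

set_option autoImplicit false

namespace Cfsg.Agent.Lib.Helper18.CT

variable {G : Type*} [Group G] {F : Type*} [Field F] {V : Type*} [AddCommGroup V] [Module F V]

-- piece MACK2
theorem dN_comm [Finite G] (ρ : Representation F G V) (N : Subgroup G) (t : Module.End F V)
    (ht : ∀ g ∈ N, ρ g * t = t * ρ g) (h : G) : dN ρ N t * ρ h = ρ h * dN ρ N t := by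
  classical
  haveI : Fintype (G ⧸ N) := Fintype.ofFinite _
  have hinv : ∀ g : G, ρ g * ρ g⁻¹ = 1 := fun g => by rw [← map_mul, mul_inv_cancel, map_one]
  have hinv' : ∀ g : G, ρ g⁻¹ * ρ g = 1 := fun g => by rw [← map_mul, inv_mul_cancel, map_one]
  have key1 : ∀ (g m : G), m ∈ N → Th ρ t (g * m) = Th ρ t g := by
    intro g m hm
    unfold Th
    rw [mul_inv_rev, map_mul, map_mul]
    calc ρ g * ρ m * t * (ρ m⁻¹ * ρ g⁻¹) = ρ g * (ρ m * t) * ρ m⁻¹ * ρ g⁻¹ := by
          simp only [mul_assoc]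
      _ = ρ g * (t * ρ m) * ρ m⁻¹ * ρ g⁻¹ := by rw [ht m hm]
      _ = ρ g * t * (ρ m * ρ m⁻¹) * ρ g⁻¹ := by simp only [mul_assoc]
      _ = ρ g * t * ρ g⁻¹ := by rw [hinv, mul_one]
  have key2 : ∀ g : G, ρ h * Th ρ t g = Th ρ t (h * g) * ρ h := by
    intro g
    unfold Th
    rw [mul_inv_rev, map_mul, map_mul]
    calc ρ h * (ρ g * t * ρ g⁻¹) = ρ h * ρ g * t * ρ g⁻¹ * 1 := by
          rw [mul_one]; simp only [mul_assoc]
      _ = ρ h * ρ g * t * ρ g⁻¹ * (ρ h⁻¹ * ρ h) := by rw [hinv']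
      _ = ρ h * ρ g * t * (ρ g⁻¹ * ρ h⁻¹) * ρ h := by simp only [mul_assoc]
  have key3 : ∀ c : G ⧸ N, Th ρ t (h * Quotient.out c) = Th ρ t (Quotient.out (h • c)) := by
    intro c
    have h1 : h • c = ((h * Quotient.out c : G) : G ⧸ N) := by
      have e := MulAction.Quotient.smul_mk N h (Quotient.out c)
      rw [QuotientGroup.out_eq'] at e
      exact e
    have h2 : ((h * Quotient.out c : G) : G ⧸ N) = ((Quotient.out (h • c) : G) : G ⧸ N) := by
      rw [QuotientGroup.out_eq', h1]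
    have h3 : (h * Quotient.out c)⁻¹ * Quotient.out (h • c) ∈ N := QuotientGroup.eq.mp h2
    have h4 : Quotient.out (h • c) =
        (h * Quotient.out c) * ((h * Quotient.out c)⁻¹ * Quotient.out (h • c)) := by group
    rw [h4, key1 _ _ h3]
  unfold dN
  rw [finsum_eq_sum_of_fintype, Finset.sum_mul, Finset.mul_sum]
  rw [← Equiv.sum_comp (MulAction.toPerm h : Equiv.Perm (G ⧸ N))
    (fun c => Th ρ t (Quotient.out c) * ρ h)]
  apply Finset.sum_congr rfl
  intro c _
  show Th ρ t (Quotient.out (h • c)) * ρ h = ρ h * Th ρ t (Quotient.out c)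
  rw [key2, key3]

end Cfsg.Agent.Lib.Helper18.CT
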