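import Mathlib
import Cfsg.Agent.Lib.Helper57.BFFourier

/-!
# Piece VINV of the S4503 project (helper22)

If `D t θ = ∑ a, v a θ * ζ ^ (a t)` with integer coefficients `v` and `D s = D 1` for a unit `s`
of `ZMod p`, then `v (s a) = v a` (linear independence of the `p`-th roots of unity up to
constants).
-/

set_option autoImplicit false

namespace Cfsg.Agent.Lib.Helper21.BFT

open Cfsg
open scoped ComplexConjugate

universe u

section

variable {G : Type u} [Group G] [Fintype G]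

/-- PIECE VINV -/
theorem vinv {ι : Type*} (p : ℕ) [Fact p.Prime] (ζ : ℂ) (hζ : IsPrimitiveRoot ζ p)
    (v : ZMod p → ι → ℤ) (D : ZMod p → ι → ℂ)
    (hD : ∀ t θ, D t θ = ∑ a : ZMod p, (v a θ : ℂ) * ζ ^ (a * t).val) (s : (ZMod p)ˣ)
    (h : D (s : ZMod p) = D 1) : ∀ a θ, v ((s : ZMod p) * a) θ = v a θ := by
  intro a θ
  have e1 : D (s : ZMod p) θ =
      ∑ a : ZMod p, (v (((s⁻¹ : (ZMod p)ˣ) : ZMod p) * a) θ : ℂ) * ζ ^ a.val := by
    rw [hD]
    rw [← Fintype.sum_equiv (Units.mulLeft s)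
      (fun a => (v (((s⁻¹ : (ZMod p)ˣ) : ZMod p) * ((s : ZMod p) * a)) θ : ℂ) *
        ζ ^ ((s : ZMod p) * a).val)
      (fun a => (v (((s⁻¹ : (ZMod p)ˣ) : ZMod p) * a) θ : ℂ) * ζ ^ a.val)
      (fun a => rfl)]
    refine Finset.sum_congr rfl fun a _ => ?_
    rw [← mul_assoc, ← Units.val_mul, inv_mul_cancel, Units.val_one, one_mul, mul_comm a]
  have e2 : D 1 θ = ∑ a : ZMod p, (v a θ : ℂ) * ζ ^ a.val := by
    rw [hD]
    refine Finset.sum_congr rfl fun a _ => ?_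
    rw [mul_one]
  have e3 : D (s : ZMod p) θ = D 1 θ := congrFun h θ
  have hsum : ∑ a : ZMod p,
      ((v (((s⁻¹ : (ZMod p)ˣ) : ZMod p) * a) θ - v a θ : ℤ) : ℂ) * ζ ^ a.val = 0 := by
    rw [e1, e2, ← sub_eq_zero, ← Finset.sum_sub_distrib] at e3
    rw [← e3]
    refine Finset.sum_congr rfl fun a _ => ?_
    push_cast
    ring
  have hc := Cfsg.Agent.Lib.BF.bfF_const_of_sum_pow_eq_zero ζ hζ
    (fun a => v (((s⁻¹ : (ZMod p)ˣ) : ZMod p) * a) θ - v a θ) hsum ((s : ZMod p) * a) 0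
  simp only [mul_zero, sub_self] at hc
  rw [← mul_assoc, ← Units.val_mul, inv_mul_cancel, Units.val_one, one_mul] at hc
  exact (sub_eq_zero.mp hc).symm

end

end Cfsg.Agent.Lib.Helper21.BFT
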