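import Mathlib
import Cfsg.Agent.Lib.Helper4.CharDecomp
import Cfsg.Agent.Lib.Helper5.CharInt
import Cfsg.Agent.Lib.Helper35.Ind
import Cfsg.Agent.Lib.Helper83.IrrBasic

/-!
# Averaging a class function over the cosets of a normal subgroup
-/

set_option autoImplicit false

namespace Cfsg.Agent.Lib.Helper21

open Cfsg
open scoped ComplexConjugate

section CosetAvg

variable {G : Type*} [Group G]

/-- The average of `f` over the translates `g * h`, `h ∈ H`. -/
noncomputable def cosetAvg (H : Subgroup G) [Fintype H] (f : G → ℂ) : G → ℂ :=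
  fun g => (Nat.card H : ℂ)⁻¹ * ∑ h : H, f (g * h)

theorem cosetAvg_apply (H : Subgroup G) [Fintype H] (f : G → ℂ) (g : G) :
    cosetAvg H f g = (Nat.card H : ℂ)⁻¹ * ∑ h : H, f (g * h) := rfl

theorem cosetAvg_mul_right (H : Subgroup G) [Fintype H] (f : G → ℂ) (g : G) (h : H) :
    cosetAvg H f (g * h) = cosetAvg H f g := by
  rw [cosetAvg_apply, cosetAvg_apply]
  congr 1
  rw [← Equiv.sum_comp (Equiv.mulLeft h) (fun x : H => f (g * x))]
  refine Finset.sum_congr rfl fun x _ => ?_
  simp [mul_assoc]

theorem cosetAvg_add (H : Subgroup G) [Fintype H] (f₁ f₂ : G → ℂ) :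
    cosetAvg H (f₁ + f₂) = cosetAvg H f₁ + cosetAvg H f₂ := by
  funext g
  simp only [cosetAvg_apply, Pi.add_apply, Finset.sum_add_distrib, mul_add]

theorem cosetAvg_smul (H : Subgroup G) [Fintype H] (c : ℂ) (f : G → ℂ) :
    cosetAvg H (c • f) = c • cosetAvg H f := by
  funext g
  simp only [cosetAvg_apply, Pi.smul_apply, smul_eq_mul, ← Finset.mul_sum]
  ring

theorem cosetAvg_zero (H : Subgroup G) [Fintype H] : cosetAvg H (0 : G → ℂ) = 0 := by
  funext g
  simp [cosetAvg_apply]

theorem cosetAvg_sum (H : Subgroup G) [Fintype H] {ι : Type*} (s : Finset ι) (f : ι → G → ℂ) :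
    cosetAvg H (∑ i ∈ s, f i) = ∑ i ∈ s, cosetAvg H (f i) := by
  classical
  induction s using Finset.induction_on with
  | empty => simpa using cosetAvg_zero H
  | insert i s hi ih => rw [Finset.sum_insert hi, Finset.sum_insert hi, cosetAvg_add, ih]

/-- The cross term vanishes: the average is an orthogonal projection. -/
theorem sum_cosetAvg_mul_conj [Fintype G] (H : Subgroup G) [Fintype H] (f : G → ℂ) :
    ∑ g : G, cosetAvg H f g * conj (cosetAvg H f g) = ∑ g : G, cosetAvg H f g * conj (f g) := by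
  have hH : (Nat.card H : ℂ) ≠ 0 := by exact_mod_cast (Nat.card_pos (α := H)).ne'
  have h1 : ∀ h : H, ∑ g : G, cosetAvg H f g * conj (f (g * h)) =
      ∑ g : G, cosetAvg H f g * conj (f g) := by
    intro h
    rw [← Equiv.sum_comp (Equiv.mulRight (h : G)⁻¹)
      (fun g : G => cosetAvg H f g * conj (f (g * h)))]
    refine Finset.sum_congr rfl fun g _ => ?_
    have h2 : cosetAvg H f (g * (h : G)⁻¹) = cosetAvg H f g := by
      have := cosetAvg_mul_right H f g h⁻¹
      simpa using this
    simp only [Equiv.coe_mulRight]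
    rw [h2]
    congr 2
    simp [mul_assoc]
  calc ∑ g : G, cosetAvg H f g * conj (cosetAvg H f g)
      = ∑ g : G, (Nat.card H : ℂ)⁻¹ * ∑ h : H, cosetAvg H f g * conj (f (g * h)) := by
        refine Finset.sum_congr rfl fun g _ => ?_
        have hc : conj (cosetAvg H f g) = (Nat.card H : ℂ)⁻¹ * ∑ h : H, conj (f (g * h)) := by
          simp only [cosetAvg_apply, map_mul, map_sum, map_inv₀, Complex.conj_natCast]
        rw [hc, mul_left_comm, Finset.mul_sum]
    _ = (Nat.card H : ℂ)⁻¹ * ∑ h : H, ∑ g : G, cosetAvg H f g * conj (f (g * h)) := by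
        rw [← Finset.mul_sum, Finset.sum_comm]
    _ = (Nat.card H : ℂ)⁻¹ * ∑ _h : H, ∑ g : G, cosetAvg H f g * conj (f g) := by
        congr 1
        exact Finset.sum_congr rfl fun h _ => h1 h
    _ = ∑ g : G, cosetAvg H f g * conj (f g) := by
        rw [Finset.sum_const, Finset.card_univ, ← Nat.card_eq_fintype_card, nsmul_eq_mul,
          ← mul_assoc, inv_mul_cancel₀ hH, one_mul]

/-- Pythagoras for the coset average. -/
theorem sum_normSq_cosetAvg [Fintype G] (H : Subgroup G) [Fintype H] (f : G → ℂ) :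
    ∑ g : G, Complex.normSq (f g) = ∑ g : G, Complex.normSq (cosetAvg H f g) +
      ∑ g : G, Complex.normSq (f g - cosetAvg H f g) := by
  have h1 := sum_cosetAvg_mul_conj H f
  have h2 : ∑ g : G, cosetAvg H f g * conj (f g - cosetAvg H f g) = 0 := by
    simp only [map_sub, mul_sub, Finset.sum_sub_distrib]
    rw [h1, sub_self]
  have h3 : (∑ g : G, cosetAvg H f g * conj (f g - cosetAvg H f g)).re = 0 := by
    rw [h2]; rfl
  rw [Complex.re_sum] at h3
  rw [← Finset.sum_add_distrib]
  have h4 : ∀ g : G, Complex.normSq (f g) = Complex.normSq (cosetAvg H f g) +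
      Complex.normSq (f g - cosetAvg H f g) +
      2 * (cosetAvg H f g * conj (f g - cosetAvg H f g)).re := by
    intro g
    have : f g = cosetAvg H f g + (f g - cosetAvg H f g) := by ring
    conv_lhs => rw [this]
    rw [Complex.normSq_add]
  calc ∑ g : G, Complex.normSq (f g)
      = ∑ g : G, (Complex.normSq (cosetAvg H f g) + Complex.normSq (f g - cosetAvg H f g) +
          2 * (cosetAvg H f g * conj (f g - cosetAvg H f g)).re) :=
        Finset.sum_congr rfl fun g _ => h4 g
    _ = ∑ g : G, (Complex.normSq (cosetAvg H f g) + Complex.normSq (f g - cosetAvg H f g)) +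
          2 * ∑ g : G, (cosetAvg H f g * conj (f g - cosetAvg H f g)).re := by
        rw [Finset.sum_add_distrib, Finset.mul_sum]
    _ = _ := by rw [h3, mul_zero, add_zero]

/-- Schur: the coset average over a normal subgroup fixes or kills an irreducible character. -/
theorem cosetAvg_irr (H : Subgroup G) [hH : H.Normal] [Fintype H] {θ : G → ℂ}
    (hθ : IsIrrCharacter G θ) : cosetAvg H θ = θ ∨ cosetAvg H θ = 0 := by
  classical
  obtain ⟨n, ρ, hρ, rfl⟩ := hθ
  haveI := hρ
  have hHc : (Nat.card H : ℂ) ≠ 0 := by exact_mod_cast (Nat.card_pos (α := H)).ne'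
  set S : Module.End ℂ (Fin n → ℂ) := ∑ h : H, ρ h with hS
  set E : Module.End ℂ (Fin n → ℂ) := (Nat.card H : ℂ)⁻¹ • S with hE
  have hcommS : ∀ g : G, ρ g * S = S * ρ g := by
    intro g
    rw [hS, Finset.mul_sum, Finset.sum_mul,
      ← Equiv.sum_comp (MulAut.conjNormal g : H ≃* H).toEquiv (fun h : H => ρ (h : G) * ρ g)]
    refine Finset.sum_congr rfl fun h _ => ?_
    rw [← map_mul, ← map_mul]
    congr 1
    simp [MulAut.conjNormal_apply]
  have hcomm : ∀ (g : G) (v : Fin n → ℂ), E (ρ g v) = ρ g (E v) := by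
    intro g v
    have h1 := congrArg (fun T : Module.End ℂ (Fin n → ℂ) => T v) (hcommS g)
    simp only [Module.End.mul_apply] at h1
    rw [hE, LinearMap.smul_apply, LinearMap.smul_apply, map_smul, h1]
  obtain ⟨c, hc⟩ := Helper5.schur_scalar ρ E hcomm
  have hSS : S * S = (Nat.card H : ℂ) • S := by
    rw [hS, Finset.sum_mul]
    have h1 : ∀ h : H, ρ (h : G) * ∑ h' : H, ρ (h' : G) = ∑ h' : H, ρ (h' : G) := by
      intro h
      rw [Finset.mul_sum, ← Equiv.sum_comp (Equiv.mulLeft h) (fun x : H => ρ (x : G))]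
      refine Finset.sum_congr rfl fun x _ => ?_
      rw [← map_mul]; rfl
    rw [Finset.sum_congr rfl fun h _ => h1 h, Finset.sum_const, Finset.card_univ,
      ← Nat.card_eq_fintype_card, Nat.cast_smul_eq_nsmul]
  have hEE : E * E = E := by
    rw [hE, smul_mul_smul_comm, hSS, smul_smul, mul_assoc, inv_mul_cancel₀ hHc, mul_one]
  have hnt : Nontrivial (Fin n → ℂ) := Helper5.irr_nontrivial ρ
  have hcc : c * c = c := by
    rw [hc] at hEE
    obtain ⟨v, hv⟩ := exists_ne (0 : Fin n → ℂ)
    have h1 := congrArg (fun T : Module.End ℂ (Fin n → ℂ) => T v) hEE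
    simp only [Module.End.mul_apply, LinearMap.smul_apply, LinearMap.id_apply, smul_smul] at h1
    exact smul_left_injective ℂ hv h1
  have hval : ∀ g : G, cosetAvg H ρ.character g = c * ρ.character g := by
    intro g
    have h1 : LinearMap.trace ℂ _ (ρ g * E) = c * ρ.character g := by
      rw [hc, mul_smul_comm, map_smul, smul_eq_mul]
      rfl
    rw [← h1, hE, mul_smul_comm, map_smul, smul_eq_mul, hS, Finset.mul_sum, map_sum,
      cosetAvg_apply]
    congr 1
    refine Finset.sum_congr rfl fun h _ => ?_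
    rw [← map_mul]
    rfl
  have hc01 : c = 0 ∨ c = 1 := by
    have : c * (c - 1) = 0 := by rw [mul_sub, hcc, mul_one, sub_self]
    rcases mul_eq_zero.mp this with h | h
    · left; exact h
    · right; exact sub_eq_zero.mp h
  rcases hc01 with h | h
  · right
    funext g
    rw [hval, h, zero_mul]; rfl
  · left
    funext g
    rw [hval, h, one_mul]

/-- The part of a character off the coset average has integral norm, positive unless zero. -/
theorem cosetAvg_compl_norm [Fintype G] (H : Subgroup G) [hH : H.Normal] [Fintype H] {χ : G → ℂ}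
    (hχ : IsCharacter G χ) :
    ∃ k : ℕ, classInner (χ - cosetAvg H χ) (χ - cosetAvg H χ) = k ∧
      (χ - cosetAvg H χ ≠ 0 → 1 ≤ k) := by
  classical
  haveI := Helper4.irr_finite (G := G)
  letI : Fintype (IrrCharacter G) := Fintype.ofFinite _
  obtain ⟨m, hm⟩ := Helper4.exists_decomp_of_isCharacter χ hχ
  let k : IrrCharacter G → ℕ := fun θ => if cosetAvg H (θ : G → ℂ) = θ then 0 else m θ
  have hη : χ - cosetAvg H χ = ∑ θ : IrrCharacter G, (k θ : ℂ) • (θ : G → ℂ) := by
    conv_lhs => rw [hm]
    rw [cosetAvg_sum, ← Finset.sum_sub_distrib]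
    refine Finset.sum_congr rfl fun θ _ => ?_
    rw [cosetAvg_smul]
    rcases cosetAvg_irr H θ.2 with h | h
    · have hk : k θ = 0 := if_pos h
      rw [h, hk, sub_self]; simp
    · have hk : k θ = m θ := by
        apply if_neg
        intro h'
        rw [h] at h'
        exact Helper83.irr_one_ne_zero θ.2 (by rw [← h']; rfl)
      rw [h, hk, smul_zero, sub_zero]
  refine ⟨∑ θ : IrrCharacter G, k θ * k θ, ?_, ?_⟩
  · rw [hη, Helper4.classInner_sum_sum_irr]
    push_cast
    refine Finset.sum_congr rfl fun θ _ => ?_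
    simp
  · intro hne
    by_contra hlt
    have h0 : ∑ θ : IrrCharacter G, k θ * k θ = 0 := by omega
    have hk0 : ∀ θ : IrrCharacter G, k θ = 0 := by
      intro θ
      have := (Finset.sum_eq_zero_iff.mp h0) θ (Finset.mem_univ θ)
      exact mul_self_eq_zero.mp this
    apply hne
    rw [hη]
    simp [hk0]

end CosetAvg

end Cfsg.Agent.Lib.Helper21
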