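import Mathlib
import Cfsg.Agent.Lib.Helper4.BrDescent
import Cfsg.Agent.Lib.Helper4.CharDecomp
import Cfsg.Agent.Lib.Helper35.Ind
import Cfsg.Agent.Lib.Helper20.Clifford
import Cfsg.Agent.Lib.Helper21.MinMax
import Cfsg.Agent.Lib.Helper82.PQ

/-!
# Dade's detection of invariant characters by p-elementary subgroups
-/

set_option autoImplicit false

namespace Cfsg.Agent.Lib.Helper21

open Cfsg
open scoped ComplexConjugate

section DadeConj

variable {G : Type*} [Group G]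

/-- Conjugation by an element of `E` as an automorphism of `E ⊓ N`, for `N` normal. -/
def dadeConj (E N : Subgroup G) [hN : N.Normal] (r : ↥E) : ↥(E ⊓ N) ≃* ↥(E ⊓ N) where
  toFun x := ⟨(r : G)⁻¹ * x * r, ⟨E.mul_mem (E.mul_mem (E.inv_mem r.2) x.2.1) r.2, by
    have := hN.conj_mem (x : G) x.2.2 (r : G)⁻¹
    simpa using this⟩⟩
  invFun x := ⟨(r : G) * x * (r : G)⁻¹, ⟨E.mul_mem (E.mul_mem r.2 x.2.1) (E.inv_mem r.2),
    hN.conj_mem (x : G) x.2.2 (r : G)⟩⟩
  left_inv x := by apply Subtype.ext; simp [mul_assoc]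
  right_inv x := by apply Subtype.ext; simp [mul_assoc]
  map_mul' x y := by apply Subtype.ext; simp [mul_assoc]

theorem dadeConj_coe (E N : Subgroup G) [hN : N.Normal] (r : ↥E) (x : ↥(E ⊓ N)) :
    ((dadeConj E N r x : ↥(E ⊓ N)) : G) = (r : G)⁻¹ * x * r := rfl

/-- The action of `E` on the irreducible characters of `E ⊓ N` by conjugation. -/
@[reducible] noncomputable def dadeAction (E N : Subgroup G) [hN : N.Normal] :
    MulAction ↥E (IrrCharacter ↥(E ⊓ N)) where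
  smul r φ := ⟨fun x => φ.1 (dadeConj E N r x),
    Helper20.irr_comp_surjective (dadeConj E N r).toMonoidHom (dadeConj E N r).surjective φ.2⟩
  one_smul φ := by
    apply Subtype.ext; funext x
    show φ.1 (dadeConj E N 1 x) = φ.1 x
    exact congrArg φ.1 (Subtype.ext (by simp [dadeConj_coe]))
  mul_smul r s φ := by
    apply Subtype.ext; funext x
    show φ.1 (dadeConj E N (r * s) x) = φ.1 (dadeConj E N s (dadeConj E N r x))
    exact congrArg φ.1 (Subtype.ext (by simp [dadeConj_coe, mul_assoc]))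

end DadeConj

section Dade

variable {G : Type*} [Group G] [Fintype G]

theorem dade_card_eq (E N : Subgroup G) [hN : N.Normal] :
    Nat.card G * Nat.card ↥(E ⊓ N) = (E ⊔ N).index * (Nat.card N * Nat.card E) := by
  have h1 := Subgroup.card_mul_index (E ⊔ N)
  have h2 : Nat.card N * N.relIndex E = Nat.card ↥(E ⊔ N) := by
    rw [← Subgroup.relIndex_sup_right E N, ← Subgroup.relIndex_bot_left,
      ← Subgroup.relIndex_bot_left]
    exact Subgroup.relIndex_mul_relIndex _ _ _ bot_le le_sup_right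
  have h3 : Nat.card ↥(E ⊓ N) * N.relIndex E = Nat.card E := by
    rw [← Subgroup.inf_relIndex_left E N, ← Subgroup.relIndex_bot_left,
      ← Subgroup.relIndex_bot_left]
    exact Subgroup.relIndex_mul_relIndex _ _ _ bot_le inf_le_left
  rw [← h1, ← h2, ← h3]; ring

/-- The pairing `f ↦ [f_N ϑ, ϑ]` evaluated at an induced function. -/
theorem dade_lam_indFun (N : Subgroup G) [hN : N.Normal] [Fintype N] (ϑ : N → ℂ)
    (hinv : ∀ (g : G) (n : N), ϑ ⟨g * n * g⁻¹, hN.conj_mem (n : G) n.2 g⟩ = ϑ n)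
    (E : Subgroup G) [Fintype E] [Fintype ↥(E ⊓ N)] (ψ : E → ℂ) :
    classInner (fun n : N => indFun E ψ n * ϑ n) ϑ =
      ((E ⊔ N).index : ℂ) * classInner (fun x : ↥(E ⊓ N) => ψ ⟨x, x.2.1⟩ * ϑ ⟨x, x.2.2⟩)
        (fun x : ↥(E ⊓ N) => ϑ ⟨x, x.2.2⟩) := by
  classical
  set T : N → ℂ := fun n => ϑ n * conj (ϑ n) with hT
  set F : G → ℂ := extendByZero N T with hF
  have hFcf : IsClassFunction G F := by
    intro g h
    by_cases hg : g ∈ N
    · have hg' : h * g * h⁻¹ ∈ N := hN.conj_mem g hg h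
      rw [hF, Helper35.ext_mem N T _ hg', Helper35.ext_mem N T _ hg]
      have := hinv h ⟨g, hg⟩
      simp only [hT]
      rw [this]
    · have hg' : h * g * h⁻¹ ∉ N := by
        intro hc
        apply hg
        have := hN.conj_mem _ hc h⁻¹
        simpa [mul_assoc] using this
      rw [hF, Helper35.ext_not_mem N T _ hg', Helper35.ext_not_mem N T _ hg]
  have hFreal : ∀ g, conj (F g) = F g := by
    intro g
    by_cases hg : g ∈ N
    · rw [hF, Helper35.ext_mem N T _ hg]; simp [hT, mul_comm]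
    · rw [hF, Helper35.ext_not_mem N T _ hg]; simp
  have h1 : ∑ n : N, indFun E ψ n * ϑ n * conj (ϑ n) = ∑ g : G, indFun E ψ g * conj (F g) := by
    rw [show (∑ g : G, indFun E ψ g * conj (F g)) = ∑ g : G, extendByZero N T g * indFun E ψ g from
      Finset.sum_congr rfl (fun g _ => by rw [hFreal, mul_comm])]
    rw [Helper35.sum_ext_mul N T (indFun E ψ)]
    refine Finset.sum_congr rfl fun n _ => ?_
    simp only [hT]; ring
  have h2 := Helper35.frobenius_reciprocity E ψ F hFcf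
  set θ' : ↥(E ⊓ N) → ℂ := fun x => ψ ⟨x, x.2.1⟩ * ϑ ⟨x, x.2.2⟩ * conj (ϑ ⟨x, x.2.2⟩) with hθ'
  have h3 : ∑ e : E, ψ e * conj (Helper35.res E F e) = ∑ x : ↥(E ⊓ N), θ' x := by
    have e1 : ∑ e : E, ψ e * conj (Helper35.res E F e) = ∑ g : G, extendByZero E ψ g * F g := by
      rw [Helper35.sum_ext_mul E ψ F]
      refine Finset.sum_congr rfl fun e _ => ?_
      rw [Helper35.res_apply, hFreal]
    have e2 : ∑ x : ↥(E ⊓ N), θ' x = ∑ g : G, extendByZero (E ⊓ N) θ' g * (fun _ => (1 : ℂ)) g := by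
      rw [Helper35.sum_ext_mul (E ⊓ N) θ' (fun _ => (1 : ℂ))]
      simp
    rw [e1, e2]
    refine Finset.sum_congr rfl fun g _ => ?_
    by_cases hgE : g ∈ E
    · by_cases hgN : g ∈ N
      · have hgM : g ∈ E ⊓ N := ⟨hgE, hgN⟩
        rw [Helper35.ext_mem E ψ g hgE, hF, Helper35.ext_mem N T g hgN,
          Helper35.ext_mem (E ⊓ N) θ' g hgM]
        simp only [hT, hθ']; ring
      · have hgM : g ∉ E ⊓ N := fun h => hgN h.2
        rw [hF, Helper35.ext_not_mem N T g hgN, Helper35.ext_not_mem (E ⊓ N) θ' g hgM]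
        simp
    · have hgM : g ∉ E ⊓ N := fun h => hgE h.1
      rw [Helper35.ext_not_mem E ψ g hgE, Helper35.ext_not_mem (E ⊓ N) θ' g hgM]
      simp
  have hcard := dade_card_eq E N
  have hG : (Nat.card G : ℂ) ≠ 0 := by exact_mod_cast (Nat.card_pos (α := G)).ne'
  have hNc : (Nat.card N : ℂ) ≠ 0 := by exact_mod_cast (Nat.card_pos (α := N)).ne'
  have hEc : (Nat.card E : ℂ) ≠ 0 := by exact_mod_cast (Nat.card_pos (α := E)).ne'
  have hMc : (Nat.card ↥(E ⊓ N) : ℂ) ≠ 0 := by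
    exact_mod_cast (Nat.card_pos (α := ↥(E ⊓ N))).ne'
  have hcardC : (Nat.card G : ℂ) * (Nat.card ↥(E ⊓ N) : ℂ) =
      ((E ⊔ N).index : ℂ) * ((Nat.card N : ℂ) * (Nat.card E : ℂ)) := by exact_mod_cast hcard
  have h4 : ∑ g : G, indFun E ψ g * conj (F g) =
      (Nat.card G : ℂ) * ((Nat.card E : ℂ)⁻¹ * ∑ x : ↥(E ⊓ N), θ' x) := by
    rw [← h3]
    have : classInner (indFun E ψ) F = (Nat.card E : ℂ)⁻¹ * ∑ e : E, ψ e * conj (Helper35.res E F e) := by
      rw [h2]; rfl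
    rw [← this]
    unfold classInner
    field_simp
  unfold classInner
  rw [h1, h4]
  have h5 : ∑ x : ↥(E ⊓ N), ψ ⟨x, x.2.1⟩ * ϑ ⟨x, x.2.2⟩ * conj (ϑ ⟨x, x.2.2⟩) =
      ∑ x : ↥(E ⊓ N), θ' x := rfl
  rw [h5]
  field_simp
  linear_combination (∑ x : ↥(E ⊓ N), θ' x) * hcardC

/-- Brauer's theorem detects an elementary subgroup covering `G / N` on which the pairing with
`ϑ` is prime to `p`. -/
theorem dade_exists_elementary (p : ℕ) [hp : Fact p.Prime] (N : Subgroup G) [hN : N.Normal]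
    [Fintype N] (hind : ∃ k : ℕ, N.index = p ^ k) (ϑ : N → ℂ) (hϑ : IsIrrCharacter N ϑ)
    (hinv : ∀ (g : G) (n : N), ϑ ⟨g * n * g⁻¹, hN.conj_mem (n : G) n.2 g⟩ = ϑ n) :
    ∃ (E : Subgroup G) (ψ : E → ℂ), IsElementary p E ∧ IsCharacter E ψ ∧ E ⊔ N = ⊤ ∧
      ∀ [Fintype ↥(E ⊓ N)], ∃ m : ℕ, ¬ p ∣ m ∧
        classInner (fun x : ↥(E ⊓ N) => ψ ⟨x, x.2.1⟩ * ϑ ⟨x, x.2.2⟩)
          (fun x : ↥(E ⊓ N) => ϑ ⟨x, x.2.2⟩) = m := by
  classical
  by_contra hcon
  obtain ⟨k, hk⟩ := hind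
  have hcon' : ∀ (E : Subgroup G) (ψ : E → ℂ), IsElementary p E → IsCharacter E ψ → E ⊔ N = ⊤ →
      ∀ m : ℕ, classInner (fun x : ↥(E ⊓ N) => ψ ⟨x, x.2.1⟩ * ϑ ⟨x, x.2.2⟩)
          (fun x : ↥(E ⊓ N) => ϑ ⟨x, x.2.2⟩) = m → p ∣ m := by
    intro E ψ hE hψ hEN m hm
    by_contra hnd
    apply hcon
    refine ⟨E, ψ, hE, hψ, hEN, ?_⟩
    intro inst
    refine ⟨m, hnd, ?_⟩
    rw [← hm]
    congr 1
    all_goals first | rfl | (apply Subsingleton.elim)
  have hϑc : IsCharacter N ϑ := Helper35.isChar_of_irr hϑ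
  have key : ∀ f ∈ Submodule.span ℤ (Helper4.elemInd p G),
      ∃ z : ℤ, classInner (fun n : N => f n * ϑ n) ϑ = (p : ℂ) * z := by
    intro f hf
    induction hf using Submodule.span_induction with
    | mem f hf =>
      obtain ⟨E, ψ, hE, hψ, rfl⟩ := hf
      rw [dade_lam_indFun N ϑ hinv E ψ]
      have hc1 : IsCharacter ↥(E ⊓ N) (fun x : ↥(E ⊓ N) => ψ ⟨x, x.2.1⟩ * ϑ ⟨x, x.2.2⟩) := by
        have a1 := Helper20.isCharacter_comp (Subgroup.inclusion (inf_le_left : E ⊓ N ≤ E)) hψ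
        have a2 := Helper20.isCharacter_comp (Subgroup.inclusion (inf_le_right : E ⊓ N ≤ N)) hϑc
        exact Helper35.isCharacter_mul a1 a2
      have hc2 : IsCharacter ↥(E ⊓ N) (fun x : ↥(E ⊓ N) => ϑ ⟨x, x.2.2⟩) :=
        Helper20.isCharacter_comp (Subgroup.inclusion (inf_le_right : E ⊓ N ≤ N)) hϑc
      obtain ⟨m, hm⟩ := Helper35.classInner_char_nat hc1 hc2
      rw [hm]
      by_cases hEN : E ⊔ N = ⊤
      · obtain ⟨c, hc⟩ := hcon' E ψ hE hψ hEN m hm
        refine ⟨c, ?_⟩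
        rw [hEN, Subgroup.index_top, hc]
        push_cast; ring
      · have h1 : (E ⊔ N).index ∣ p ^ k := hk ▸ Subgroup.index_dvd_of_le le_sup_right
        obtain ⟨j, -, hj⟩ := (Nat.dvd_prime_pow hp.out).mp h1
        have hj0 : j ≠ 0 := by
          rintro rfl
          rw [pow_zero, Subgroup.index_eq_one] at hj
          exact hEN hj
        obtain ⟨j', rfl⟩ := Nat.exists_eq_succ_of_ne_zero hj0
        refine ⟨(p ^ j' * m : ℕ), ?_⟩
        rw [hj, pow_succ]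
        push_cast; ring
    | zero =>
      refine ⟨0, ?_⟩
      simp [classInner]
    | add f g _ _ hf hg =>
      obtain ⟨a, ha⟩ := hf
      obtain ⟨b, hb⟩ := hg
      refine ⟨a + b, ?_⟩
      have : (fun n : N => (f + g) n * ϑ n) = (fun n : N => f n * ϑ n) + (fun n : N => g n * ϑ n) := by
        funext n; simp [add_mul]
      rw [this, Helper35.classInner_add_left, ha, hb]
      push_cast; ring
    | smul c f _ hf =>
      obtain ⟨a, ha⟩ := hf
      refine ⟨c * a, ?_⟩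
      have : (fun n : N => (c • f) n * ϑ n) = (c : ℂ) • (fun n : N => f n * ϑ n) := by
        funext n; simp [mul_assoc]
      rw [this, Helper35.classInner_smul_left, ha]
      push_cast; ring
  obtain ⟨a, l, hl, hGl⟩ := Nat.exists_eq_pow_mul_and_not_dvd
    (Nat.card_pos (α := G)).ne' p hp.out.ne_one
  obtain ⟨z, hz⟩ := key _ (Helper4.const_mem_span_elemInd (p := p) a l hGl)
  have h1 : classInner (fun n : N => (l : ℂ) * ϑ n) ϑ = l := by
    have : (fun n : N => (l : ℂ) * ϑ n) = (l : ℂ) • ϑ := by funext n; simp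
    rw [this, Helper35.classInner_smul_left, Helper35.classInner_irr' hϑ hϑ]
    simp
  rw [h1] at hz
  have h2 : (l : ℤ) = p * z := by exact_mod_cast hz
  apply hl
  have : (p : ℤ) ∣ (l : ℤ) := ⟨z, h2⟩
  exact_mod_cast this

/-- A `p`-group of automorphisms fixes an irreducible constituent of multiplicity prime to
`p`. -/
theorem dade_invariant_constituent (p : ℕ) [hp : Fact p.Prime] (E N : Subgroup G) [hN : N.Normal]
    [Fintype ↥(E ⊓ N)] (k : ℕ) (hk : N.relIndex E = p ^ k) (α β : ↥(E ⊓ N) → ℂ)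
    (hα : IsCharacter ↥(E ⊓ N) α) (hβ : IsCharacter ↥(E ⊓ N) β)
    (hαinv : ∀ (r : ↥E) (x : ↥(E ⊓ N)), α (dadeConj E N r x) = α x)
    (hβinv : ∀ (r : ↥E) (x : ↥(E ⊓ N)), β (dadeConj E N r x) = β x)
    (m : ℕ) (hm : ¬ p ∣ m) (hκ : classInner α β = m) :
    ∃ φ : ↥(E ⊓ N) → ℂ, IsIrrCharacter ↥(E ⊓ N) φ ∧
      (∀ (r : ↥E) (x : ↥(E ⊓ N)), φ (dadeConj E N r x) = φ x) ∧
      ∃ m' : ℕ, ¬ p ∣ m' ∧ classInner β φ = m' := by
  classical
  by_contra hcon
  have hcon' : ∀ φ : ↥(E ⊓ N) → ℂ, IsIrrCharacter ↥(E ⊓ N) φ →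
      (∀ (r : ↥E) (x : ↥(E ⊓ N)), φ (dadeConj E N r x) = φ x) →
      ∀ m' : ℕ, classInner β φ = m' → p ∣ m' := by
    intro φ hφ hinv m' hm'
    by_contra hnd
    exact hcon ⟨φ, hφ, hinv, m', hnd, hm'⟩
  obtain ⟨M, hM⟩ := Helper82.exists_isPModular p
  haveI := Helper4.irr_finite (G := ↥(E ⊓ N))
  letI : Fintype (IrrCharacter ↥(E ⊓ N)) := Fintype.ofFinite _
  letI := dadeAction E N
  have ha : ∀ χ : IrrCharacter ↥(E ⊓ N), ∃ a : ℕ, classInner α (χ : ↥(E ⊓ N) → ℂ) = a :=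
    fun χ => Helper35.classInner_char_nat hα (Helper35.isChar_of_irr χ.2)
  have hb : ∀ χ : IrrCharacter ↥(E ⊓ N), ∃ b : ℕ, classInner β (χ : ↥(E ⊓ N) → ℂ) = b :=
    fun χ => Helper35.classInner_char_nat hβ (Helper35.isChar_of_irr χ.2)
  choose a ha using ha
  choose b hb using hb
  have hsum : (m : ℂ) = ∑ χ : IrrCharacter ↥(E ⊓ N), ((a χ * b χ : ℕ) : ℂ) := by
    have e1 := Helper4.classFunction_expansion α (Helper35.isClassFunction_of_isCharacter hα)
    have e2 := Helper4.classFunction_expansion β (Helper35.isClassFunction_of_isCharacter hβ)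
    have e3 := Helper4.classInner_sum_sum_irr (G := ↥(E ⊓ N))
      (fun χ => classInner α (χ : ↥(E ⊓ N) → ℂ)) (fun χ => classInner β (χ : ↥(E ⊓ N) → ℂ))
    rw [← e1, ← e2, hκ] at e3
    rw [e3]
    refine Finset.sum_congr rfl fun χ _ => ?_
    rw [ha, hb]; simp
  have hsmul : ∀ (r : ↥E) (χ : IrrCharacter ↥(E ⊓ N)),
      ((r • χ : IrrCharacter ↥(E ⊓ N)) : ↥(E ⊓ N) → ℂ) = fun x => χ.1 (dadeConj E N r x) :=
    fun r χ => rfl
  have hainv : ∀ (r : ↥E) (χ : IrrCharacter ↥(E ⊓ N)), a (r • χ) = a χ := by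
    intro r χ
    have h1 : classInner α ((r • χ : IrrCharacter ↥(E ⊓ N)) : ↥(E ⊓ N) → ℂ) =
        classInner α (χ : ↥(E ⊓ N) → ℂ) := by
      rw [← Helper20.classInner_comp_equiv (dadeConj E N r) α (χ : ↥(E ⊓ N) → ℂ), hsmul]
      congr 1
      funext x; exact (hαinv r x).symm
    rw [ha, ha] at h1
    exact_mod_cast h1
  have hbinv : ∀ (r : ↥E) (χ : IrrCharacter ↥(E ⊓ N)), b (r • χ) = b χ := by
    intro r χ
    have h1 : classInner β ((r • χ : IrrCharacter ↥(E ⊓ N)) : ↥(E ⊓ N) → ℂ) =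
        classInner β (χ : ↥(E ⊓ N) → ℂ) := by
      rw [← Helper20.classInner_comp_equiv (dadeConj E N r) β (χ : ↥(E ⊓ N) → ℂ), hsmul]
      congr 1
      funext x; exact (hβinv r x).symm
    rw [hb, hb] at h1
    exact_mod_cast h1
  let T := MulAction.toPermHom ↥E (IrrCharacter ↥(E ⊓ N))
  have hT : ∀ (r : ↥E) (χ : IrrCharacter ↥(E ⊓ N)), T r χ = r • χ := fun r χ => rfl
  have hker : N.subgroupOf E ≤ T.ker := by
    intro r hr
    rw [MonoidHom.mem_ker]
    ext1 χ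
    rw [hT]
    apply Subtype.ext
    rw [hsmul]
    funext x
    have hr' : (r : G) ∈ E ⊓ N := ⟨r.2, Subgroup.mem_subgroupOf.mp hr⟩
    have h1 := Helper4.isClassFunction_irr χ x (⟨r, hr'⟩ : ↥(E ⊓ N))⁻¹
    show χ.1 (dadeConj E N r x) = χ.1 x
    rw [← h1]
    exact congrArg χ.1 (Subtype.ext (by simp [dadeConj_coe]))
  have hR : IsPGroup p T.range := by
    have h1 : T.ker.index ∣ (N.subgroupOf E).index := Subgroup.index_dvd_of_le hker
    rw [Subgroup.index_ker] at h1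
    have h2 : (N.subgroupOf E).index = p ^ k := hk
    rw [h2] at h1
    obtain ⟨j, -, hj⟩ := (Nat.dvd_prime_pow hp.out).mp h1
    exact IsPGroup.of_card hj
  have hsm : ∀ (σ : ↥T.range) (χ : IrrCharacter ↥(E ⊓ N)), ∃ r : ↥E, σ • χ = r • χ := by
    intro σ χ
    obtain ⟨r, hr⟩ := σ.2
    refine ⟨r, ?_⟩
    rw [← hT, hr]
    rfl
  have key := sum_locIdeal_of_pgroup_action hM (R := ↥T.range) hR
    (fun χ : IrrCharacter ↥(E ⊓ N) => ((a χ * b χ : ℕ) : ℂ))
    (by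
      intro σ χ
      obtain ⟨r, hr⟩ := hsm σ χ
      show ((a (σ • χ) * b (σ • χ) : ℕ) : ℂ) = ((a χ * b χ : ℕ) : ℂ)
      rw [hr, hainv, hbinv])
    (fun χ => locRing_natCast hM _)
    (by
      intro χ hfix
      have hfix' : ∀ r : ↥E, r • χ = χ := by
        intro r
        have := hfix ⟨T r, ⟨r, rfl⟩⟩
        exact this
      have hχinv : ∀ (r : ↥E) (x : ↥(E ⊓ N)), χ.1 (dadeConj E N r x) = χ.1 x := by
        intro r x
        have := congrFun (congrArg Subtype.val (hfix' r)) x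
        exact this
      have hdvd := hcon' χ.1 χ.2 hχinv (b χ) (hb χ)
      exact (locIdeal_natCast_iff hM _).mpr (Dvd.dvd.mul_left hdvd _))
  rw [← hsum] at key
  exact hm ((locIdeal_natCast_iff hM m).mp key)

end Dade

end Cfsg.Agent.Lib.Helper21
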