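import Mathlib
import Cfsg.Agent.Lib.Helper21.Ext
import Cfsg.Agent.Lib.Helper21.DadeGrp

/-!
# Extending an invariant character through a determinant on an eigenspace
-/

set_option autoImplicit false

namespace Cfsg.Agent.Lib.Helper21

open Cfsg
open scoped ComplexConjugate

section DetRestrict

variable {V : Type*} [AddCommGroup V] [Module ℂ V]

theorem det_restrict_congr {W : Submodule ℂ V} {f g : Module.End ℂ V}
    (hf : ∀ v ∈ W, f v ∈ W) (hg : ∀ v ∈ W, g v ∈ W) (h : f = g) :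
    LinearMap.det (f.restrict hf) = LinearMap.det (g.restrict hg) := by
  subst h; rfl

theorem det_restrict_one (W : Submodule ℂ V) (h : ∀ v ∈ W, (1 : Module.End ℂ V) v ∈ W) :
    LinearMap.det ((1 : Module.End ℂ V).restrict h) = 1 := by
  have : (1 : Module.End ℂ V).restrict h = LinearMap.id := by
    ext w; rfl
  rw [this, LinearMap.det_id]

theorem det_restrict_mul (W : Submodule ℂ V) (f g : Module.End ℂ V)
    (hf : ∀ v ∈ W, f v ∈ W) (hg : ∀ v ∈ W, g v ∈ W) (hfg : ∀ v ∈ W, (f * g) v ∈ W) :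
    LinearMap.det ((f * g).restrict hfg) =
      LinearMap.det (f.restrict hf) * LinearMap.det (g.restrict hg) := by
  have : (f * g).restrict hfg = (f.restrict hf).comp (g.restrict hg) := by
    ext w; rfl
  rw [this, LinearMap.det_comp]

theorem det_restrict_smul (W : Submodule ℂ V) (c : ℂ) (f : Module.End ℂ V)
    (hf : ∀ v ∈ W, f v ∈ W) (hfc : ∀ v ∈ W, f v = c • v) :
    LinearMap.det (f.restrict hf) = c ^ Module.finrank ℂ W := by
  have : f.restrict hf = c • LinearMap.id := by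
    ext w
    exact hfc w w.2
  rw [this, LinearMap.det_smul, LinearMap.det_id, mul_one]

end DetRestrict

section DadeExt

variable {G : Type*} [Group G] (N : Subgroup G) [hN : N.Normal]
  {V : Type*} [AddCommGroup V] [Module ℂ V]

/-- The eigenspace of `E ⊓ N` for the linear character `l`. -/
def eigSp (ρ : Representation ℂ N V) (E : Subgroup G) (l : ↥(E ⊓ N) →* ℂˣ) : Submodule ℂ V where
  carrier := {v | ∀ x : ↥(E ⊓ N), ρ ⟨x, x.2.2⟩ v = (l x : ℂ) • v}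
  add_mem' := by
    intro a b ha hb x
    rw [map_add, ha x, hb x, smul_add]
  zero_mem' := by
    intro x
    simp
  smul_mem' := by
    intro c v hv x
    rw [map_smul, hv x, smul_comm]

omit hN in
theorem mem_eigSp (ρ : Representation ℂ N V) (E : Subgroup G) (l : ↥(E ⊓ N) →* ℂˣ) (v : V) :
    v ∈ eigSp N ρ E l ↔ ∀ x : ↥(E ⊓ N), ρ ⟨x, x.2.2⟩ v = (l x : ℂ) • v := Iff.rfl

theorem eigSp_stable (ρ : Representation ℂ N V) (E : Subgroup G) (l : ↥(E ⊓ N) →* ℂˣ)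
    (hc : ∀ x ∈ E ⊓ N, ∀ e ∈ E, x * e = e * x) (γ : gam N ρ) (hγ : pi1 N ρ γ ∈ E) :
    ∀ v ∈ eigSp N ρ E l, (pi2 N ρ γ : Module.End ℂ V) v ∈ eigSp N ρ E l := by
  intro v hv x
  have h1 := gam_rel N ρ γ ⟨x, x.2.2⟩
  have h2 : MulAut.conjNormal (pi1 N ρ γ) (⟨x, x.2.2⟩ : N) = ⟨x, x.2.2⟩ := by
    apply Subtype.ext
    rw [MulAut.conjNormal_apply]
    show pi1 N ρ γ * (x : G) * (pi1 N ρ γ)⁻¹ = x
    rw [← hc x x.2 _ hγ]; group
  rw [h2] at h1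
  have h3 := congrArg (fun f : Module.End ℂ V => f v) h1
  simp only [Module.End.mul_apply] at h3
  rw [← h3, hv x, map_smul]

/-- The determinant on the eigenspace, on the preimage of `E`. -/
noncomputable def detHom (ρ : Representation ℂ N V) (E : Subgroup G) (l : ↥(E ⊓ N) →* ℂˣ)
    (hc : ∀ x ∈ E ⊓ N, ∀ e ∈ E, x * e = e * x) : ↥(E.comap (pi1 N ρ)) →* ℂ where
  toFun γ := LinearMap.det (((pi2 N ρ γ.1 : (Module.End ℂ V)ˣ) : Module.End ℂ V).restrict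
    (eigSp_stable N ρ E l hc γ.1 γ.2))
  map_one' := by
    rw [det_restrict_congr _ (fun v hv => hv) (show ((pi2 N ρ (1 : ↥(E.comap (pi1 N ρ))).1 :
      (Module.End ℂ V)ˣ) : Module.End ℂ V) = 1 by simp)]
    exact det_restrict_one _ _
  map_mul' a b := by
    have h := det_restrict_mul (eigSp N ρ E l) _ _ (eigSp_stable N ρ E l hc a.1 a.2)
      (eigSp_stable N ρ E l hc b.1 b.2)
      (fun v hv => eigSp_stable N ρ E l hc a.1 a.2 _ (eigSp_stable N ρ E l hc b.1 b.2 v hv))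
    rw [← h]
    exact det_restrict_congr _ _ (by simp)

theorem detHom_apply (ρ : Representation ℂ N V) (E : Subgroup G) (l : ↥(E ⊓ N) →* ℂˣ)
    (hc : ∀ x ∈ E ⊓ N, ∀ e ∈ E, x * e = e * x) (γ : ↥(E.comap (pi1 N ρ))) :
    detHom N ρ E l hc γ = LinearMap.det (((pi2 N ρ γ.1 : (Module.End ℂ V)ˣ) :
      Module.End ℂ V).restrict (eigSp_stable N ρ E l hc γ.1 γ.2)) := rfl

theorem detHom_zc (ρ : Representation ℂ N V) (E : Subgroup G) (l : ↥(E ⊓ N) →* ℂˣ)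
    (hc : ∀ x ∈ E ⊓ N, ∀ e ∈ E, x * e = e * x) (c : ℂˣ) (h : zc N ρ c ∈ E.comap (pi1 N ρ)) :
    detHom N ρ E l hc ⟨zc N ρ c, h⟩ = (c : ℂ) ^ Module.finrank ℂ (eigSp N ρ E l) := by
  rw [detHom_apply]
  apply det_restrict_smul
  intro v _
  show ((sc c : (Module.End ℂ V)ˣ) : Module.End ℂ V) v = (c : ℂ) • v
  rw [sc_coe]
  simp

theorem detHom_nEmb (ρ : Representation ℂ N V) (E : Subgroup G) (l : ↥(E ⊓ N) →* ℂˣ)
    (hc : ∀ x ∈ E ⊓ N, ∀ e ∈ E, x * e = e * x) (x : ↥(E ⊓ N))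
    (h : nEmb N ρ ⟨x, x.2.2⟩ ∈ E.comap (pi1 N ρ)) :
    detHom N ρ E l hc ⟨nEmb N ρ ⟨x, x.2.2⟩, h⟩ =
      (l x : ℂ) ^ Module.finrank ℂ (eigSp N ρ E l) := by
  rw [detHom_apply]
  apply det_restrict_smul
  intro v hv
  exact hv x

omit hN in
/-- The dimension of the eigenspace is the multiplicity of the linear character. -/
theorem finrank_eigSp [FiniteDimensional ℂ V] (ρ : Representation ℂ N V) (E : Subgroup G)
    [Fintype ↥(E ⊓ N)] (l : ↥(E ⊓ N) →* ℂˣ) :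
    (Module.finrank ℂ (eigSp N ρ E l) : ℂ) = (Nat.card ↥(E ⊓ N) : ℂ)⁻¹ *
      ∑ x : ↥(E ⊓ N), ρ.character ⟨x, x.2.2⟩ * conj ((l x : ℂˣ) : ℂ) := by
  classical
  have hcard0 : (Nat.card ↥(E ⊓ N) : ℂ) ≠ 0 := by
    exact_mod_cast (Nat.card_pos (α := ↥(E ⊓ N))).ne'
  have hnorm : ∀ x : ↥(E ⊓ N), ((l x : ℂˣ) : ℂ) * conj ((l x : ℂˣ) : ℂ) = 1 := by
    intro x
    have h1 : ((l x : ℂˣ) : ℂ) ^ Nat.card ↥(E ⊓ N) = 1 := by
      rw [← Units.val_pow_eq_pow_val, ← map_pow, pow_card_eq_one', map_one, Units.val_one]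
    have h2 := Complex.norm_eq_one_of_pow_eq_one h1 (Nat.card_pos (α := ↥(E ⊓ N))).ne'
    rw [Complex.mul_conj, Complex.normSq_eq_norm_sq, h2]
    simp
  set s : Module.End ℂ V := ∑ x : ↥(E ⊓ N), conj ((l x : ℂˣ) : ℂ) • ρ ⟨x, x.2.2⟩ with hs
  set e : Module.End ℂ V := (Nat.card ↥(E ⊓ N) : ℂ)⁻¹ • s with he
  have key : ∀ (y : ↥(E ⊓ N)) (v : V), ρ ⟨y, y.2.2⟩ (s v) = ((l y : ℂˣ) : ℂ) • s v := by
    intro y v
    rw [hs, LinearMap.sum_apply, map_sum, Finset.smul_sum,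
      ← Equiv.sum_comp (Equiv.mulLeft y)
        (fun x : ↥(E ⊓ N) => ((l y : ℂˣ) : ℂ) • (conj ((l x : ℂˣ) : ℂ) • ρ ⟨x, x.2.2⟩) v)]
    refine Finset.sum_congr rfl fun x _ => ?_
    simp only [Equiv.coe_mulLeft, LinearMap.smul_apply, map_smul]
    have h1 : (⟨((y * x : ↥(E ⊓ N)) : G), (y * x).2.2⟩ : N) = ⟨y, y.2.2⟩ * ⟨x, x.2.2⟩ := rfl
    rw [h1, map_mul ρ, Module.End.mul_apply, smul_smul, map_mul l, Units.val_mul,
      map_mul (starRingEnd ℂ), ← mul_assoc, hnorm y, one_mul]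
  have hproj : LinearMap.IsProj (eigSp N ρ E l) e := by
    constructor
    · intro v y
      rw [he, LinearMap.smul_apply, map_smul, key y v, smul_comm]
    · intro v hv
      rw [he, LinearMap.smul_apply, hs, LinearMap.sum_apply]
      have h1 : ∀ x : ↥(E ⊓ N), (conj ((l x : ℂˣ) : ℂ) • ρ ⟨x, x.2.2⟩) v = v := by
        intro x
        rw [LinearMap.smul_apply, hv x, smul_smul, mul_comm, hnorm x, one_smul]
      simp only [h1, Finset.sum_const, Finset.card_univ]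
      rw [← Nat.card_eq_fintype_card, ← Nat.cast_smul_eq_nsmul ℂ, smul_smul,
        inv_mul_cancel₀ hcard0, one_smul]
  have htr := hproj.trace
  rw [← htr, he, map_smul, hs, map_sum, smul_eq_mul]
  congr 1
  refine Finset.sum_congr rfl fun x _ => ?_
  rw [map_smul, smul_eq_mul, mul_comm]
  rfl

/-- The determinant trick: the invariant representation extends as soon as a linear
constituent on `E ⊓ N` with multiplicity prime to `p` extends to `E`. -/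
theorem dade_ext_main [Finite G] {d : ℕ} (p : ℕ) [hp : Fact p.Prime]
    (ρ : Representation ℂ N (Fin d → ℂ)) [ρ.IsIrreducible]
    (hinv : ∀ (g : G) (n : N), ρ.character (MulAut.conjNormal g n) = ρ.character n)
    (k : ℕ) (hk : N.index = p ^ k)
    (E : Subgroup G) (hEN : E ⊔ N = ⊤) (hc : ∀ x ∈ E ⊓ N, ∀ e ∈ E, x * e = e * x)
    (l : ↥(E ⊓ N) →* ℂˣ) (L : ↥E →* ℂˣ) (hL : ∀ x : ↥(E ⊓ N), L ⟨x, x.2.1⟩ = l x)
    (hm : ¬ p ∣ Module.finrank ℂ (eigSp N ρ E l)) :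
    ∃ σ : Representation ℂ G (Fin d → ℂ), ∀ n : N, σ n = ρ n := by
  classical
  set m := Module.finrank ℂ (eigSp N ρ E l) with hmdef
  have hsurj := pi1_surjective N ρ hinv
  apply exists_ext_of_disjoint N ρ hsurj
  intro c hcc
  have ha : c ^ N.index = 1 :=
    pow_index_eq_one N ρ hsurj N le_rfl ρ.toHomUnits
      (fun n => by rw [MonoidHom.coe_toHomUnits]) c hcc
  let δ₀ : ↥(E.comap (pi1 N ρ)) →* ℂˣ := (detHom N ρ E l hc).toHomUnits
  let Lπ : ↥(E.comap (pi1 N ρ)) →* ℂˣ := L.comp ((pi1 N ρ).subgroupComap E)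
  let δ : ↥(E.comap (pi1 N ρ)) →* ℂˣ := δ₀ * (Lπ ^ m)⁻¹
  have hδ : ∀ γ, δ γ = δ₀ γ * (Lπ γ ^ m)⁻¹ := fun γ => rfl
  let q := QuotientGroup.mk' (nEmb N ρ).range
  let ψ : ↥(E.comap (pi1 N ρ)) →* (gam N ρ ⧸ (nEmb N ρ).range) :=
    q.comp (E.comap (pi1 N ρ)).subtype
  have hψ : Function.Surjective ψ := by
    intro y
    obtain ⟨γ, rfl⟩ := QuotientGroup.mk'_surjective _ y
    have hg : pi1 N ρ γ ∈ ((E ⊔ N : Subgroup G) : Set G) := by
      rw [hEN]; trivial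
    rw [Subgroup.mul_normal, Set.mem_mul] at hg
    obtain ⟨e, he, n, hn, hen⟩ := hg
    have hmem : γ * (nEmb N ρ ⟨n, hn⟩)⁻¹ ∈ E.comap (pi1 N ρ) := by
      show pi1 N ρ (γ * (nEmb N ρ ⟨n, hn⟩)⁻¹) ∈ E
      rw [map_mul, map_inv, pi1_nEmb, ← hen]
      simpa using he
    refine ⟨⟨γ * (nEmb N ρ ⟨n, hn⟩)⁻¹, hmem⟩, ?_⟩
    show q (γ * (nEmb N ρ ⟨n, hn⟩)⁻¹) = q γ
    rw [map_mul, map_inv]
    have : q (nEmb N ρ ⟨n, hn⟩) = 1 := (QuotientGroup.eq_one_iff _).mpr ⟨_, rfl⟩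
    rw [this, inv_one, mul_one]
  have hδn : ∀ (x : ↥(E ⊓ N)) (h : nEmb N ρ ⟨x, x.2.2⟩ ∈ E.comap (pi1 N ρ)),
      δ ⟨nEmb N ρ ⟨x, x.2.2⟩, h⟩ = 1 := by
    intro x h
    have h1 : δ₀ ⟨nEmb N ρ ⟨x, x.2.2⟩, h⟩ = l x ^ m := by
      apply Units.ext
      rw [MonoidHom.coe_toHomUnits, detHom_nEmb, Units.val_pow_eq_pow_val]
    have h2 : Lπ ⟨nEmb N ρ ⟨x, x.2.2⟩, h⟩ = l x := by
      rw [← hL x]
      rfl
    rw [hδ, h1, h2, mul_inv_cancel]
  have hδz : ∀ (h : zc N ρ c ∈ E.comap (pi1 N ρ)), δ ⟨zc N ρ c, h⟩ = c ^ m := by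
    intro h
    have h1 : δ₀ ⟨zc N ρ c, h⟩ = c ^ m := by
      apply Units.ext
      rw [MonoidHom.coe_toHomUnits, detHom_zc, Units.val_pow_eq_pow_val]
    have h2 : Lπ ⟨zc N ρ c, h⟩ = 1 := by
      have : ((pi1 N ρ).subgroupComap E ⟨zc N ρ c, h⟩ : ↥E) = 1 := Subtype.ext rfl
      show L ((pi1 N ρ).subgroupComap E ⟨zc N ρ c, h⟩) = 1
      rw [this, map_one]
    rw [hδ, h1, h2, one_pow, inv_one, mul_one]
  have hker : ψ.ker ≤ δ.ker := by
    intro γ hγ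
    rw [MonoidHom.mem_ker] at hγ ⊢
    have h1 : (γ : gam N ρ) ∈ (nEmb N ρ).range := (QuotientGroup.eq_one_iff _).mp hγ
    obtain ⟨n, hn⟩ := h1
    have hnE : (n : G) ∈ E := by
      have h2 : pi1 N ρ (γ : gam N ρ) ∈ E := γ.2
      rw [← hn, pi1_nEmb] at h2
      exact h2
    have h3 : γ = ⟨nEmb N ρ ⟨((⟨(n : G), ⟨hnE, n.2⟩⟩ : ↥(E ⊓ N)) : G), n.2⟩, by
        have : (γ : gam N ρ) ∈ E.comap (pi1 N ρ) := γ.2
        rw [← hn] at this
        exact this⟩ := Subtype.ext hn.symm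
    rw [h3]
    exact hδn ⟨(n : G), ⟨hnE, n.2⟩⟩ _
  let δ' := ψ.liftOfRightInverse (Function.surjInv hψ) (Function.rightInverse_surjInv hψ)
    ⟨δ, hker⟩
  have hδ' : ∀ γ, δ' (ψ γ) = δ γ := fun γ =>
    MonoidHom.liftOfRightInverse_comp_apply _ _ (Function.rightInverse_surjInv hψ) ⟨δ, hker⟩ γ
  have hzc : zc N ρ c ∈ E.comap (pi1 N ρ) := by
    show pi1 N ρ (zc N ρ c) ∈ E
    rw [pi1_zc]; exact E.one_mem
  have h1 : δ' (q (zc N ρ c)) = 1 := by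
    have := Abelianization.commutator_subset_ker δ' hcc
    exact this
  have hb : c ^ m = 1 := by
    rw [← hδz hzc, ← hδ']
    exact h1
  have h3 : orderOf c ∣ p ^ k := hk ▸ orderOf_dvd_of_pow_eq_one ha
  have h4 : orderOf c ∣ m := orderOf_dvd_of_pow_eq_one hb
  obtain ⟨j, -, hj⟩ := (Nat.dvd_prime_pow hp.out).mp h3
  rcases Nat.eq_zero_or_pos j with rfl | hjpos
  · rw [pow_zero] at hj
    exact orderOf_eq_one_iff.mp hj
  · exfalso
    apply hm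
    exact dvd_trans (hj ▸ dvd_pow_self p hjpos.ne') h4

end DadeExt

end Cfsg.Agent.Lib.Helper21
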