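import Mathlib
import Cfsg.Agent.Lib.Helper21.Extra
import Cfsg.Agent.Lib.Helper80.Twisted
import Cfsg.Agent.Lib.Helper5.CharInt
import Cfsg.Agent.Lib.Helper4.CharExp2

/-!
# Irreducible characters of extraspecial groups: linear, or vanishing off the centre
-/

set_option autoImplicit false

namespace Cfsg.Agent.Lib.Helper21

open Cfsg Cfsg.Agent.Lib.Helper4 Cfsg.Agent.Lib.Helper80
open scoped ComplexConjugate

section Extra2

variable {P : Type*} [Group P] [Fintype P] {p : ℕ} [Fact p.Prime]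

omit [Fintype P] [Fact p.Prime] in
theorem cc_pow (χ : IrrCharacter P) {c : P} (hc : c ∈ Subgroup.center P) (k : ℕ) :
    cc χ (c ^ k) = cc χ c ^ k := by
  induction k with
  | zero => simp [cc_one]
  | succ k ih => rw [pow_succ, cc_mul χ hc, ih, pow_succ]

omit [Fact p.Prime] in
/-- An irreducible character of an extraspecial group whose central character is trivial on
the centre is linear. -/
theorem extra_linear_of_cc (hP : IsExtraspecial p P) (χ : IrrCharacter P)
    (h : ∀ z ∈ Subgroup.center P, cc χ z = 1) : (χ : P → ℂ) 1 = 1 := by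
  obtain ⟨m, ρ, hρ, hχ⟩ := χ.2
  haveI := hρ
  have h1 : (χ : P → ℂ) 1 = (Module.finrank ℂ (Fin m → ℂ) : ℂ) := by
    rw [← hχ, Representation.char_one]
  have hid : ∀ z ∈ Subgroup.center P, ρ z = LinearMap.id := by
    intro z hz
    rw [← char_eq_finrank_iff, hχ, irr_central χ hz, h z hz, one_mul, h1]
  have hcomm : ∀ g x : P, ρ g * ρ x = ρ x * ρ g := by
    intro g x
    have h2 : g * x = x * g * (g⁻¹ * x⁻¹ * g * x) := by group
    rw [← map_mul, h2, map_mul, hid _ (extra_comm_mem hP g x), map_mul]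
    rfl
  have hscal : ∀ a ∈ (⊤ : Subgroup P), ∃ c : ℂ, ρ a = c • LinearMap.id := by
    intro a _
    exact Cfsg.Agent.Lib.Helper5.schur_scalar ρ (ρ a) (fun g v => by
      have h3 := congrArg (fun f : Module.End ℂ (Fin m → ℂ) => f v) (hcomm a g)
      simpa using h3)
  have hdvd := Cfsg.Agent.Lib.Helper5.finrank_dvd_index_of_scalar ρ ⊤ hscal
  rw [Subgroup.index_top, Nat.dvd_one] at hdvd
  rw [h1, hdvd]
  simp

/-- A nonlinear irreducible character of an extraspecial group vanishes off the centre, and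
`p * χ(1)^2 = |P|`. -/
theorem extra_nonlinear (hP : IsExtraspecial p P) (χ : IrrCharacter P)
    (h1 : (χ : P → ℂ) 1 ≠ 1) :
    (∀ g, g ∉ Subgroup.center P → (χ : P → ℂ) g = 0) ∧
      (p : ℂ) * (χ : P → ℂ) 1 ^ 2 = (Nat.card P : ℂ) := by
  classical
  have hex : ∃ z₀ ∈ Subgroup.center P, cc χ z₀ ≠ 1 := by
    by_contra hcon
    apply h1
    apply extra_linear_of_cc hP χ
    intro z hz
    by_contra h2
    exact hcon ⟨z, hz, h2⟩
  obtain ⟨z₀, hz₀, hcc⟩ := hex
  have hvan : ∀ g, g ∉ Subgroup.center P → (χ : P → ℂ) g = 0 := by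
    intro g hg
    obtain ⟨x, hx⟩ := exists_comm_ne_one g hg
    have hc := extra_comm_mem hP g x
    obtain ⟨k, hk⟩ := extra_center_zpow hP hc hx z₀ hz₀
    have hmem : z₀ ∈ Submonoid.powers (g⁻¹ * x⁻¹ * g * x) :=
      mem_powers_iff_mem_zpowers.mpr ⟨k, hk⟩
    obtain ⟨j, hj⟩ := (Submonoid.mem_powers_iff _ _).mp hmem
    have hccc : cc χ (g⁻¹ * x⁻¹ * g * x) ≠ 1 := by
      intro h2
      apply hcc
      rw [← hj, cc_pow χ hc, h2, one_pow]
    have h3 : (χ : P → ℂ) (x⁻¹ * g * x) = (χ : P → ℂ) g := by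
      have := isClassFunction_irr χ g x⁻¹
      rwa [inv_inv] at this
    have h4 : x⁻¹ * g * x = g * (g⁻¹ * x⁻¹ * g * x) := by group
    rw [h4, irr_mul_central χ hc g] at h3
    have h5 : (cc χ (g⁻¹ * x⁻¹ * g * x) - 1) * (χ : P → ℂ) g = 0 := by
      rw [sub_mul, one_mul, h3, sub_self]
    rcases mul_eq_zero.mp h5 with h6 | h6
    · exact absurd (sub_eq_zero.mp h6) hccc
    · exact h6
  refine ⟨hvan, ?_⟩
  have hnorm := classInner_irr χ χ
  rw [if_pos rfl] at hnorm
  unfold classInner at hnorm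
  have h7 : ∀ g : P, (χ : P → ℂ) g * conj ((χ : P → ℂ) g) =
      if g ∈ Subgroup.center P then (χ : P → ℂ) 1 ^ 2 else 0 := by
    intro g
    by_cases hg : g ∈ Subgroup.center P
    · rw [if_pos hg, ← irr_inv χ g, irr_central χ hg,
        irr_central χ (Subgroup.inv_mem _ hg)]
      have h8 : cc χ g * cc χ g⁻¹ = 1 := by
        rw [← cc_mul χ (Subgroup.inv_mem _ hg), mul_inv_cancel, cc_one]
      linear_combination (χ : P → ℂ) 1 ^ 2 * h8
    · rw [if_neg hg, hvan g hg, zero_mul]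
  rw [Finset.sum_congr rfl (fun g _ => h7 g), Finset.sum_ite, Finset.sum_const_zero, add_zero,
    Finset.sum_const, nsmul_eq_mul] at hnorm
  have h9 : (Finset.univ.filter (fun g : P => g ∈ Subgroup.center P)).card = p := by
    rw [← hP.2, Nat.card_eq_fintype_card, Fintype.card_subtype]
  rw [h9] at hnorm
  have hne : (Nat.card P : ℂ) ≠ 0 := by
    exact_mod_cast Nat.card_pos.ne'
  field_simp at hnorm
  exact hnorm

end Extra2

end Cfsg.Agent.Lib.Helper21
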