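import Mathlib
import Cfsg.Agent.Lib.Helper21.CosetAvg
import Cfsg.Agent.Lib.Helper83.Twist

/-!
# A degree bound for characters in the presence of an abelian subgroup whose conjugates
are separated by centralizers
-/

set_option autoImplicit false

namespace Cfsg.Agent.Lib.Helper21

open Cfsg
open scoped ComplexConjugate

section FTGroup

variable {G : Type*} [Group G]

/-- `g` commutes with a non-identity element of `H`. -/
def ftA (H : Subgroup G) (g : G) : Prop := ∃ h ∈ H, h ≠ 1 ∧ g * h = h * g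

theorem map_conj_eq_mem_normalizer (H : Subgroup G) (x y : G)
    (hxy : H.map (MulAut.conj x).toMonoidHom = H.map (MulAut.conj y).toMonoidHom) :
    y⁻¹ * x ∈ Subgroup.normalizer (H : Set G) := by
  rw [Subgroup.mem_normalizer_iff]
  intro u
  constructor
  · intro hu
    have h1 : x * u * x⁻¹ ∈ H.map (MulAut.conj x).toMonoidHom := ⟨u, hu, rfl⟩
    rw [hxy] at h1
    obtain ⟨u', hu', h2⟩ := h1
    have h3 : y * u' * y⁻¹ = x * u * x⁻¹ := h2
    have h4 : y⁻¹ * x * u * (y⁻¹ * x)⁻¹ = u' := by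
      have : y⁻¹ * x * u * (y⁻¹ * x)⁻¹ = y⁻¹ * (x * u * x⁻¹) * y := by group
      rw [this, ← h3]; group
    rw [h4]; exact hu'
  · intro hv
    have h1 : y * (y⁻¹ * x * u * (y⁻¹ * x)⁻¹) * y⁻¹ ∈ H.map (MulAut.conj y).toMonoidHom :=
      ⟨_, hv, rfl⟩
    rw [← hxy] at h1
    obtain ⟨u', hu', h2⟩ := h1
    have h3 : x * u' * x⁻¹ = y * (y⁻¹ * x * u * (y⁻¹ * x)⁻¹) * y⁻¹ := h2
    have h4 : u = u' := by
      have : y * (y⁻¹ * x * u * (y⁻¹ * x)⁻¹) * y⁻¹ = x * u * x⁻¹ := by group
      rw [this] at h3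
      have h5 : x⁻¹ * (x * u' * x⁻¹) * x = x⁻¹ * (x * u * x⁻¹) * x := by rw [h3]
      have e1 : x⁻¹ * (x * u' * x⁻¹) * x = u' := by group
      have e2 : x⁻¹ * (x * u * x⁻¹) * x = u := by group
      rw [e1, e2] at h5
      exact h5.symm
    rw [h4]; exact hu'

variable (H : Subgroup G)
  (hZ : H ⊓ Subgroup.center G = ⊥)
  (hone : ∀ g : G, g ∉ Subgroup.center G → ∀ a b : G,
    Subgroup.centralizer ({g} : Set G) ⊓ H.map (MulAut.conj a).toMonoidHom ≠ ⊥ →
    Subgroup.centralizer ({g} : Set G) ⊓ H.map (MulAut.conj b).toMonoidHom ≠ ⊥ →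
    H.map (MulAut.conj a).toMonoidHom = H.map (MulAut.conj b).toMonoidHom)

include hone in
/-- Two conjugates of `A` meeting outside the centre come from the same conjugate of `H`. -/
theorem ftA_conj_mem {g : G} (hg : g ∉ Subgroup.center G) {x y : G}
    (hx : ftA H (x⁻¹ * g * x)) (hy : ftA H (y⁻¹ * g * y)) :
    y⁻¹ * x ∈ Subgroup.normalizer (H : Set G) := by
  have key : ∀ w : G, ftA H (w⁻¹ * g * w) →
      Subgroup.centralizer ({g} : Set G) ⊓ H.map (MulAut.conj w).toMonoidHom ≠ ⊥ := by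
    rintro w ⟨h, hh, hh1, hcomm⟩
    intro hbot
    have hmem : w * h * w⁻¹ ∈ Subgroup.centralizer ({g} : Set G) ⊓
        H.map (MulAut.conj w).toMonoidHom := by
      refine ⟨Subgroup.mem_centralizer_iff.mpr ?_, ⟨h, hh, rfl⟩⟩
      intro u hu
      rw [Set.mem_singleton_iff] at hu
      subst hu
      have e1 : u * (w * h * w⁻¹) = w * (w⁻¹ * u * w * h) * w⁻¹ := by group
      have e2 : w * h * w⁻¹ * u = w * (h * (w⁻¹ * u * w)) * w⁻¹ := by group
      rw [e1, e2, hcomm]
    rw [hbot, Subgroup.mem_bot] at hmem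
    apply hh1
    have : h = w⁻¹ * (w * h * w⁻¹) * w := by group
    rw [this, hmem]; group
  exact map_conj_eq_mem_normalizer H x y (hone g hg x y (key x hx) (key y hy))

include hZ hone in
theorem ftA_mem_normalizer {g : G} (hg : ftA H g) : g ∈ Subgroup.normalizer (H : Set G) := by
  by_cases hgc : g ∈ Subgroup.center G
  · exact Subgroup.center_le_normalizer _ hgc
  · obtain ⟨h, hh, hh1, hcomm⟩ := hg
    have hhc : h ∉ Subgroup.center G := by
      intro hc
      have : h ∈ H ⊓ Subgroup.center G := ⟨hh, hc⟩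
      rw [hZ, Subgroup.mem_bot] at this
      exact hh1 this
    have h1 : ftA H ((1 : G)⁻¹ * h * 1) := ⟨h, hh, hh1, by simp⟩
    have h2 : ftA H (g⁻¹ * h * g) := by
      refine ⟨h, hh, hh1, ?_⟩
      have : g⁻¹ * h * g = h := by
        rw [mul_assoc, ← hcomm]; group
      rw [this]
    have := ftA_conj_mem H hone hhc h2 h1
    simpa using this

/-- If `g` normalizes the abelian `H` and commutes with no non-identity element of it, every
element of the coset `g H` is conjugate to `g` under `H`. -/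
theorem exists_conj_eq_mul [Finite G] {g : G}
    (hgN : g ∈ Subgroup.normalizer (H : Set G)) (hgA : ¬ ftA H g) (h' : G) (hh' : h' ∈ H) :
    ∃ h ∈ H, h * g * h⁻¹ = g * h' := by
  have hN := Subgroup.mem_normalizer_iff.mp hgN
  have hconj : ∀ h ∈ H, g⁻¹ * h * g ∈ H := by
    intro h hh
    rw [hN]
    have : g * (g⁻¹ * h * g) * g⁻¹ = h := by group
    rw [this]; exact hh
  let φ : H → H := fun h => ⟨g⁻¹ * h * g * (h : G)⁻¹, H.mul_mem (hconj h h.2) (H.inv_mem h.2)⟩
  have hinj : Function.Injective φ := by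
    intro h₁ h₂ h12
    have h1 : g⁻¹ * (h₁ : G) * g * (h₁ : G)⁻¹ = g⁻¹ * (h₂ : G) * g * (h₂ : G)⁻¹ :=
      congrArg Subtype.val h12
    by_contra hne
    apply hgA
    refine ⟨(h₂ : G)⁻¹ * h₁, H.mul_mem (H.inv_mem h₂.2) h₁.2, ?_, ?_⟩
    · intro h
      apply hne
      apply Subtype.ext
      have : (h₁ : G) = h₂ * ((h₂ : G)⁻¹ * h₁) := by group
      rw [this, h, mul_one]
    · have h2 : (h₁ : G) * g * (h₁ : G)⁻¹ = (h₂ : G) * g * (h₂ : G)⁻¹ := by
        have e1 : (h₁ : G) * g * (h₁ : G)⁻¹ = g * (g⁻¹ * (h₁ : G) * g * (h₁ : G)⁻¹) := by group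
        have e2 : (h₂ : G) * g * (h₂ : G)⁻¹ = g * (g⁻¹ * (h₂ : G) * g * (h₂ : G)⁻¹) := by group
        rw [e1, e2, h1]
      calc g * ((h₂ : G)⁻¹ * h₁) = (h₂ : G)⁻¹ * ((h₂ : G) * g * (h₂ : G)⁻¹) * h₁ := by group
        _ = (h₂ : G)⁻¹ * ((h₁ : G) * g * (h₁ : G)⁻¹) * h₁ := by rw [h2]
        _ = (h₂ : G)⁻¹ * h₁ * g := by group
  have hsurj : Function.Surjective φ := Finite.injective_iff_surjective.mp hinj
  obtain ⟨h, hh⟩ := hsurj ⟨h', hh'⟩
  refine ⟨h, h.2, ?_⟩
  have h1 : g⁻¹ * (h : G) * g * (h : G)⁻¹ = h' := congrArg Subtype.val hh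
  rw [← h1]; group

end FTGroup

section FTCount

variable {G : Type*} [Group G] [Fintype G] (H : Subgroup G)
  (hZ : H ⊓ Subgroup.center G = ⊥)
  (hone : ∀ g : G, g ∉ Subgroup.center G → ∀ a b : G,
    Subgroup.centralizer ({g} : Set G) ⊓ H.map (MulAut.conj a).toMonoidHom ≠ ⊥ →
    Subgroup.centralizer ({g} : Set G) ⊓ H.map (MulAut.conj b).toMonoidHom ≠ ⊥ →
    H.map (MulAut.conj a).toMonoidHom = H.map (MulAut.conj b).toMonoidHom)

omit [Fintype G] in
theorem conj_mem_center_iff (x g : G) :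
    x⁻¹ * g * x ∈ Subgroup.center G ↔ g ∈ Subgroup.center G := by
  constructor
  · intro h
    have := (inferInstance : (Subgroup.center G).Normal).conj_mem _ h x
    have e : x * (x⁻¹ * g * x) * x⁻¹ = g := by group
    rwa [e] at this
  · intro h
    have := (inferInstance : (Subgroup.center G).Normal).conj_mem _ h x⁻¹
    simpa using this

include hone in
open Classical in
theorem ftA_fiber_card_le {g : G} (hg : g ∉ Subgroup.center G) :
    (Finset.univ.filter (fun x : G => ftA H (x⁻¹ * g * x))).card ≤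
      Nat.card (Subgroup.normalizer (H : Set G)) := by
  rcases (Finset.univ.filter (fun x : G => ftA H (x⁻¹ * g * x))).eq_empty_or_nonempty with
    h | ⟨x₀, hx₀⟩
  · rw [h]; simp
  · rw [Finset.mem_filter] at hx₀
    have hsub : Finset.univ.filter (fun x : G => ftA H (x⁻¹ * g * x)) ⊆
        (Finset.univ : Finset ↥(Subgroup.normalizer (H : Set G))).image
          (fun n : ↥(Subgroup.normalizer (H : Set G)) => x₀ * (n : G)) := by
      intro x hx
      rw [Finset.mem_filter] at hx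
      rw [Finset.mem_image]
      refine ⟨(⟨x₀⁻¹ * x, ftA_conj_mem H hone hg hx.2 hx₀.2⟩ :
        ↥(Subgroup.normalizer (H : Set G))), Finset.mem_univ _, ?_⟩
      show x₀ * (x₀⁻¹ * x) = x
      rw [mul_inv_cancel_left]
    have h1 := Finset.card_le_card hsub
    have h2 : ((Finset.univ : Finset ↥(Subgroup.normalizer (H : Set G))).image
          (fun n : ↥(Subgroup.normalizer (H : Set G)) => x₀ * (n : G))).card ≤
        (Finset.univ : Finset ↥(Subgroup.normalizer (H : Set G))).card := Finset.card_image_le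
    rw [Finset.card_univ, ← Nat.card_eq_fintype_card] at h2
    exact h1.trans h2

include hone in
open Classical in
/-- The conjugates of `A`, off the centre, are disjoint: double counting. -/
theorem ft_double_count (χ : G → ℂ) (hcf : ∀ g x : G, χ (x * g * x⁻¹) = χ g) :
    (Nat.card G : ℝ) * ∑ g : G,
        (if ftA H g ∧ g ∉ Subgroup.center G then Complex.normSq (χ g) else 0) ≤
      (Nat.card (Subgroup.normalizer (H : Set G)) : ℝ) * ∑ g : G,
        (if g ∉ Subgroup.center G then Complex.normSq (χ g) else 0) := by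
  set F : G → ℝ := fun g =>
    if ftA H g ∧ g ∉ Subgroup.center G then Complex.normSq (χ g) else 0 with hF
  have h1 : ∀ x : G, ∑ g : G, F g = ∑ g : G,
      (if ftA H (x⁻¹ * g * x) ∧ g ∉ Subgroup.center G then Complex.normSq (χ g) else 0) := by
    intro x
    rw [← Equiv.sum_comp (MulAut.conj x⁻¹).toEquiv F]
    refine Finset.sum_congr rfl fun g _ => ?_
    have e1 : (MulAut.conj x⁻¹).toEquiv g = x⁻¹ * g * x := by simp [MulAut.conj_apply]
    have e2 : χ (x⁻¹ * g * x) = χ g := by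
      have := hcf g x⁻¹
      simpa using this
    rw [e1, hF]
    simp only [conj_mem_center_iff, e2]
  have h2 : (Nat.card G : ℝ) * ∑ g : G, F g = ∑ _x : G, ∑ g : G, F g := by
    rw [Finset.sum_const, Finset.card_univ, ← Nat.card_eq_fintype_card, nsmul_eq_mul]
  rw [h2, Finset.sum_congr rfl fun x _ => h1 x, Finset.sum_comm, Finset.mul_sum]
  refine Finset.sum_le_sum fun g _ => ?_
  by_cases hg : g ∈ Subgroup.center G
  · simp [hg]
  · simp only [hg, not_false_eq_true, and_true, if_true]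
    rw [← Finset.sum_filter, Finset.sum_const, nsmul_eq_mul]
    have h3 := ftA_fiber_card_le H hone hg
    have h4 : ((Finset.univ.filter (fun x : G => ftA H (x⁻¹ * g * x))).card : ℝ) ≤
        (Nat.card (Subgroup.normalizer (H : Set G)) : ℝ) := by exact_mod_cast h3
    exact mul_le_mul_of_nonneg_right h4 (Complex.normSq_nonneg _)

include hZ hone in
open Classical in
/-- The lower bound for the sum of `|χ|²` over `A`. -/
theorem ft_lower [Fintype H] (hab : ∀ a ∈ H, ∀ b ∈ H, a * b = b * a)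
    (χ : G → ℂ) (hχ : IsIrrCharacter G χ) (hker : ∃ h ∈ H, χ h ≠ χ 1) :
    (Nat.card (Subgroup.normalizer (H : Set G)) : ℝ) + (Nat.card H : ℝ) *
        (Complex.normSq (classInner (fun h : H => χ h) (fun _ => 1)) / Complex.normSq (χ 1)) *
        ∑ g : G, (if g ∈ Subgroup.center G then Complex.normSq (χ g) else 0) ≤
      ∑ g : G, (if ftA H g then Complex.normSq (χ g) else 0) := by
  obtain ⟨h₀, hh₀, hχh₀⟩ := hker
  have hh₀1 : h₀ ≠ 1 := by
    rintro rfl
    exact hχh₀ rfl
  set N := Subgroup.normalizer (H : Set G) with hN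
  have hHN : H ≤ N := Subgroup.le_normalizer
  let H' : Subgroup ↥N := H.subgroupOf N
  haveI : H'.Normal := Subgroup.normal_in_normalizer
  letI : Fintype ↥H' := Fintype.ofFinite _
  let χ' : ↥N → ℂ := fun g => χ g
  have hχ' : IsCharacter ↥N χ' := Helper35.isCharacter_res N (Helper35.isChar_of_irr hχ)
  set ξ' : ↥N → ℂ := cosetAvg H' χ' with hξ'
  have hcardH : Nat.card ↥H' = Nat.card H :=
    Nat.card_congr (Subgroup.subgroupOfEquivOfLe hHN).toEquiv
  have hHc : (Nat.card H : ℂ) ≠ 0 := by exact_mod_cast (Nat.card_pos (α := H)).ne'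
  have hsumH : ∀ F : G → ℂ, ∑ h' : ↥H', F ((h' : ↥N) : G) = ∑ h : ↥H, F h := by
    intro F
    exact Equiv.sum_comp (Subgroup.subgroupOfEquivOfLe hHN).toEquiv (fun h : ↥H => F h)
  have hξ : ∀ g : ↥N, ξ' g = (Nat.card H : ℂ)⁻¹ * ∑ h : H, χ (g * h) := by
    intro g
    show (Nat.card ↥H' : ℂ)⁻¹ * ∑ h' : ↥H', χ' (g * h') = _
    rw [hcardH]
    congr 1
    exact hsumH (fun y => χ (g * y))
  -- (3a)
  have h3a : ∀ g : ↥N, ¬ ftA H (g : G) → ξ' g = χ' g := by
    intro g hg
    rw [hξ]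
    have h1 : ∀ h : H, χ ((g : G) * h) = χ g := by
      intro h
      obtain ⟨k, -, hk2⟩ := exists_conj_eq_mul H g.2 hg h h.2
      rw [← hk2, Helper83.irr_classFunction hχ]
    rw [Finset.sum_congr rfl fun h _ => h1 h, Finset.sum_const, Finset.card_univ,
      ← Nat.card_eq_fintype_card, nsmul_eq_mul, ← mul_assoc, inv_mul_cancel₀ hHc, one_mul]
  -- (3b)
  have h3b := sum_normSq_cosetAvg H' χ'
  -- (3c)
  have h3c : (Nat.card N : ℝ) ≤ ∑ g : ↥N, Complex.normSq (χ' g - ξ' g) := by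
    obtain ⟨k, hk, hk1⟩ := cosetAvg_compl_norm H' hχ'
    have hne : χ' - cosetAvg H' χ' ≠ 0 := by
      intro h0
      have h1 : ∀ g : ↥N, χ' g = ξ' g := fun g => sub_eq_zero.mp (congrFun h0 g)
      apply hχh₀
      have h2 : ξ' ((1 : ↥N) * ((⟨⟨h₀, hHN hh₀⟩, hh₀⟩ : ↥H') : ↥N)) = ξ' 1 :=
        cosetAvg_mul_right H' χ' 1 ⟨⟨h₀, hHN hh₀⟩, hh₀⟩
      rw [one_mul, ← h1, ← h1] at h2
      exact h2
    have hk1' := hk1 hne
    have hNc : (Nat.card N : ℂ) ≠ 0 := by exact_mod_cast (Nat.card_pos (α := N)).ne'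
    have h2 : (∑ g : ↥N, (Complex.normSq (χ' g - ξ' g) : ℂ)) = (k : ℂ) * (Nat.card N : ℂ) := by
      unfold classInner at hk
      rw [inv_mul_eq_iff_eq_mul₀ hNc] at hk
      rw [mul_comm, ← hk]
      refine Finset.sum_congr rfl fun g _ => ?_
      rw [← Complex.mul_conj]
      rfl
    have h3 : (∑ g : ↥N, Complex.normSq (χ' g - ξ' g)) = (k : ℝ) * (Nat.card N : ℝ) := by
      have : ((∑ g : ↥N, Complex.normSq (χ' g - ξ' g) : ℝ) : ℂ) =
          (((k : ℝ) * (Nat.card N : ℝ) : ℝ) : ℂ) := by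
        push_cast
        exact h2
      exact_mod_cast this
    rw [h3]
    have hk1r : (1 : ℝ) ≤ (k : ℝ) := by exact_mod_cast hk1'
    nlinarith [(Nat.cast_nonneg (Nat.card N) : (0 : ℝ) ≤ (Nat.card N : ℝ))]
  -- (3d)
  set c' : ℂ := classInner (fun h : H => χ h) (fun _ => 1) with hc'
  have hχ1 : χ 1 ≠ 0 := Helper83.irr_one_ne_zero hχ
  have hξz : ∀ (z : G) (hz : z ∈ Subgroup.center G) (hzN : z ∈ N),
      ξ' ⟨z, hzN⟩ = χ z / χ 1 * c' := by
    intro z hz hzN
    rw [hξ, hc']
    unfold classInner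
    have h1 : ∀ h : H, χ (z * (h : G)) = χ z / χ 1 * χ h := by
      intro h
      have := Helper83.irr_central_mul ⟨χ, hχ⟩ z hz h
      field_simp
      exact this
    rw [Finset.sum_congr rfl fun h _ => h1 h, ← Finset.mul_sum]
    simp only [map_one, mul_one]
    ring
  have hZN : Subgroup.center G ≤ N := Subgroup.center_le_normalizer _
  let ι : ↥(Subgroup.center G) × ↥H → ↥N :=
    fun p => ⟨(p.1 : G) * (p.2 : G), N.mul_mem (hZN p.1.2) (hHN p.2.2)⟩
  have hιinj : Function.Injective ι := by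
    rintro ⟨z₁, h₁⟩ ⟨z₂, h₂⟩ h12
    have h1 : (z₁ : G) * (h₁ : G) = (z₂ : G) * (h₂ : G) := congrArg Subtype.val h12
    have h2 : (h₁ : G) * (h₂ : G)⁻¹ = (z₁ : G)⁻¹ * (z₂ : G) := by
      have : (h₁ : G) = (z₁ : G)⁻¹ * ((z₂ : G) * (h₂ : G)) := by rw [← h1]; group
      rw [this]; group
    have h3 : (h₁ : G) * (h₂ : G)⁻¹ ∈ H ⊓ Subgroup.center G :=
      ⟨H.mul_mem h₁.2 (H.inv_mem h₂.2), by
        rw [h2]
        exact (Subgroup.center G).mul_mem ((Subgroup.center G).inv_mem z₁.2) z₂.2⟩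
    rw [hZ, Subgroup.mem_bot] at h3
    have h4 : (h₁ : G) = h₂ := by
      have : (h₁ : G) = (h₁ : G) * (h₂ : G)⁻¹ * h₂ := by group
      rw [this, h3, one_mul]
    have h5 : (z₁ : G) = z₂ := by
      rw [h4] at h1
      exact mul_right_cancel h1
    exact Prod.ext (Subtype.ext h5) (Subtype.ext h4)
  have hιA : ∀ p, ftA H ((ι p : ↥N) : G) := by
    intro p
    refine ⟨h₀, hh₀, hh₀1, ?_⟩
    show (p.1 : G) * (p.2 : G) * h₀ = h₀ * ((p.1 : G) * (p.2 : G))
    have hz := Subgroup.mem_center_iff.mp p.1.2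
    rw [mul_assoc, hab _ p.2.2 _ hh₀, ← mul_assoc, ← mul_assoc, hz h₀]
  -- conversions
  have hconvA : ∑ g : G, (if ftA H g then Complex.normSq (χ g) else 0) =
      ∑ g : ↥N, (if ftA H (g : G) then Complex.normSq (χ' g) else 0) := by
    have h1 : ∑ g : G, (if ftA H g then Complex.normSq (χ g) else 0) =
        ∑ g ∈ Finset.univ.filter (fun g : G => g ∈ N),
          (if ftA H g then Complex.normSq (χ g) else 0) := by
      symm
      apply Finset.sum_subset (Finset.filter_subset _ _)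
      intro g _ hg
      rw [Finset.mem_filter] at hg
      have : ¬ ftA H g := fun hA => hg ⟨Finset.mem_univ _, ftA_mem_normalizer H hZ hone hA⟩
      simp [this]
    rw [h1]
    exact Finset.sum_subtype _ (by simp) _
  have hconvZ : ∑ g : G, (if g ∈ Subgroup.center G then Complex.normSq (χ g) else 0) =
      ∑ z : ↥(Subgroup.center G), Complex.normSq (χ z) := by
    rw [← Finset.sum_filter]
    exact Finset.sum_subtype _ (by simp) _
  have hpt : ∀ g : ↥N, (if ftA H (g : G) then Complex.normSq (χ' g) else 0) +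
      Complex.normSq (ξ' g) =
      (if ftA H (g : G) then Complex.normSq (ξ' g) else 0) + Complex.normSq (χ' g) := by
    intro g
    by_cases hg : ftA H (g : G)
    · simp only [hg, if_true]; ring
    · simp only [hg, if_false]; rw [h3a g hg]
  have hsum : ∑ g : ↥N, (if ftA H (g : G) then Complex.normSq (χ' g) else 0) =
      ∑ g : ↥N, (if ftA H (g : G) then Complex.normSq (ξ' g) else 0) +
        ∑ g : ↥N, Complex.normSq (χ' g - ξ' g) := by
    have h1 := Finset.sum_congr rfl (fun g (_ : g ∈ (Finset.univ : Finset ↥N)) => hpt g)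
    rw [Finset.sum_add_distrib, Finset.sum_add_distrib] at h1
    have h3b' : ∑ g : ↥N, Complex.normSq (χ' g) = ∑ g : ↥N, Complex.normSq (ξ' g) +
        ∑ g : ↥N, Complex.normSq (χ' g - ξ' g) := h3b
    linarith
  have hb : (Nat.card H : ℝ) * (Complex.normSq c' / Complex.normSq (χ 1)) *
      ∑ z : ↥(Subgroup.center G), Complex.normSq (χ z) ≤
      ∑ g : ↥N, (if ftA H (g : G) then Complex.normSq (ξ' g) else 0) := by
    have e1 : (Nat.card H : ℝ) * (Complex.normSq c' / Complex.normSq (χ 1)) *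
        ∑ z : ↥(Subgroup.center G), Complex.normSq (χ z) =
        ∑ p : ↥(Subgroup.center G) × ↥H, Complex.normSq (ξ' (ι p)) := by
      rw [Fintype.sum_prod_type, Finset.mul_sum]
      refine Finset.sum_congr rfl fun z _ => ?_
      have h1 : ∀ h : ↥H, ξ' (ι (z, h)) = χ z / χ 1 * c' := by
        intro h
        have h2 : ι (z, h) = (⟨(z : G), hZN z.2⟩ : ↥N) *
            (((⟨⟨(h : G), hHN h.2⟩, h.2⟩ : ↥H') : ↥N)) := rfl
        rw [h2, hξ', cosetAvg_mul_right, ← hξ', hξz z z.2 (hZN z.2)]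
      rw [Finset.sum_congr rfl fun h _ => by rw [h1 h], Finset.sum_const, Finset.card_univ,
        ← Nat.card_eq_fintype_card, nsmul_eq_mul, Complex.normSq_mul, Complex.normSq_div]
      ring
    have e2 : ∑ p : ↥(Subgroup.center G) × ↥H, Complex.normSq (ξ' (ι p)) =
        ∑ g ∈ Finset.univ.image ι, (if ftA H (g : G) then Complex.normSq (ξ' g) else 0) := by
      rw [Finset.sum_image (fun x _ y _ h => hιinj h)]
      refine Finset.sum_congr rfl fun p _ => ?_
      rw [if_pos (hιA p)]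
    rw [e1, e2]
    apply Finset.sum_le_sum_of_subset_of_nonneg (Finset.subset_univ _)
    intro g _ _
    split_ifs
    · exact Complex.normSq_nonneg _
    · exact le_rfl
  rw [hconvA, hconvZ, hsum]
  linarith [h3c, hb]

include hZ hone in
open Classical in
/-- The Feit--Thompson bound: `|H| |(χ_H, 1_H)|² < χ(1)²`. -/
theorem ft_bound_normSq [Fintype H] (hab : ∀ a ∈ H, ∀ b ∈ H, a * b = b * a)
    (χ : G → ℂ) (hχ : IsIrrCharacter G χ) (hker : ∃ h ∈ H, χ h ≠ χ 1) :
    (Nat.card H : ℝ) * Complex.normSq (classInner (fun h : H => χ h) (fun _ => 1)) <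
      Complex.normSq (χ 1) := by
  have hlow := ft_lower H hZ hone hab χ hχ hker
  have hdc := ft_double_count H hone χ (fun g x => Helper83.irr_classFunction hχ g x)
  obtain ⟨h₀, hh₀, hχh₀⟩ := hker
  have hh₀1 : h₀ ≠ 1 := by
    rintro rfl
    exact hχh₀ rfl
  set SZ : ℝ := ∑ g : G, (if g ∈ Subgroup.center G then Complex.normSq (χ g) else 0) with hSZ
  set T : ℝ := ∑ g : G,
    (if ftA H g ∧ g ∉ Subgroup.center G then Complex.normSq (χ g) else 0) with hT
  set c' : ℂ := classInner (fun h : H => χ h) (fun _ => 1) with hc'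
  set n : ℝ := (Nat.card (Subgroup.normalizer (H : Set G)) : ℝ) with hn
  have hGc : (Nat.card G : ℂ) ≠ 0 := by exact_mod_cast (Nat.card_pos (α := G)).ne'
  have hSG : ∑ g : G, Complex.normSq (χ g) = (Nat.card G : ℝ) := by
    have h1 : classInner χ χ = 1 := by
      rw [Helper35.classInner_irr' hχ hχ, if_pos rfl]
    unfold classInner at h1
    rw [inv_mul_eq_iff_eq_mul₀ hGc, mul_one] at h1
    have h2 : ((∑ g : G, Complex.normSq (χ g) : ℝ) : ℂ) = ((Nat.card G : ℝ) : ℂ) := by
      push_cast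
      rw [← h1]
      refine Finset.sum_congr rfl fun g _ => ?_
      rw [← Complex.mul_conj]
    exact_mod_cast h2
  have hsplit1 : ∑ g : G, (if ftA H g then Complex.normSq (χ g) else 0) = T + SZ := by
    rw [hT, hSZ, ← Finset.sum_add_distrib]
    refine Finset.sum_congr rfl fun g _ => ?_
    by_cases hg : g ∈ Subgroup.center G
    · have hA : ftA H g := ⟨h₀, hh₀, hh₀1, (Subgroup.mem_center_iff.mp hg h₀).symm⟩
      simp [hg, hA]
    · simp [hg]
  have hsplit2 : ∑ g : G, (if g ∉ Subgroup.center G then Complex.normSq (χ g) else 0) =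
      (Nat.card G : ℝ) - SZ := by
    rw [← hSG, eq_sub_iff_add_eq, hSZ, ← Finset.sum_add_distrib]
    refine Finset.sum_congr rfl fun g _ => ?_
    by_cases hg : g ∈ Subgroup.center G <;> simp [hg]
  rw [hsplit1] at hlow
  rw [hsplit2] at hdc
  have hχ1 : 0 < Complex.normSq (χ 1) := Complex.normSq_pos.mpr (Helper83.irr_one_ne_zero hχ)
  have hSZpos : 0 < SZ := by
    have h1 : (if (1 : G) ∈ Subgroup.center G then Complex.normSq (χ 1) else 0) ≤ SZ := by
      rw [hSZ]
      exact Finset.single_le_sum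
        (f := fun g : G => if g ∈ Subgroup.center G then Complex.normSq (χ g) else 0)
        (fun g _ => by
          show (0 : ℝ) ≤ if g ∈ Subgroup.center G then Complex.normSq (χ g) else 0
          split_ifs
          · exact Complex.normSq_nonneg _
          · exact le_rfl) (Finset.mem_univ 1)
    rw [if_pos (Subgroup.one_mem _)] at h1
    linarith
  have hG0 : (0 : ℝ) < (Nat.card G : ℝ) := by exact_mod_cast Nat.card_pos (α := G)
  have hn0 : (0 : ℝ) < n := by
    rw [hn]
    exact_mod_cast Nat.card_pos (α := ↥(Subgroup.normalizer (H : Set G)))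
  set r : ℝ := Complex.normSq c' / Complex.normSq (χ 1) with hr
  set hH : ℝ := (Nat.card H : ℝ) with hhH
  have h1 : (Nat.card G : ℝ) * (n + hH * r * SZ) ≤ (Nat.card G : ℝ) * (T + SZ) :=
    mul_le_mul_of_nonneg_left hlow hG0.le
  have h2 : SZ * ((Nat.card G : ℝ) * (hH * r) - (Nat.card G : ℝ) + n) ≤ 0 := by
    linarith
  have h3 : (Nat.card G : ℝ) * (hH * r) - (Nat.card G : ℝ) + n ≤ 0 := by
    by_contra hc
    rw [not_le] at hc
    have := mul_pos hSZpos hc
    linarith
  have h4 : hH * r < 1 := by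
    by_contra hc
    rw [not_lt] at hc
    have := mul_le_mul_of_nonneg_left hc hG0.le
    linarith
  rw [hr, ← mul_div_assoc, div_lt_one hχ1] at h4
  exact h4

include hZ hone in
/-- The second Feit--Thompson bound: `|H| < (1 + χ(1))²` for nonlinear `χ`, when the normal
closure of `H` is the whole group. -/
theorem ft_degree_bound [Fintype H] (hab : ∀ a ∈ H, ∀ b ∈ H, a * b = b * a)
    (χ : G → ℂ) (hχ : IsIrrCharacter G χ) (hker : ∃ h ∈ H, χ h ≠ χ 1)
    (hχ1 : χ 1 ≠ 1) (hM : ∀ M : Subgroup G, M.Normal → H ≤ M → M = ⊤) :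
    Nat.card H < (1 + charDegree χ) ^ 2 := by
  classical
  haveI := Helper4.irr_finite (G := G)
  letI : Fintype (IrrCharacter G) := Fintype.ofFinite _
  obtain ⟨hdpos, hd⟩ := Helper83.irr_degree hχ
  set d := charDegree χ with hd_def
  have hGc : (Nat.card G : ℂ) ≠ 0 := by exact_mod_cast (Nat.card_pos (α := G)).ne'
  have hd2 : 2 ≤ d := by
    rcases Nat.lt_or_ge d 2 with h | h
    · exfalso
      apply hχ1
      have : d = 1 := by omega
      rw [hd, this]; simp
    · exact h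
  let Φ : G → ℂ := χ * (fun g => conj (χ g))
  have hΦ : IsCharacter G Φ := Helper35.isCharacter_mul (Helper35.isChar_of_irr hχ)
    (Helper4.isCharacter_conj χ (Helper35.isChar_of_irr hχ))
  obtain ⟨m, hm⟩ := Helper4.exists_decomp_of_isCharacter Φ hΦ
  let t : IrrCharacter G := Helper83.trivIrr G
  have he : ∀ ψ : IrrCharacter G, 0 < charDegree (ψ : G → ℂ) ∧
      (ψ : G → ℂ) 1 = (charDegree (ψ : G → ℂ) : ℂ) := fun ψ => Helper83.irr_degree ψ.2
  have hk : ∀ ψ : IrrCharacter G, ∃ k : ℕ,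
      classInner (fun h : H => (ψ : G → ℂ) h) (fun _ => (1 : ℂ)) = k := fun ψ =>
    Helper35.classInner_char_nat (Helper35.isCharacter_res H (Helper35.isChar_of_irr ψ.2))
      (Helper35.isChar_of_irr Helper83.isIrr_one)
  choose k hk using hk
  have hmt : m t = 1 := by
    have h1 : classInner Φ (t : G → ℂ) = (m t : ℂ) := by
      conv_lhs => rw [hm]
      exact Helper4.classInner_sum_irr (fun ψ => (m ψ : ℂ)) t
    have h2 : classInner Φ (t : G → ℂ) = classInner χ χ := by
      unfold classInner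
      congr 1
      refine Finset.sum_congr rfl fun g _ => ?_
      show χ g * conj (χ g) * conj (1 : ℂ) = χ g * conj (χ g)
      simp
    rw [h2, Helper35.classInner_irr' hχ hχ, if_pos rfl] at h1
    exact_mod_cast h1.symm
  have hdeg : d * d = ∑ ψ : IrrCharacter G, m ψ * charDegree (ψ : G → ℂ) := by
    have h1 := congrFun hm 1
    have h2 : Φ 1 = (d : ℂ) * d := by
      show χ 1 * conj (χ 1) = _
      rw [hd]; simp
    rw [h2] at h1
    simp only [Finset.sum_apply, Pi.smul_apply, smul_eq_mul] at h1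
    rw [Finset.sum_congr rfl fun ψ _ => by rw [(he ψ).2]] at h1
    exact_mod_cast h1
  have hresΦ : classInner (fun h : H => Φ h) (fun _ => (1 : ℂ)) =
      ∑ ψ : IrrCharacter G, (m ψ : ℂ) * (k ψ : ℂ) := by
    have h1 : (fun h : H => Φ h) =
        ∑ ψ : IrrCharacter G, (m ψ : ℂ) • (fun h : H => (ψ : G → ℂ) h) := by
      funext h
      rw [hm]
      simp only [Finset.sum_apply, Pi.smul_apply]
    rw [h1, Helper35.classInner_sum_left]
    refine Finset.sum_congr rfl fun ψ _ => ?_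
    rw [Helper35.classInner_smul_left, hk]
  have hresχ : classInner (fun h : H => Φ h) (fun _ => (1 : ℂ)) =
      classInner (fun h : H => χ h) (fun h : H => χ h) := by
    unfold classInner
    congr 1
    refine Finset.sum_congr rfl fun h _ => ?_
    show χ h * conj (χ h) * conj (1 : ℂ) = _
    simp
  haveI : IsMulCommutative ↥H := ⟨⟨fun a b => Subtype.ext (hab a a.2 b b.2)⟩⟩
  haveI := Helper4.irr_finite (G := ↥H)
  letI : Fintype (IrrCharacter ↥H) := Fintype.ofFinite _
  obtain ⟨a, ha⟩ := Helper4.exists_decomp_of_isCharacter (fun h : H => χ h)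
    (Helper35.isCharacter_res H (Helper35.isChar_of_irr hχ))
  have hA1 : classInner (fun h : H => χ h) (fun h : H => χ h) =
      ∑ lam : IrrCharacter ↥H, (a lam : ℂ) * (a lam : ℂ) := by
    conv_lhs => rw [ha]
    rw [Helper4.classInner_sum_sum_irr]
    refine Finset.sum_congr rfl fun lam _ => ?_
    simp
  have hA2 : (d : ℂ) = ∑ lam : IrrCharacter ↥H, (a lam : ℂ) := by
    have h1 := congrFun ha 1
    simp only [Finset.sum_apply, Pi.smul_apply, smul_eq_mul] at h1
    rw [Finset.sum_congr rfl fun lam _ => by rw [Helper83.irr_comm_degree lam.2, mul_one]] at h1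
    rw [← h1, Subgroup.coe_one, hd]
  have hnH : d ≤ ∑ ψ : IrrCharacter G, m ψ * k ψ := by
    have h1 : ((∑ ψ : IrrCharacter G, m ψ * k ψ : ℕ) : ℂ) =
        ((∑ lam : IrrCharacter ↥H, a lam * a lam : ℕ) : ℂ) := by
      push_cast
      rw [← hresΦ, hresχ, hA1]
    have h2 : ∑ ψ : IrrCharacter G, m ψ * k ψ = ∑ lam : IrrCharacter ↥H, a lam * a lam := by
      exact_mod_cast h1
    have h3 : d = ∑ lam : IrrCharacter ↥H, a lam := by exact_mod_cast hA2
    rw [h2, h3]
    exact Finset.sum_le_sum fun lam _ => Nat.le_mul_self _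
  have hkt : k t = 1 := by
    have h1 := hk t
    have h2 : classInner (fun h : H => (t : G → ℂ) h) (fun _ => (1 : ℂ)) = 1 := by
      have := Helper35.classInner_irr' (Helper83.isIrr_one (G := ↥H))
        (Helper83.isIrr_one (G := ↥H))
      rw [if_pos rfl] at this
      exact this
    rw [h2] at h1
    exact_mod_cast h1.symm
  have het : charDegree (t : G → ℂ) = 1 := by
    have h1 := (he t).2
    have h2 : (t : G → ℂ) 1 = 1 := rfl
    rw [h2] at h1
    exact_mod_cast h1.symm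
  have hψ : ∀ ψ : IrrCharacter G, ψ ≠ t → Nat.card H * (k ψ * k ψ) <
      charDegree (ψ : G → ℂ) * charDegree (ψ : G → ℂ) := by
    intro ψ hne
    have hkerψ : ∃ h ∈ H, (ψ : G → ℂ) h ≠ (ψ : G → ℂ) 1 := by
      by_contra hcon
      have hcon' : ∀ h ∈ H, (ψ : G → ℂ) h = (ψ : G → ℂ) 1 := by
        intro h hh
        by_contra hh'
        exact hcon ⟨h, hh, hh'⟩
      obtain ⟨K, hKn, hK⟩ := Helper83.exists_ker ψ.2
      have hHK : H ≤ K := fun h hh => (hK h).mpr (hcon' h hh)
      have hKtop := hM K hKn hHK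
      have hconst : ∀ g : G, (ψ : G → ℂ) g = (ψ : G → ℂ) 1 := fun g =>
        (hK g).mp (by rw [hKtop]; trivial)
      have h1 := Helper4.classInner_irr ψ t
      rw [if_neg hne] at h1
      have h2 : classInner (ψ : G → ℂ) (t : G → ℂ) = (ψ : G → ℂ) 1 := by
        unfold classInner
        have : ∀ g : G, (ψ : G → ℂ) g * conj ((t : G → ℂ) g) = (ψ : G → ℂ) 1 := by
          intro g
          rw [hconst g]
          show _ * conj (1 : ℂ) = _
          simp
        rw [Finset.sum_congr rfl fun g _ => this g, Finset.sum_const, Finset.card_univ,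
          ← Nat.card_eq_fintype_card, nsmul_eq_mul, ← mul_assoc, inv_mul_cancel₀ hGc, one_mul]
      rw [h2] at h1
      exact Helper83.irr_one_ne_zero ψ.2 h1
    have := ft_bound_normSq H hZ hone hab ψ ψ.2 hkerψ
    rw [hk ψ, (he ψ).2, Complex.normSq_natCast, Complex.normSq_natCast] at this
    exact_mod_cast this
  by_contra hcon
  rw [not_lt] at hcon
  have hψ' : ∀ ψ : IrrCharacter G, ψ ≠ t → (1 + d) * k ψ + 1 ≤ charDegree (ψ : G → ℂ) := by
    intro ψ hne
    have h1 := hψ ψ hne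
    by_contra hlt
    rw [not_le] at hlt
    have h2 : charDegree (ψ : G → ℂ) ≤ (1 + d) * k ψ := by omega
    have h3 : charDegree (ψ : G → ℂ) * charDegree (ψ : G → ℂ) ≤
        ((1 + d) * k ψ) * ((1 + d) * k ψ) := Nat.mul_le_mul h2 h2
    have h4 : ((1 + d) * k ψ) * ((1 + d) * k ψ) = (1 + d) ^ 2 * (k ψ * k ψ) := by ring
    have h5 : (1 + d) ^ 2 * (k ψ * k ψ) ≤ Nat.card H * (k ψ * k ψ) :=
      Nat.mul_le_mul_right _ hcon
    omega
  have hs1 : ∑ ψ : IrrCharacter G, m ψ * charDegree (ψ : G → ℂ) =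
      1 + ∑ ψ ∈ Finset.univ.erase t, m ψ * charDegree (ψ : G → ℂ) := by
    rw [← Finset.add_sum_erase _ _ (Finset.mem_univ t), hmt, het]
  have hs2 : ∑ ψ : IrrCharacter G, m ψ * k ψ = 1 + ∑ ψ ∈ Finset.univ.erase t, m ψ * k ψ := by
    rw [← Finset.add_sum_erase _ _ (Finset.mem_univ t), hmt, hkt]
  have hs3 : ∑ ψ ∈ Finset.univ.erase t, m ψ * ((1 + d) * k ψ + 1) ≤
      ∑ ψ ∈ Finset.univ.erase t, m ψ * charDegree (ψ : G → ℂ) :=
    Finset.sum_le_sum fun ψ hψm => Nat.mul_le_mul_left _ (hψ' ψ (Finset.ne_of_mem_erase hψm))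
  have hs4 : ∑ ψ ∈ Finset.univ.erase t, m ψ * ((1 + d) * k ψ + 1) =
      (1 + d) * ∑ ψ ∈ Finset.univ.erase t, m ψ * k ψ + ∑ ψ ∈ Finset.univ.erase t, m ψ := by
    rw [Finset.mul_sum, ← Finset.sum_add_distrib]
    refine Finset.sum_congr rfl fun ψ _ => ?_
    ring
  rw [hs4] at hs3
  rw [hs1] at hdeg
  rw [hs2] at hnH
  have hm0 : ∀ ψ ∈ Finset.univ.erase t, m ψ = 0 := by
    have hC : ∑ ψ ∈ Finset.univ.erase t, m ψ = 0 := by
      obtain ⟨d', hd'⟩ : ∃ d', d = d' + 1 := ⟨d - 1, by omega⟩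
      have hB : d' ≤ ∑ ψ ∈ Finset.univ.erase t, m ψ * k ψ := by omega
      have h6 : (1 + d) * d' ≤ (1 + d) * ∑ ψ ∈ Finset.univ.erase t, m ψ * k ψ :=
        Nat.mul_le_mul_left _ hB
      have h7 : d * d = (1 + d) * d' + 1 := by rw [hd']; ring
      omega
    exact Finset.sum_eq_zero_iff.mp hC
  have hA : ∑ ψ ∈ Finset.univ.erase t, m ψ * charDegree (ψ : G → ℂ) = 0 :=
    Finset.sum_eq_zero fun ψ hψm => by rw [hm0 ψ hψm, zero_mul]
  rw [hA] at hdeg
  nlinarith

end FTCount

end Cfsg.Agent.Lib.Helper21
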