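import Mathlib
import Cfsg.Agent.Lib.Helper35.Ind
import Cfsg.Agent.Lib.Helper83.Twist
import Cfsg.Agent.Lib.Helper83.LinearCount

/-!
# A small Hall--Higman lemma

An automorphism `α` of prime order `p` of a solvable `p'`-group `Q` which fixes every proper
`α`-invariant subgroup pointwise, and a faithful `α`-invariant irreducible character `θ` of `Q`:
then `p ∣ θ(1)² - 1`.
-/

set_option autoImplicit false

namespace Cfsg.Agent.Lib.Helper21

open Cfsg
open scoped ComplexConjugate

section HH

variable {Q : Type*} [Group Q] [Finite Q] (α : MulAut Q) (p : ℕ) [hp : Fact p.Prime]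
  (hcop : ¬ p ∣ Nat.card Q) (hαp : α ^ p = 1)

include hcop hαp in
/-- If `α` fixes pointwise a subgroup containing all `α(u) u⁻¹`, then `α = 1`. -/
theorem hh_trivial_of_fixed (M : Subgroup Q) (h1 : ∀ u : Q, α u * u⁻¹ ∈ M)
    (h2 : ∀ v ∈ M, α v = v) : α = 1 := by
  ext u
  show α u = u
  obtain ⟨v, hv⟩ : ∃ v, v = α u * u⁻¹ := ⟨_, rfl⟩
  have hαv : α v = v := by rw [hv]; exact h2 _ (h1 u)
  have hαu : α u = v * u := by rw [hv]; group
  have hpow : ∀ k : ℕ, (α ^ k) u = v ^ k * u := by
    intro k
    induction k with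
    | zero => simp
    | succ k ih =>
      rw [pow_succ', MulAut.mul_apply, ih, map_mul, map_pow, hαv, hαu, pow_succ, mul_assoc]
  have h3 := hpow p
  rw [hαp] at h3
  have h4 : v ^ p = 1 := by
    have h5 : (1 : MulAut Q) u = u := rfl
    rw [h5] at h3
    have h6 : v ^ p * u = 1 * u := by rw [one_mul]; exact h3.symm
    exact mul_right_cancel h6
  have h5 : v = 1 := by
    have hd1 : orderOf v ∣ p := orderOf_dvd_of_pow_eq_one h4
    have hd2 : orderOf v ∣ Nat.card Q := orderOf_dvd_natCard v
    rcases (Nat.dvd_prime hp.out).mp hd1 with h | h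
    · exact orderOf_eq_one_iff.mp h
    · exfalso
      exact hcop (h ▸ hd2)
  rw [hαu, h5, one_mul]

omit [Finite Q] in
theorem sum_normSq_irr [Fintype Q] {θ : Q → ℂ} (hθ : IsIrrCharacter Q θ) :
    ∑ g : Q, Complex.normSq (θ g) = (Nat.card Q : ℝ) := by
  have hGc : (Nat.card Q : ℂ) ≠ 0 := by exact_mod_cast (Nat.card_pos (α := Q)).ne'
  have h1 : classInner θ θ = 1 := by
    rw [Helper35.classInner_irr' hθ hθ, if_pos rfl]
  unfold classInner at h1
  rw [inv_mul_eq_iff_eq_mul₀ hGc, mul_one] at h1
  have h2 : ((∑ g : Q, Complex.normSq (θ g) : ℝ) : ℂ) = ((Nat.card Q : ℝ) : ℂ) := by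
    push_cast
    rw [← h1]
    refine Finset.sum_congr rfl fun g _ => ?_
    rw [← Complex.mul_conj]
  exact_mod_cast h2

include hcop hαp in
/-- The small Hall--Higman lemma. -/
theorem hh_main [Group.IsSolvable Q] (hα1 : α ≠ 1)
    (hmin : ∀ M : Subgroup Q, (∀ u ∈ M, α u ∈ M) → M ≠ ⊤ → ∀ u ∈ M, α u = u)
    (θ : Q → ℂ) (hθ : IsIrrCharacter Q θ) (hfaith : ∀ g, θ g = θ 1 → g = 1)
    (hinv : ∀ g, θ (α g) = θ g) :
    1 < charDegree θ ∧ p ∣ charDegree θ ^ 2 - 1 := by
  classical
  letI : Fintype Q := Fintype.ofFinite Q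
  have hL := hh_trivial_of_fixed α p hcop hαp
  haveI : Nontrivial Q := by
    by_contra hnt
    rw [not_nontrivial_iff_subsingleton] at hnt
    apply hα1
    ext u
    exact Subsingleton.elim _ _
  have hchar : ∀ (H : Subgroup Q) [H.Characteristic], ∀ u ∈ H, α u ∈ H := by
    intro H hH u hu
    have h1 := Subgroup.characteristic_iff_map_eq.mp hH α
    rw [← h1]
    exact Subgroup.mem_map_of_mem _ hu
  -- the commutator subgroup is fixed
  have hDtop : commutator Q ≠ ⊤ := (IsSolvable.commutator_lt_top_of_nontrivial Q).ne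
  have hDfix := hmin _ (hchar (commutator Q)) hDtop
  -- the commutator subgroup is central
  have hCtop : Subgroup.centralizer (commutator Q : Set Q) = ⊤ := by
    by_contra hC
    apply hα1
    apply hL (Subgroup.centralizer (commutator Q : Set Q))
    · intro u
      rw [Subgroup.mem_centralizer_iff]
      intro d hd
      have h1 : u⁻¹ * d * u ∈ commutator Q := by
        have := (inferInstance : (commutator Q).Normal).conj_mem d hd u⁻¹
        simpa using this
      have h2 := hDfix _ h1
      have h3 := hDfix _ hd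
      rw [map_mul, map_mul, map_inv, h3] at h2
      calc d * (α u * u⁻¹) = α u * ((α u)⁻¹ * d * α u) * u⁻¹ := by group
        _ = α u * (u⁻¹ * d * u) * u⁻¹ := by rw [h2]
        _ = α u * u⁻¹ * d := by group
    · apply hmin _ _ hC
      intro v hv
      rw [Subgroup.mem_centralizer_iff] at hv ⊢
      intro d hd
      have h4 := congrArg α (hv d hd)
      rw [map_mul, map_mul, hDfix _ hd] at h4
      exact h4
  have hDZ : commutator Q ≤ Subgroup.center Q := by
    intro d hd
    rw [Subgroup.mem_center_iff]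
    intro g
    have hg : g ∈ Subgroup.centralizer (commutator Q : Set Q) := by rw [hCtop]; trivial
    exact (Subgroup.mem_centralizer_iff.mp hg d hd).symm
  -- the centre is proper
  have hZtop : Subgroup.center Q ≠ ⊤ := by
    intro hZ
    haveI : IsMulCommutative Q := ⟨⟨fun a b => by
      have ha : a ∈ Subgroup.center Q := by rw [hZ]; trivial
      exact (Subgroup.mem_center_iff.mp ha b).symm⟩⟩
    have h1 : θ 1 = 1 := Helper83.irr_comm_degree hθ
    apply hα1
    ext u
    show α u = u
    have h2 : θ (α u * u⁻¹) = θ 1 := by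
      rw [Helper83.irr_linear_mul hθ h1, hinv, ← Helper83.irr_linear_mul hθ h1, mul_inv_cancel]
    have h3 := hfaith _ h2
    calc α u = α u * u⁻¹ * u := by group
      _ = u := by rw [h3, one_mul]
  have hZfix := hmin _ (hchar (Subgroup.center Q)) hZtop
  -- the commutator map onto the abelianization
  let δ : Q →* Abelianization Q :=
    (Abelianization.of.comp α.toMonoidHom) / Abelianization.of
  have hδ : ∀ u, δ u = Abelianization.of (α u * u⁻¹) := by
    intro u
    show Abelianization.of (α u) / Abelianization.of u = _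
    rw [map_mul, map_inv, div_eq_mul_inv]
  let M : Subgroup Q := δ.range.comap Abelianization.of
  have hMmem : ∀ u, α u * u⁻¹ ∈ M := fun u => by
    show Abelianization.of (α u * u⁻¹) ∈ δ.range
    exact ⟨u, hδ u⟩
  have hMinv : ∀ w ∈ M, α w ∈ M := by
    intro w hw
    obtain ⟨u, hu⟩ := hw
    show Abelianization.of (α w) ∈ δ.range
    refine ⟨α u, ?_⟩
    rw [hδ] at hu ⊢
    have h1 : (α u * u⁻¹)⁻¹ * w ∈ commutator Q := by
      rw [← Abelianization.ker_of Q, MonoidHom.mem_ker, map_mul, map_inv, hu, inv_mul_cancel]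
    have h2 := hDfix _ h1
    have h3 : α w = α (α u * u⁻¹) * ((α u * u⁻¹)⁻¹ * w) := by
      rw [← h2, ← map_mul]
      congr 1
      group
    have h4 : Abelianization.of ((α u * u⁻¹)⁻¹ * w) = 1 := by
      rw [← MonoidHom.mem_ker, Abelianization.ker_of]
      exact h1
    calc Abelianization.of (α (α u) * (α u)⁻¹)
        = Abelianization.of (α (α u * u⁻¹)) := by rw [map_mul α, map_inv]
      _ = Abelianization.of (α (α u * u⁻¹)) * Abelianization.of ((α u * u⁻¹)⁻¹ * w) := by
        rw [h4, mul_one]
      _ = Abelianization.of (α w) := by rw [← map_mul Abelianization.of, ← h3]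
  have hMtop : M = ⊤ := by
    by_contra hM
    exact hα1 (hL M hMmem (hmin M hMinv hM))
  have hδsurj : Function.Surjective δ := by
    intro a
    obtain ⟨w, rfl⟩ := QuotientGroup.mk_surjective a
    have hw : w ∈ M := by rw [hMtop]; trivial
    exact hw
  have hker : δ.ker = commutator Q := by
    have h1 : commutator Q ≤ δ.ker := Abelianization.commutator_subset_ker δ
    have h2 : δ.ker.index = (commutator Q).index := by
      rw [Subgroup.index_ker, MonoidHom.range_eq_top.mpr hδsurj, Subgroup.card_top]
      rfl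
    have h3 := Subgroup.relIndex_mul_index h1
    rw [h2] at h3
    have h4 : (commutator Q).relIndex δ.ker = 1 := by
      have hpos : 0 < (commutator Q).index := Nat.pos_of_ne_zero Subgroup.index_ne_zero_of_finite
      nlinarith
    exact le_antisymm (Subgroup.relIndex_eq_one.mp h4) h1
  have hfix : ∀ u, α u = u → u ∈ commutator Q := by
    intro u hu
    rw [← hker, MonoidHom.mem_ker, hδ, hu, mul_inv_cancel, map_one]
  have hZD : Subgroup.center Q ≤ commutator Q := fun z hz => hfix z (hZfix z hz)
  have hfixZ : ∀ u, α u = u ↔ u ∈ Subgroup.center Q :=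
    fun u => ⟨fun hu => hDZ (hfix u hu), fun hu => hZfix u hu⟩
  -- counting fixed points
  have hαord : orderOf α = p := by
    have hd : orderOf α ∣ p := orderOf_dvd_of_pow_eq_one hαp
    rcases (Nat.dvd_prime hp.out).mp hd with h | h
    · exact absurd (orderOf_eq_one_iff.mp h) hα1
    · exact h
  have hPG : IsPGroup p ↥(Subgroup.zpowers α) := by
    apply IsPGroup.of_card (n := 1)
    rw [Nat.card_zpowers, hαord, pow_one]
  have hmod := hPG.card_modEq_card_fixedPoints (α := Q)
  have hfp : MulAction.fixedPoints ↥(Subgroup.zpowers α) Q = (Subgroup.center Q : Set Q) := by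
    ext u
    rw [MulAction.mem_fixedPoints]
    constructor
    · intro h
      have := h ⟨α, Subgroup.mem_zpowers α⟩
      exact (hfixZ u).mp this
    · intro hu β
      have h1 : α ∈ MulAction.stabilizer (MulAut Q) u := (hfixZ u).mpr hu
      have h2 : Subgroup.zpowers α ≤ MulAction.stabilizer (MulAut Q) u :=
        (Subgroup.zpowers_le).mpr h1
      exact h2 β.2
  have hmod' : Nat.card Q ≡ Nat.card (Subgroup.center Q) [MOD p] := by
    rw [hfp] at hmod
    exact hmod
  -- the character vanishes off the centre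
  obtain ⟨hdpos, hd⟩ := Helper83.irr_degree hθ
  set d := charDegree θ with hd_def
  have hθZ : ∀ z ∈ Subgroup.center Q, Complex.normSq (θ z) = (d : ℝ) ^ 2 := by
    intro z hz
    have h1 := Helper83.irr_central_mul ⟨θ, hθ⟩ z hz z⁻¹
    simp only [mul_inv_cancel] at h1
    rw [Helper83.irr_inv hθ, Complex.mul_conj, hd] at h1
    have h2 : ((Complex.normSq (θ z) : ℝ) : ℂ) = (((d : ℝ) ^ 2 : ℝ) : ℂ) := by
      rw [← h1]; push_cast; ring
    exact_mod_cast h2
  have hθnZ : ∀ u, u ∉ Subgroup.center Q → θ u = 0 := by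
    intro u hu
    rw [Subgroup.mem_center_iff] at hu
    push Not at hu
    obtain ⟨v, hv⟩ := hu
    set z := u⁻¹ * v⁻¹ * u * v with hz
    have hzD : z ∈ commutator Q := by
      rw [commutator_def]
      have := Subgroup.commutator_mem_commutator (Subgroup.mem_top u⁻¹) (Subgroup.mem_top v⁻¹)
      rw [commutatorElement_def] at this
      simpa [hz] using this
    have hzZ := hDZ hzD
    have hz1 : z ≠ 1 := by
      intro h
      apply hv
      have : v * u = u * v * z⁻¹ := by rw [hz]; group
      rw [this, h, inv_one, mul_one]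
    have h1 : v⁻¹ * u * v = z * u := by
      have h2 := Subgroup.mem_center_iff.mp hzZ u
      rw [← h2, hz]; group
    have h3 : θ (v⁻¹ * u * v) = θ u := by
      have := Helper83.irr_classFunction hθ u v⁻¹
      simpa using this
    have h4 := Helper83.irr_central_mul ⟨θ, hθ⟩ z hzZ u
    simp only at h4
    rw [← h1, h3] at h4
    have h5 : θ u * (θ 1 - θ z) = 0 := by rw [mul_sub, h4]; ring
    rcases mul_eq_zero.mp h5 with h | h
    · exact h
    · exfalso
      exact hz1 (hfaith z (sub_eq_zero.mp h).symm)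
  have hcard : Nat.card Q = Nat.card (Subgroup.center Q) * d ^ 2 := by
    have h1 := sum_normSq_irr hθ
    have h2 : ∑ g : Q, Complex.normSq (θ g) =
        ∑ g : Q, (if g ∈ Subgroup.center Q then (d : ℝ) ^ 2 else 0) := by
      refine Finset.sum_congr rfl fun g _ => ?_
      by_cases hg : g ∈ Subgroup.center Q
      · rw [if_pos hg, hθZ g hg]
      · rw [if_neg hg, hθnZ g hg, map_zero]
    rw [h2, ← Finset.sum_filter, Finset.sum_const, nsmul_eq_mul] at h1
    have h3 : (Finset.univ.filter (fun g : Q => g ∈ Subgroup.center Q)).card =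
        Nat.card (Subgroup.center Q) := by
      rw [Nat.card_eq_fintype_card, Fintype.card_subtype]
    rw [h3] at h1
    exact_mod_cast h1.symm
  have hZdvd : Nat.card (Subgroup.center Q) ∣ Nat.card Q := Subgroup.card_subgroup_dvd_card _
  have hZcop : ¬ p ∣ Nat.card (Subgroup.center Q) := fun h => hcop (h.trans hZdvd)
  have hZpos : 0 < Nat.card (Subgroup.center Q) := Nat.card_pos
  constructor
  · by_contra h1
    have hd1 : d = 1 := by omega
    rw [hd1, one_pow, mul_one] at hcard
    exact hZtop (Subgroup.eq_top_of_card_eq _ hcard.symm)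
  · have h1 : Nat.card (Subgroup.center Q) ≤ Nat.card Q := Nat.le_of_dvd Nat.card_pos hZdvd
    have h2 : p ∣ Nat.card Q - Nat.card (Subgroup.center Q) :=
      (Nat.modEq_iff_dvd' h1).mp hmod'.symm
    have h3 : Nat.card Q - Nat.card (Subgroup.center Q) =
        Nat.card (Subgroup.center Q) * (d ^ 2 - 1) := by
      rw [hcard, Nat.mul_sub, mul_one]
    rw [h3] at h2
    rcases (Nat.Prime.dvd_mul hp.out).mp h2 with h | h
    · exact absurd h hZcop
    · exact h

end HH

end Cfsg.Agent.Lib.Helper21
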