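import Mathlib
import Cfsg.Agent.Lib.Helper21.FTBound
import Cfsg.Agent.Lib.Helper21.HH
import Cfsg.Agent.Lib.Helper83.Quot
import Cfsg.Agent.Lib.Helper83.Codeg
import Cfsg.Agent.Lib.Helper20.Clifford

/-!
# Normal Sylow subgroups of linear groups of small degree (Feit--Thompson, Blichfeldt)
-/

set_option autoImplicit false

namespace Cfsg.Agent.Lib.Helper21

open Cfsg
open scoped ComplexConjugate

universe u

section Transport

variable (p : ℕ) [hp : Fact p.Prime]

omit hp in
/-- Normality of all Sylow subgroups is invariant under isomorphism. -/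
theorem sylow_normal_of_equiv {A B : Type*} [Group A] [Group B] (e : A ≃* B)
    (hB : ∀ Q : Sylow p B, (Q : Subgroup B).Normal) (Q : Sylow p A) :
    (Q : Subgroup A).Normal := by
  have hQ' : IsPGroup p ((Q : Subgroup A).map e.toMonoidHom) := Q.isPGroup'.map e.toMonoidHom
  obtain ⟨R, hR⟩ := hQ'.exists_le_sylow
  have hRn := hB R
  have h1 : (R : Subgroup B).comap e.toMonoidHom = Q := by
    apply Q.is_maximal'
    · exact R.isPGroup'.comap_of_injective e.toMonoidHom e.injective
    · intro u hu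
      exact hR (Subgroup.mem_map_of_mem _ hu)
  rw [← h1]
  exact hRn.comap e.toMonoidHom

/-- The hypothesis of the theorem, for a group with a faithful character of degree `n`. -/
def FTHyp (n : ℕ) (G : Type u) [Group G] : Prop :=
  (∃ χ : G → ℂ, IsCharacter G χ ∧ χ 1 = n ∧ ∀ g, χ g = χ 1 → g = 1) ∧
  ((n + 1) ^ 2 ≤ p ∨ (n + 1 < p ∧ ∀ K : Subgroup G, ¬ p ^ 2 ∣ Nat.card K →
      ∀ Q : Sylow p K, (Q : Subgroup K).Normal))

omit hp in
theorem FTHyp.subgroup {n : ℕ} {G : Type u} [Group G] (h : FTHyp p n G) (K : Subgroup G) :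
    FTHyp p n K := by
  obtain ⟨⟨χ, hχ, hχ1, hf⟩, h2⟩ := h
  refine ⟨⟨fun k => χ k, Helper35.isCharacter_res K hχ, ?_, fun g hg => Subtype.ext (hf g hg)⟩, ?_⟩
  · show χ ((1 : K) : G) = n
    rw [Subgroup.coe_one]; exact hχ1
  rcases h2 with h2 | ⟨h2, h3⟩
  · left; exact h2
  · right
    refine ⟨h2, fun L hL Q => ?_⟩
    have e : ↥L ≃* ↥(L.map K.subtype) := L.equivMapOfInjective K.subtype K.subtype_injective
    have hc : Nat.card ↥(L.map K.subtype) = Nat.card L := (Nat.card_congr e.toEquiv).symm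
    exact sylow_normal_of_equiv p e (h3 _ (by rw [hc]; exact hL)) Q

end Transport

section General

variable {p : ℕ} [hp : Fact p.Prime] {G : Type u} [Group G]

omit hp in
theorem decomp_degree_le [Fintype (IrrCharacter G)] {χ : G → ℂ} {n : ℕ} (hχ1 : χ 1 = n)
    (m : IrrCharacter G → ℕ) (hm : χ = ∑ ψ : IrrCharacter G, (m ψ : ℂ) • (ψ : G → ℂ))
    (ψ : IrrCharacter G) (hψ : m ψ ≠ 0) : charDegree (ψ : G → ℂ) ≤ n := by
  have h2 := congrFun hm 1
  simp only [Finset.sum_apply, Pi.smul_apply, smul_eq_mul] at h2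
  rw [hχ1, Finset.sum_congr rfl fun φ _ => by rw [(Helper83.irr_degree φ.2).2]] at h2
  have h3 : n = ∑ φ : IrrCharacter G, m φ * charDegree (φ : G → ℂ) := by exact_mod_cast h2
  rw [h3]
  calc charDegree (ψ : G → ℂ) ≤ m ψ * charDegree (ψ : G → ℂ) :=
        Nat.le_mul_of_pos_left _ (Nat.pos_of_ne_zero hψ)
    _ ≤ _ := Finset.single_le_sum
        (f := fun φ : IrrCharacter G => m φ * charDegree (φ : G → ℂ))
        (fun _ _ => Nat.zero_le _) (Finset.mem_univ ψ)

/-- A `p`-group with a faithful character of degree less than `p` is abelian. -/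
theorem comm_of_faithful_lt [Finite G] {n : ℕ} (hn : n < p)
    (hP : IsPGroup p G) (χ : G → ℂ) (hχ : IsCharacter G χ) (hχ1 : χ 1 = n)
    (hf : ∀ g, χ g = χ 1 → g = 1) : ∀ a b : G, a * b = b * a := by
  classical
  letI : Fintype G := Fintype.ofFinite G
  haveI := Helper4.irr_finite (G := G)
  letI : Fintype (IrrCharacter G) := Fintype.ofFinite _
  obtain ⟨m, hm⟩ := Helper4.exists_decomp_of_isCharacter χ hχ
  have hdeg : ∀ ψ : IrrCharacter G, m ψ ≠ 0 → (ψ : G → ℂ) 1 = 1 := by
    intro ψ hψ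
    obtain ⟨hpos, h1⟩ := Helper83.irr_degree ψ.2
    have hle := decomp_degree_le hχ1 m hm ψ hψ
    have hdvd : charDegree (ψ : G → ℂ) ∣ Nat.card G := Helper83.irr_degree_dvd_card' ψ.2
    obtain ⟨k, hk⟩ := IsPGroup.iff_card.mp hP
    rw [hk] at hdvd
    obtain ⟨j, hj, hj'⟩ := (Nat.dvd_prime_pow hp.out).mp hdvd
    have hj0 : j = 0 := by
      by_contra hj0
      have : p ≤ p ^ j := Nat.le_self_pow hj0 p
      omega
    rw [h1, hj', hj0, pow_zero]; simp
  intro a b
  have hc : χ (a * b * a⁻¹ * b⁻¹) = χ 1 := by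
    rw [hm]
    simp only [Finset.sum_apply, Pi.smul_apply, smul_eq_mul]
    refine Finset.sum_congr rfl fun ψ _ => ?_
    by_cases hψ : m ψ = 0
    · rw [hψ]; simp
    · have h1 := hdeg ψ hψ
      congr 1
      have hc' : a * b * a⁻¹ * b⁻¹ ∈ commutator G := by
        rw [commutator_def]
        exact Subgroup.commutator_mem_commutator (Subgroup.mem_top a) (Subgroup.mem_top b)
      rw [Helper83.irr_linear_commutator ψ.2 h1 hc', h1]
  have h3 := hf _ hc
  calc a * b = (a * b * a⁻¹ * b⁻¹) * (b * a) := by group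
    _ = b * a := by rw [h3, one_mul]

omit hp in
/-- A faithful character has a nonlinear irreducible constituent not containing a given
non-central subgroup in its kernel. -/
theorem exists_nonlinear_constituent [Finite G] (χ : G → ℂ) (hχ : IsCharacter G χ) (n : ℕ)
    (hχ1 : χ 1 = n) (hf : ∀ g, χ g = χ 1 → g = 1) (H : Subgroup G)
    (hH : ¬ H ≤ Subgroup.center G) :
    ∃ ψ : G → ℂ, IsIrrCharacter G ψ ∧ charDegree ψ ≤ n ∧ ψ 1 ≠ 1 ∧ ∃ h ∈ H, ψ h ≠ ψ 1 := by
  classical
  letI : Fintype G := Fintype.ofFinite G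
  haveI := Helper4.irr_finite (G := G)
  letI : Fintype (IrrCharacter G) := Fintype.ofFinite _
  obtain ⟨m, hm⟩ := Helper4.exists_decomp_of_isCharacter χ hχ
  by_contra hcon
  apply hH
  intro a ha
  rw [Subgroup.mem_center_iff]
  intro g
  have hc : χ (a * g * a⁻¹ * g⁻¹) = χ 1 := by
    rw [hm]
    simp only [Finset.sum_apply, Pi.smul_apply, smul_eq_mul]
    refine Finset.sum_congr rfl fun ψ _ => ?_
    by_cases hψ : m ψ = 0
    · rw [hψ]; simp
    · congr 1
      have hle := decomp_degree_le hχ1 m hm ψ hψ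
      by_cases h1 : (ψ : G → ℂ) 1 = 1
      · have hc' : a * g * a⁻¹ * g⁻¹ ∈ commutator G := by
          rw [commutator_def]
          exact Subgroup.commutator_mem_commutator (Subgroup.mem_top a) (Subgroup.mem_top g)
        rw [Helper83.irr_linear_commutator ψ.2 h1 hc', h1]
      · have h2 : ∀ h ∈ H, (ψ : G → ℂ) h = (ψ : G → ℂ) 1 := by
          intro h hh
          by_contra h3
          exact hcon ⟨ψ, ψ.2, hle, h1, h, hh, h3⟩
        obtain ⟨K, hKn, hK⟩ := Helper83.exists_ker ψ.2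
        have haK : a ∈ K := (hK a).mpr (h2 a ha)
        have h4 : a * g * a⁻¹ * g⁻¹ ∈ K := by
          have h5 : g * a⁻¹ * g⁻¹ ∈ K := hKn.conj_mem _ (K.inv_mem haK) g
          have h6 : a * g * a⁻¹ * g⁻¹ = a * (g * a⁻¹ * g⁻¹) := by group
          rw [h6]
          exact K.mul_mem haK h5
        exact (hK _).mp h4
  have h3 := hf _ hc
  calc g * a = (a * g * a⁻¹ * g⁻¹)⁻¹ * (a * g) := by group
    _ = a * g := by rw [h3, inv_one, one_mul]

omit hp in
/-- A `p`-subgroup meets a subgroup of order prime to `p` trivially. -/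
theorem pgroup_inf_coprime (hp : p.Prime) [Finite G] {R K : Subgroup G} (hR : IsPGroup p R)
    (hcop : ¬ p ∣ Nat.card K) {u : G} (huR : u ∈ R) (huK : u ∈ K) : u = 1 := by
  obtain ⟨k, hk⟩ := hR ⟨u, huR⟩
  have h1 : u ^ p ^ k = 1 := congrArg Subtype.val hk
  have hd1 : orderOf u ∣ p ^ k := orderOf_dvd_of_pow_eq_one h1
  have hd2 : orderOf u ∣ Nat.card K := by
    have := orderOf_dvd_natCard (⟨u, huK⟩ : K)
    rwa [Subgroup.orderOf_mk] at this
  have hc : Nat.Coprime (p ^ k) (Nat.card K) :=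
    Nat.Coprime.pow_left k ((Nat.Prime.coprime_iff_not_dvd hp).mpr hcop)
  have h2 : orderOf u ∣ 1 := by
    have := Nat.dvd_gcd hd1 hd2
    rwa [hc] at this
  exact orderOf_eq_one_iff.mp (Nat.dvd_one.mp h2)

/-- A central element of an abelian Sylow subgroup lying in the commutator subgroup is trivial
(transfer). -/
theorem sylow_center_commutator_eq_one [Finite G] (P : Sylow p G)
    (hab : ∀ a ∈ P, ∀ b ∈ P, a * b = b * a) (z : G) (hzP : z ∈ P)
    (hzZ : z ∈ Subgroup.center G) (hzD : z ∈ commutator G) : z = 1 := by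
  let ϕ : (P : Subgroup G) →* Abelianization (P : Subgroup G) := Abelianization.of
  have hkey : ∀ (k : ℕ) (g₀ : G), g₀⁻¹ * z ^ k * g₀ ∈ (P : Subgroup G) →
      g₀⁻¹ * z ^ k * g₀ = z ^ k := by
    intro k g₀ _
    have hc : z ^ k ∈ Subgroup.center G := Subgroup.pow_mem _ hzZ k
    have h1 := Subgroup.mem_center_iff.mp hc g₀
    rw [mul_assoc, ← h1, inv_mul_cancel_left]
  have h1 := MonoidHom.transfer_eq_pow ϕ z hkey
  have h2 : MonoidHom.transfer ϕ z = 1 := by
    have h3 : commutator G ≤ (MonoidHom.transfer ϕ).ker := Abelianization.commutator_subset_ker _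
    exact MonoidHom.mem_ker.mp (h3 hzD)
  rw [h2] at h1
  have hcomm : commutator (P : Subgroup G) = ⊥ := by
    rw [commutator_def, Subgroup.commutator_eq_bot_iff_le_centralizer]
    intro a _
    rw [Subgroup.mem_centralizer_iff]
    intro b _
    exact Subtype.ext (hab b b.2 a a.2)
  have h3 : (⟨z ^ (P : Subgroup G).index, MonoidHom.transfer_eq_pow_aux z hkey⟩ :
      (P : Subgroup G)) ∈ commutator (P : Subgroup G) := by
    rw [← Abelianization.ker_of, MonoidHom.mem_ker]
    exact h1.symm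
  rw [hcomm, Subgroup.mem_bot] at h3
  have h4 : z ^ (P : Subgroup G).index = 1 := congrArg Subtype.val h3
  obtain ⟨k, hk⟩ := P.isPGroup' ⟨z, hzP⟩
  have h5 : z ^ p ^ k = 1 := congrArg Subtype.val hk
  have hc : Nat.Coprime (p ^ k) (P : Subgroup G).index :=
    Nat.Coprime.pow_left k ((Nat.Prime.coprime_iff_not_dvd hp.out).mpr P.not_dvd_index)
  have h6 : orderOf z ∣ 1 := by
    have := Nat.dvd_gcd (orderOf_dvd_of_pow_eq_one h5) (orderOf_dvd_of_pow_eq_one h4)
    rwa [hc] at this
  exact orderOf_eq_one_iff.mp (Nat.dvd_one.mp h6)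

end General

section Min

variable {p : ℕ} [hp : Fact p.Prime] {G : Type u} [Group G] [Finite G]
  (IH : ∀ L : Subgroup G, L ≠ ⊤ → ∀ Q : Sylow p L, (Q : Subgroup L).Normal)

include IH in
theorem ft_le_normalizer (L : Subgroup G) (hL : L ≠ ⊤) (P : Sylow p G)
    (hPL : (P : Subgroup G) ≤ L) : L ≤ Subgroup.normalizer ((P : Subgroup G) : Set G) := by
  have h1 := IH L hL (P.subtype hPL)
  rw [Sylow.coe_subtype] at h1
  exact (Subgroup.normal_subgroupOf_iff_le_normalizer hPL).mp h1

include IH in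
/-- Distinct Sylow subgroups meet in the centre. -/
theorem ft_inf_le_center (hab : ∀ P : Sylow p G, ∀ a ∈ P, ∀ b ∈ P, a * b = b * a)
    (P₁ P₂ : Sylow p G) (hne : P₁ ≠ P₂) :
    (P₁ : Subgroup G) ⊓ P₂ ≤ Subgroup.center G := by
  intro d hd
  by_contra hdc
  apply hne
  have hCtop : Subgroup.centralizer ({d} : Set G) ≠ ⊤ := by
    intro h
    apply hdc
    rw [Subgroup.mem_center_iff]
    intro g
    have hg : g ∈ Subgroup.centralizer ({d} : Set G) := by rw [h]; trivial
    exact (Subgroup.mem_centralizer_iff.mp hg d rfl).symm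
  have h1 : (P₁ : Subgroup G) ≤ Subgroup.centralizer ({d} : Set G) := fun u hu =>
    Subgroup.mem_centralizer_iff.mpr (fun y hy => by
      rw [Set.mem_singleton_iff] at hy
      subst hy
      exact hab P₁ _ hd.1 _ hu)
  have h2 : (P₂ : Subgroup G) ≤ Subgroup.centralizer ({d} : Set G) := fun u hu =>
    Subgroup.mem_centralizer_iff.mpr (fun y hy => by
      rw [Set.mem_singleton_iff] at hy
      subst hy
      exact hab P₂ _ hd.2 _ hu)
  have h3 := ft_le_normalizer IH _ hCtop P₁ h1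
  have h4 : (P₂ : Subgroup G) ≤ Subgroup.normalizer ((P₁ : Subgroup G) : Set G) := h2.trans h3
  have h5 : IsPGroup p ((P₂ : Subgroup G) ⊔ P₁ : Subgroup G) :=
    IsPGroup.to_sup_of_normal_right' P₂.isPGroup' P₁.isPGroup' h4
  have h6 : (P₂ : Subgroup G) ⊔ P₁ = P₁ := P₁.is_maximal' h5 le_sup_right
  have h7 : (P₂ : Subgroup G) ⊔ P₁ = P₂ := P₂.is_maximal' h5 le_sup_left
  exact Sylow.ext (h6.symm.trans h7)

include IH in
theorem ft_normal_pgroup_le_center (hab : ∀ P : Sylow p G, ∀ a ∈ P, ∀ b ∈ P, a * b = b * a)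
    (P : Sylow p G) (hP : ¬ (P : Subgroup G).Normal) (R : Subgroup G) [R.Normal]
    (hR : IsPGroup p R) : R ≤ Subgroup.center G := by
  obtain ⟨P₂, hP₂⟩ : ∃ P₂ : Sylow p G, P₂ ≠ P := by
    by_contra h
    push Not at h
    apply hP
    rw [← Subgroup.normalizer_eq_top_iff, eq_top_iff]
    intro g _
    exact Sylow.smul_eq_iff_mem_normalizer.mp (h (g • P))
  exact (le_inf (hR.le_sylow_of_normal P₂) (hR.le_sylow_of_normal P)).trans
    (ft_inf_le_center IH hab P₂ P hP₂)

include IH in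
theorem ft_no_proper_normal (P : Sylow p G) (hP : ¬ (P : Subgroup G).Normal)
    (M : Subgroup G) (hM : M.Normal) (hPM : (P : Subgroup G) ≤ M) : M = ⊤ := by
  by_contra hMt
  apply hP
  have h1 := IH M hMt (P.subtype hPM)
  haveI := hM
  haveI : ((P.subtype hPM : Sylow p M) : Subgroup M).Characteristic :=
    Sylow.characteristic_of_normal _ h1
  have h2 : (((P.subtype hPM : Sylow p M) : Subgroup M).map M.subtype).Normal :=
    ConjAct.normal_of_characteristic_of_normal
  have h3 : ((P.subtype hPM : Sylow p M) : Subgroup M).map M.subtype = P := by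
    rw [Sylow.coe_subtype]
    exact Subgroup.map_subgroupOf_eq_of_le hPM
  rw [h3] at h2
  exact h2

include IH in
/-- The case where the Sylow subgroup meets the centre trivially: the Feit--Thompson bound. -/
theorem ft_card_lt (hab : ∀ P : Sylow p G, ∀ a ∈ P, ∀ b ∈ P, a * b = b * a)
    (P : Sylow p G) (hP : ¬ (P : Subgroup G).Normal)
    (hZ : (P : Subgroup G) ⊓ Subgroup.center G = ⊥)
    (χ : G → ℂ) (hχ : IsCharacter G χ) (n : ℕ) (hχ1 : χ 1 = n)
    (hf : ∀ g, χ g = χ 1 → g = 1) : Nat.card (P : Subgroup G) < (1 + n) ^ 2 := by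
  classical
  letI : Fintype G := Fintype.ofFinite G
  letI : Fintype (P : Subgroup G) := Fintype.ofFinite _
  have hPc : ¬ (P : Subgroup G) ≤ Subgroup.center G := by
    intro h
    apply hP
    refine ⟨fun a ha g => ?_⟩
    have h1 := Subgroup.mem_center_iff.mp (h ha) g
    rw [h1, mul_inv_cancel_right]
    exact ha
  obtain ⟨ψ, hψ, hψn, hψ1, hker⟩ := exists_nonlinear_constituent χ hχ n hχ1 hf P hPc
  have hmap : ∀ w : G, ((w • P : Sylow p G) : Subgroup G) =
      (P : Subgroup G).map (MulAut.conj w).toMonoidHom := fun w => rfl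
  have hcen : ∀ w : G, ∀ u ∈ ((w • P : Sylow p G) : Subgroup G), u ∈ Subgroup.center G →
      u = 1 := by
    intro w u hu huc
    rw [hmap] at hu
    obtain ⟨v, hv, rfl⟩ := hu
    have h1 : (MulAut.conj w).toMonoidHom v = w * v * w⁻¹ := rfl
    rw [h1] at huc ⊢
    have h2 : v ∈ Subgroup.center G := by
      have := (inferInstance : (Subgroup.center G).Normal).conj_mem _ huc w⁻¹
      have e : w⁻¹ * (w * v * w⁻¹) * w⁻¹⁻¹ = v := by group
      rwa [e] at this
    have h3 : v ∈ (P : Subgroup G) ⊓ Subgroup.center G := ⟨hv, h2⟩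
    rw [hZ, Subgroup.mem_bot] at h3
    rw [h3]; group
  have hone : ∀ g : G, g ∉ Subgroup.center G → ∀ a b : G,
      Subgroup.centralizer ({g} : Set G) ⊓ (P : Subgroup G).map (MulAut.conj a).toMonoidHom ≠ ⊥ →
      Subgroup.centralizer ({g} : Set G) ⊓ (P : Subgroup G).map (MulAut.conj b).toMonoidHom ≠ ⊥ →
      (P : Subgroup G).map (MulAut.conj a).toMonoidHom =
        (P : Subgroup G).map (MulAut.conj b).toMonoidHom := by
    intro g hg a b ha hb
    set C := Subgroup.centralizer ({g} : Set G) with hC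
    have hCtop : C ≠ ⊤ := by
      intro h
      apply hg
      rw [Subgroup.mem_center_iff]
      intro y
      have hy : y ∈ C := by rw [h]; trivial
      exact (Subgroup.mem_centralizer_iff.mp hy g rfl).symm
    -- a Sylow subgroup of `C` containing the given intersection
    have key : ∀ w : G, C ⊓ (P : Subgroup G).map (MulAut.conj w).toMonoidHom ≠ ⊥ →
        ∀ S : Sylow p C, ∀ Pc : Sylow p G, (S : Subgroup C).map C.subtype ≤ Pc →
          (w • P : Sylow p G) = Pc := by
      intro w hw S Pc hS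
      obtain ⟨u, hu, hu1⟩ : ∃ u ∈ C ⊓ (P : Subgroup G).map (MulAut.conj w).toMonoidHom,
          u ≠ 1 := by
        by_contra h
        push Not at h
        exact hw ((Subgroup.eq_bot_iff_forall _).mpr h)
      have hpg : IsPGroup p ((C ⊓ (P : Subgroup G).map (MulAut.conj w).toMonoidHom).subgroupOf C) := by
        have h1 : IsPGroup p ((P : Subgroup G).map (MulAut.conj w).toMonoidHom) :=
          P.isPGroup'.map _
        exact (h1.to_le inf_le_right).comap_of_injective C.subtype C.subtype_injective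
      obtain ⟨S₂, hS₂⟩ := hpg.exists_le_sylow
      haveI := IH C hCtop S
      have hSS₂ : (S : Subgroup C) ≤ S₂ := S.isPGroup'.le_sylow_of_normal S₂
      have hS₂S : (S₂ : Subgroup C) = S := S.is_maximal' S₂.isPGroup' hSS₂
      have huS : (⟨u, hu.1⟩ : C) ∈ (S : Subgroup C) := by
        rw [← hS₂S]
        exact hS₂ hu
      have huPc : u ∈ (Pc : Subgroup G) := hS ⟨⟨u, hu.1⟩, huS, rfl⟩
      by_contra hne
      have h2 := ft_inf_le_center IH hab _ _ hne ⟨(hmap w).symm ▸ hu.2, huPc⟩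
      exact hu1 (hcen w u ((hmap w).symm ▸ hu.2) h2)
    obtain ⟨S⟩ := (inferInstance : Nonempty (Sylow p C))
    obtain ⟨Pc, hPc⟩ := (S.isPGroup'.map C.subtype).exists_le_sylow
    have h1 := key a ha S Pc hPc
    have h2 := key b hb S Pc hPc
    rw [← hmap, ← hmap, h1, h2]
  have h1 := ft_degree_bound (P : Subgroup G) hZ hone (hab P) ψ hψ hker hψ1
    (fun M hM hPM => ft_no_proper_normal IH P hP M hM hPM)
  calc Nat.card (P : Subgroup G) < (1 + charDegree ψ) ^ 2 := h1
    _ ≤ (1 + n) ^ 2 := Nat.pow_le_pow_left (by omega) 2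

include IH in
/-- The case where the Sylow subgroup meets the centre: the commutator subgroup is a normal
`p`-complement. -/
theorem ft_center_case (hab : ∀ P : Sylow p G, ∀ a ∈ P, ∀ b ∈ P, a * b = b * a)
    (P : Sylow p G) (hP : ¬ (P : Subgroup G).Normal)
    (hZ : (P : Subgroup G) ⊓ Subgroup.center G ≠ ⊥) :
    ¬ p ∣ Nat.card (commutator G) ∧ (P : Subgroup G) ⊔ commutator G = ⊤ := by
  obtain ⟨z, hz, hz1⟩ : ∃ z ∈ (P : Subgroup G) ⊓ Subgroup.center G, z ≠ 1 := by
    by_contra h
    push Not at h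
    exact hZ ((Subgroup.eq_bot_iff_forall _).mpr h)
  have hDtop : commutator G ≠ ⊤ := by
    intro h
    exact hz1 (sylow_center_commutator_eq_one P (hab P) z hz.1 hz.2 (by rw [h]; trivial))
  obtain ⟨S⟩ := (inferInstance : Nonempty (Sylow p (commutator G)))
  have hSn := IH _ hDtop S
  haveI : (S : Subgroup (commutator G)).Characteristic := Sylow.characteristic_of_normal S hSn
  haveI hRn : ((S : Subgroup (commutator G)).map (commutator G).subtype).Normal :=
    ConjAct.normal_of_characteristic_of_normal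
  have hRp : IsPGroup p ((S : Subgroup (commutator G)).map (commutator G).subtype) :=
    S.isPGroup'.map _
  have hRZ := ft_normal_pgroup_le_center IH hab P hP _ hRp
  have hRP := hRp.le_sylow_of_normal P
  have hRbot : (S : Subgroup (commutator G)).map (commutator G).subtype = ⊥ := by
    rw [Subgroup.eq_bot_iff_forall]
    intro u hu
    have huD : u ∈ commutator G := by
      obtain ⟨v, _, rfl⟩ := hu
      exact v.2
    exact sylow_center_commutator_eq_one P (hab P) u (hRP hu) (hRZ hu) huD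
  have hSbot : (S : Subgroup (commutator G)) = ⊥ :=
    (Subgroup.map_eq_bot_iff_of_injective _ (commutator G).subtype_injective).mp hRbot
  have hcop : ¬ p ∣ Nat.card (commutator G) := fun hdvd => S.ne_bot_of_dvd_card hdvd hSbot
  refine ⟨hcop, ?_⟩
  apply ft_no_proper_normal IH P hP _ _ le_sup_left
  refine ⟨fun m hm g => ?_⟩
  have h1 : g * m * g⁻¹ = (g * m * g⁻¹ * m⁻¹) * m := by group
  rw [h1]
  refine Subgroup.mul_mem _ (le_sup_right (a := (P : Subgroup G)) ?_) hm
  rw [commutator_def]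
  exact Subgroup.commutator_mem_commutator (Subgroup.mem_top g) (Subgroup.mem_top m)

end Min

section PSolv

open scoped Pointwise

variable {p : ℕ} [hp : Fact p.Prime] {G : Type u} [Group G] [Finite G]
  (IH : ∀ L : Subgroup G, L ≠ ⊤ → ∀ Q : Sylow p L, (Q : Subgroup L).Normal)
  (P : Sylow p G) (hab : ∀ a ∈ P, ∀ b ∈ P, a * b = b * a)
  (K : Subgroup G) [hK : K.Normal] (hcop : ¬ p ∣ Nat.card K)
  (hPK : (P : Subgroup G) ⊔ K = ⊤)

omit hp [Finite G] in
theorem normal_of_le_center {H : Subgroup G} (h : H ≤ Subgroup.center G) : H.Normal := by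
  refine ⟨fun a ha g => ?_⟩
  have h1 := Subgroup.mem_center_iff.mp (h ha) g
  rw [h1, mul_inv_cancel_right]
  exact ha

include IH hcop in
/-- Proper subgroups of `P` centralize the normal `p`-complement. -/
theorem ps_centralizes_of_proper (P₀ : Subgroup G) (h1 : P₀ ≤ P) (h2 : P₀ ≠ P) :
    ∀ y ∈ P₀, ∀ u ∈ K, y * u = u * y := by
  intro y hy u hu
  have hLtop : P₀ ⊔ K ≠ ⊤ := by
    intro h
    apply h2
    apply le_antisymm h1
    intro v hv
    have hv' : v ∈ P₀ ⊔ K := by rw [h]; trivial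
    rw [← SetLike.mem_coe, Subgroup.mul_normal, Set.mem_mul] at hv'
    obtain ⟨y₀, hy₀, k, hk, rfl⟩ := hv'
    have hk1 : k = 1 := pgroup_inf_coprime hp.out P.isPGroup' hcop (by
      have e : k = y₀⁻¹ * (y₀ * k) := by group
      rw [e]
      exact Subgroup.mul_mem _ (Subgroup.inv_mem _ (h1 hy₀)) hv) hk
    rw [hk1, mul_one]
    exact hy₀
  have hpg : IsPGroup p (P₀.subgroupOf (P₀ ⊔ K)) :=
    (P.isPGroup'.to_le h1).comap_of_injective (P₀ ⊔ K).subtype (P₀ ⊔ K).subtype_injective
  obtain ⟨S, hS⟩ := hpg.exists_le_sylow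
  have hSn := IH _ hLtop S
  have hyL : y ∈ P₀ ⊔ K := (le_sup_left : P₀ ≤ P₀ ⊔ K) hy
  have huL : u ∈ P₀ ⊔ K := (le_sup_right : K ≤ P₀ ⊔ K) hu
  have hyS : (⟨y, hyL⟩ : ↥(P₀ ⊔ K)) ∈ (S : Subgroup ↥(P₀ ⊔ K)) := hS hy
  have h3 := hSn.conj_mem _ hyS ⟨u, huL⟩
  have h4 : u * y * u⁻¹ * y⁻¹ = 1 := by
    apply pgroup_inf_coprime hp.out (S.isPGroup'.map (P₀ ⊔ K).subtype) hcop
    · exact ⟨⟨u, huL⟩ * ⟨y, hyL⟩ * ⟨u, huL⟩⁻¹ * ⟨y, hyL⟩⁻¹,
        Subgroup.mul_mem _ h3 (Subgroup.inv_mem _ hyS), rfl⟩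
    · have e : u * y * u⁻¹ * y⁻¹ = u * (y * u⁻¹ * y⁻¹) := by group
      rw [e]
      exact K.mul_mem hu (hK.conj_mem _ (K.inv_mem hu) y)
  calc y * u = (u * y * u⁻¹ * y⁻¹)⁻¹ * (u * y) := by group
    _ = u * y := by rw [h4, inv_one, one_mul]

include IH hab hcop hPK in
/-- `P` is cyclic, generated by an element `x` acting nontrivially on `K` with `x ^ p` acting
trivially. -/
theorem ps_exists_gen (hP : ¬ (P : Subgroup G).Normal) :
    ∃ x ∈ (P : Subgroup G), (∃ u ∈ K, x * u ≠ u * x) ∧ Subgroup.zpowers x = P ∧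
      (∀ u ∈ K, x ^ p * u = u * x ^ p) := by
  have h1 : ∃ x ∈ (P : Subgroup G), ∃ u ∈ K, x * u ≠ u * x := by
    by_contra h
    push Not at h
    apply hP
    apply normal_of_le_center
    intro a ha
    rw [Subgroup.mem_center_iff]
    intro g
    have hg : g ∈ (P : Subgroup G) ⊔ K := by rw [hPK]; trivial
    rw [← SetLike.mem_coe, Subgroup.mul_normal, Set.mem_mul] at hg
    obtain ⟨y, hy, k, hk, rfl⟩ := hg
    rw [mul_assoc, ← h a ha k hk, ← mul_assoc, hab y hy a ha, mul_assoc]
  obtain ⟨x, hx, u, hu, hxu⟩ := h1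
  have hz : Subgroup.zpowers x = P := by
    by_contra hne
    exact hxu (ps_centralizes_of_proper IH P K hcop _ (Subgroup.zpowers_le.mpr hx) hne x
      (Subgroup.mem_zpowers x) u hu)
  refine ⟨x, hx, ⟨u, hu, hxu⟩, hz, ?_⟩
  have hne : Subgroup.zpowers (x ^ p) ≠ (P : Subgroup G) := by
    intro h
    have hx' : x ∈ Subgroup.zpowers (x ^ p) := by rw [h]; exact hx
    obtain ⟨j, hj⟩ := Subgroup.mem_zpowers_iff.mp hx'
    have h2 : x ^ ((p : ℤ) * j - 1) = 1 := by
      rw [zpow_sub, zpow_mul, zpow_natCast, hj, zpow_one, mul_inv_cancel]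
    have h3 : (orderOf x : ℤ) ∣ (p : ℤ) * j - 1 := orderOf_dvd_iff_zpow_eq_one.mpr h2
    have hx1 : x ≠ 1 := by
      rintro rfl
      exact hxu (by simp)
    obtain ⟨k, hk⟩ := P.isPGroup' ⟨x, hx⟩
    have hxk : x ^ p ^ k = 1 := congrArg Subtype.val hk
    have h4 : p ∣ orderOf x := by
      obtain ⟨i, hi, hi'⟩ := (Nat.dvd_prime_pow hp.out).mp (orderOf_dvd_of_pow_eq_one hxk)
      rw [hi']
      have hi0 : i ≠ 0 := by
        rintro rfl
        rw [pow_zero] at hi'
        exact hx1 (orderOf_eq_one_iff.mp hi')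
      exact dvd_pow_self p hi0
    have h5 : (p : ℤ) ∣ (p : ℤ) * j - 1 := (Int.natCast_dvd_natCast.mpr h4).trans h3
    have h6 : (p : ℤ) ∣ 1 := by
      have h7 := dvd_sub (dvd_mul_right (p : ℤ) j) h5
      simpa using h7
    have h8 : p ∣ 1 := by exact_mod_cast h6
    exact hp.out.one_lt.ne' (Nat.dvd_one.mp h8)
  intro u hu
  exact ps_centralizes_of_proper IH P K hcop _
    (Subgroup.zpowers_le.mpr (Subgroup.pow_mem _ hx p)) hne (x ^ p) (Subgroup.mem_zpowers _) u hu

include IH hcop in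
/-- Proper `x`-invariant subgroups of `K` are centralized by `x`. -/
theorem ps_min (x : G) (hz : Subgroup.zpowers x = P) (Q₀ : Subgroup G) (h1 : Q₀ ≤ K)
    (h2 : Q₀ ≠ K) (h3 : ∀ w ∈ Q₀, x * w * x⁻¹ ∈ Q₀) : ∀ w ∈ Q₀, x * w = w * x := by
  have hx : x ∈ (P : Subgroup G) := by rw [← hz]; exact Subgroup.mem_zpowers x
  have hxN : x ∈ Subgroup.normalizer (Q₀ : Set G) := by
    rw [Subgroup.mem_normalizer_iff]
    intro w
    refine ⟨h3 w, fun hw => ?_⟩
    let f : Q₀ → Q₀ := fun v => ⟨x * v * x⁻¹, h3 v v.2⟩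
    have hf : Function.Injective f := by
      intro a b hab'
      have h4 : x * (a : G) * x⁻¹ = x * (b : G) * x⁻¹ := congrArg Subtype.val hab'
      apply Subtype.ext
      have e : (a : G) = x⁻¹ * (x * a * x⁻¹) * x := by group
      rw [e, h4]; group
    obtain ⟨v, hv⟩ := (Finite.injective_iff_surjective.mp hf) ⟨x * w * x⁻¹, hw⟩
    have h5 : x * (v : G) * x⁻¹ = x * w * x⁻¹ := congrArg Subtype.val hv
    have h6 : w = v := by
      have e : w = x⁻¹ * (x * w * x⁻¹) * x := by group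
      rw [e, ← h5]; group
    rw [h6]
    exact v.2
  have hPN : (P : Subgroup G) ≤ Subgroup.normalizer (Q₀ : Set G) := by
    rw [← hz]
    exact Subgroup.zpowers_le.mpr hxN
  obtain ⟨L, hLtop, hPL, hQL⟩ : ∃ L : Subgroup G, L ≠ ⊤ ∧ (P : Subgroup G) ≤ L ∧ Q₀ ≤ L := by
    by_cases hN : Subgroup.normalizer (Q₀ : Set G) = ⊤
    · haveI : Q₀.Normal := Subgroup.normalizer_eq_top_iff.mp hN
      refine ⟨(P : Subgroup G) ⊔ Q₀, ?_, le_sup_left, le_sup_right⟩
      intro h
      apply h2
      apply le_antisymm h1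
      intro k hk
      have hk' : k ∈ (P : Subgroup G) ⊔ Q₀ := by rw [h]; trivial
      rw [← SetLike.mem_coe, Subgroup.mul_normal, Set.mem_mul] at hk'
      obtain ⟨y, hy, w, hw, rfl⟩ := hk'
      have hy1 : y = 1 := pgroup_inf_coprime hp.out P.isPGroup' hcop hy (by
        have e : y = (y * w) * w⁻¹ := by group
        rw [e]
        exact K.mul_mem hk (K.inv_mem (h1 hw)))
      rw [hy1, one_mul]
      exact hw
    · exact ⟨_, hN, hPN, Subgroup.le_normalizer⟩
  have hLN := ft_le_normalizer IH L hLtop P hPL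
  intro w hw
  have hwN : w ∈ Subgroup.normalizer ((P : Subgroup G) : Set G) := hLN (hQL hw)
  have h4 : w * x * w⁻¹ ∈ (P : Subgroup G) := (Subgroup.mem_normalizer_iff.mp hwN x).mp hx
  have h5 : w * x * w⁻¹ * x⁻¹ = 1 := by
    apply pgroup_inf_coprime hp.out P.isPGroup' hcop
    · exact Subgroup.mul_mem _ h4 (Subgroup.inv_mem _ hx)
    · have e : w * x * w⁻¹ * x⁻¹ = w * (x * w⁻¹ * x⁻¹) := by group
      rw [e]
      exact K.mul_mem (h1 hw) (hK.conj_mem _ (K.inv_mem (h1 hw)) x)
  calc x * w = (w * x * w⁻¹ * x⁻¹)⁻¹ * (w * x) := by group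
    _ = w * x := by rw [h5, inv_one, one_mul]

include IH hcop in
/-- The normal `p`-complement is solvable. -/
theorem ps_solvable (x : G) (hz : Subgroup.zpowers x = P) (hxK : ∃ u ∈ K, x * u ≠ u * x) :
    Group.IsSolvable K := by
  by_contra hns
  obtain ⟨u, hu, hxu⟩ := hxK
  apply hxu
  have hx : x ∈ (P : Subgroup G) := by rw [← hz]; exact Subgroup.mem_zpowers x
  let A : Subgroup (MulAut K) := (P : Subgroup G).map (MulAut.conjNormal (H := K))
  have hA : IsPGroup p A := P.isPGroup'.map _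
  have key : ∀ q : ℕ, q.Prime → ∃ S : Sylow q K, ∀ w ∈ (S : Subgroup K),
      x * (w : G) = (w : G) * x := by
    intro q hq
    haveI : Fact q.Prime := ⟨hq⟩
    have hnd : ¬ p ∣ Nat.card (Sylow q K) := by
      intro h
      obtain ⟨S₀⟩ := (inferInstance : Nonempty (Sylow q K))
      exact hcop (h.trans ((Sylow.card_dvd_index S₀).trans (Subgroup.index_dvd_card _)))
    obtain ⟨S, hS⟩ := hA.nonempty_fixed_point_of_prime_not_dvd_card (Sylow q K) hnd
    refine ⟨S, ?_⟩
    have hxA : (MulAut.conjNormal x : MulAut K) ∈ A := ⟨x, hx, rfl⟩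
    have hfix : (MulAut.conjNormal x : MulAut K) • S = S := hS ⟨_, hxA⟩
    have hfix' : (MulAut.conjNormal x : MulAut K) • (S : Subgroup K) = S :=
      congrArg (fun T : Sylow q K => (T : Subgroup K)) hfix
    have hQ₀K : (S : Subgroup K).map K.subtype ≤ K := Subgroup.map_subtype_le _
    have hQ₀ne : (S : Subgroup K).map K.subtype ≠ K := by
      intro h
      apply hns
      have hKq : IsPGroup q K := by
        intro g
        have hg : (g : G) ∈ (S : Subgroup K).map K.subtype := by rw [h]; exact g.2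
        obtain ⟨g', hg', hgg'⟩ := hg
        have e : g' = g := Subtype.ext hgg'
        rw [e] at hg'
        obtain ⟨k, hk⟩ := S.isPGroup' ⟨g, hg'⟩
        exact ⟨k, congrArg Subtype.val hk⟩
      haveI := hKq.isNilpotent
      infer_instance
    have hQ₀inv : ∀ w ∈ (S : Subgroup K).map K.subtype,
        x * w * x⁻¹ ∈ (S : Subgroup K).map K.subtype := by
      rintro w ⟨v, hv, rfl⟩
      refine ⟨(MulAut.conjNormal x : MulAut K) v, ?_, MulAut.conjNormal_apply x v⟩
      have h1 := Subgroup.smul_mem_pointwise_smul v (MulAut.conjNormal x : MulAut K)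
        (S : Subgroup K) hv
      rw [hfix'] at h1
      exact h1
    intro w hw
    exact ps_min IH P K hcop x hz _ hQ₀K hQ₀ne hQ₀inv (w : G) ⟨w, hw, rfl⟩
  -- the centralizer of `x` in `K` has index 1
  set C : Subgroup K := (Subgroup.centralizer ({x} : Set G)).subgroupOf K with hC
  have hCtop : C = ⊤ := by
    rw [← Subgroup.index_eq_one]
    by_contra hne
    obtain ⟨q, hq, hqd⟩ := Nat.exists_prime_and_dvd hne
    haveI : Fact q.Prime := ⟨hq⟩
    obtain ⟨S, hS⟩ := key q hq
    have hSC : (S : Subgroup K) ≤ C := by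
      intro w hw
      show (w : G) ∈ Subgroup.centralizer ({x} : Set G)
      rw [Subgroup.mem_centralizer_iff]
      intro y hy
      rw [Set.mem_singleton_iff] at hy
      subst hy
      exact hS w hw
    exact S.not_dvd_index (hqd.trans (Subgroup.index_dvd_of_le hSC))
  have huC : (⟨u, hu⟩ : K) ∈ C := by rw [hCtop]; trivial
  have huC' : u ∈ Subgroup.centralizer ({x} : Set G) := huC
  exact Subgroup.mem_centralizer_iff.mp huC' x rfl

omit [Finite G] in
/-- The irreducible constituents of the restriction to `K` are `x`-invariant. -/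
theorem ps_inv [Fintype K] [Fintype (IrrCharacter K)] (χ : G → ℂ) (hχ : IsCharacter G χ)
    (n : ℕ) (hχ1 : χ 1 = n) (hn : n < p) (x : G) (hxp : ∀ u ∈ K, x ^ p * u = u * x ^ p)
    (m : IrrCharacter K → ℕ)
    (hm : (fun k : K => χ k) = ∑ ψ : IrrCharacter K, (m ψ : ℂ) • (ψ : K → ℂ))
    (θ : IrrCharacter K) (hθ : m θ ≠ 0) : Helper20.conjFun K (θ : K → ℂ) x = θ := by
  classical
  by_contra hne
  have hcf : IsClassFunction G χ := Helper35.isClassFunction_of_isCharacter hχ
  let T : Subgroup G :=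
    { carrier := {g | Helper20.conjFun K (θ : K → ℂ) g = θ}
      one_mem' := Helper20.conjFun_one K _
      mul_mem' := fun {a b} ha hb => by
        show Helper20.conjFun K (θ : K → ℂ) (a * b) = θ
        have ha' : Helper20.conjFun K (θ : K → ℂ) a = θ := ha
        have hb' : Helper20.conjFun K (θ : K → ℂ) b = θ := hb
        rw [← Helper20.conjFun_conjFun, ha', hb']
      inv_mem' := fun {a} ha => by
        show Helper20.conjFun K (θ : K → ℂ) a⁻¹ = θ
        have ha' : Helper20.conjFun K (θ : K → ℂ) a = θ := ha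
        have h1 : Helper20.conjFun K (Helper20.conjFun K (θ : K → ℂ) a) a⁻¹ = θ := by
          rw [Helper20.conjFun_conjFun, mul_inv_cancel, Helper20.conjFun_one]
        rw [ha'] at h1
        exact h1 }
  have hxpT : x ^ p ∈ T := by
    show Helper20.conjFun K (θ : K → ℂ) (x ^ p) = θ
    funext u
    rw [Helper20.conjFun_apply]
    exact congrArg (θ : K → ℂ) (Subtype.ext (by
      show x ^ p * (u : G) * (x ^ p)⁻¹ = u
      rw [hxp u u.2, mul_inv_cancel_right]))
  have hxT : x ∉ T := hne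
  let F : Fin p → IrrCharacter K := fun i =>
    ⟨Helper20.conjFun K (θ : K → ℂ) (x ^ (i : ℕ)), Helper20.conjFun_irr K θ.2 _⟩
  have hFlt : ∀ i j : Fin p, (i : ℕ) < (j : ℕ) → F i ≠ F j := by
    intro i j hlt hij
    have h1 : Helper20.conjFun K (θ : K → ℂ) (x ^ (i : ℕ)) =
        Helper20.conjFun K (θ : K → ℂ) (x ^ (j : ℕ)) := congrArg Subtype.val hij
    have h2 : x ^ ((j : ℕ) - (i : ℕ)) ∈ T := by
      show Helper20.conjFun K (θ : K → ℂ) (x ^ ((j : ℕ) - (i : ℕ))) = θ
      apply Helper20.conjFun_inj K _ _ (x ^ (i : ℕ))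
      rw [Helper20.conjFun_conjFun, ← pow_add, Nat.sub_add_cancel hlt.le, ← h1]
    have hcop : Nat.Coprime ((j : ℕ) - (i : ℕ)) p := by
      apply Nat.Coprime.symm
      apply (Nat.Prime.coprime_iff_not_dvd hp.out).mpr
      intro hd
      have h3 := Nat.le_of_dvd (by omega) hd
      have h4 := j.2
      omega
    apply hxT
    have h3 : x = (x ^ ((j : ℕ) - (i : ℕ))) ^ (Nat.gcdA ((j : ℕ) - (i : ℕ)) p) *
        (x ^ p) ^ (Nat.gcdB ((j : ℕ) - (i : ℕ)) p) := by
      rw [← zpow_natCast, ← zpow_natCast, ← zpow_mul, ← zpow_mul, ← zpow_add,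
        ← Nat.gcd_eq_gcd_ab, hcop]
      simp
    rw [h3]
    exact T.mul_mem (T.zpow_mem h2 _) (T.zpow_mem hxpT _)
  have hF : Function.Injective F := by
    intro i j hij
    by_contra hne'
    rcases Nat.lt_or_ge (i : ℕ) (j : ℕ) with h | h
    · exact hFlt i j h hij
    · have h' : (j : ℕ) < (i : ℕ) := by
        rcases Nat.lt_or_ge (j : ℕ) (i : ℕ) with h'' | h''
        · exact h''
        · exact absurd (Fin.ext (le_antisymm h'' h)) hne'
      exact hFlt j i h' hij.symm
  have hmF : ∀ i : Fin p, m (F i) = m θ := by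
    intro i
    have h1 : classInner (fun k : K => χ k) ((F i : IrrCharacter K) : K → ℂ) = (m (F i) : ℂ) := by
      conv_lhs => rw [hm]
      exact Helper4.classInner_sum_irr (fun ψ => (m ψ : ℂ)) (F i)
    have h2 : classInner (fun k : K => χ k) (θ : K → ℂ) = (m θ : ℂ) := by
      conv_lhs => rw [hm]
      exact Helper4.classInner_sum_irr (fun ψ => (m ψ : ℂ)) θ
    have h3 := Helper20.classInner_res_conjFun K hcf (θ : K → ℂ) (x ^ (i : ℕ))
    rw [h2] at h3
    have h4 : (m (F i) : ℂ) = (m θ : ℂ) := by rw [← h1]; exact h3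
    exact_mod_cast h4
  have hsum : n = ∑ ψ : IrrCharacter K, m ψ * charDegree (ψ : K → ℂ) := by
    have h2 := congrFun hm 1
    simp only [Finset.sum_apply, Pi.smul_apply, smul_eq_mul] at h2
    rw [Subgroup.coe_one, hχ1,
      Finset.sum_congr rfl fun φ _ => by rw [(Helper83.irr_degree φ.2).2]] at h2
    exact_mod_cast h2
  have h5 : p ≤ n := by
    rw [hsum]
    calc p = ∑ _i : Fin p, 1 := by simp
      _ ≤ ∑ i : Fin p, m (F i) * charDegree ((F i : IrrCharacter K) : K → ℂ) := by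
          refine Finset.sum_le_sum fun i _ => ?_
          have h6 : 0 < m (F i) := by rw [hmF]; exact Nat.pos_of_ne_zero hθ
          have h7 := (Helper83.irr_degree (F i).2).1
          exact Nat.mul_pos h6 h7
      _ = ∑ ψ ∈ Finset.univ.image F, m ψ * charDegree (ψ : K → ℂ) := by
          rw [Finset.sum_image (fun a _ b _ h => hF h)]
      _ ≤ _ := Finset.sum_le_sum_of_subset (Finset.subset_univ _)
  omega

include IH hab hcop hPK in
/-- The `p`-solvable case is impossible. -/
theorem ps_false (hP : ¬ (P : Subgroup G).Normal) (χ : G → ℂ) (hχ : IsCharacter G χ) (n : ℕ)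
    (hχ1 : χ 1 = n) (hf : ∀ g, χ g = χ 1 → g = 1) (hn : n + 1 < p) : False := by
  classical
  obtain ⟨x, hx, hxK, hz, hxp⟩ := ps_exists_gen IH P hab K hcop hPK hP
  haveI hsolv : Group.IsSolvable K := ps_solvable IH P K hcop x hz hxK
  letI : Fintype K := Fintype.ofFinite K
  haveI := Helper4.irr_finite (G := K)
  letI : Fintype (IrrCharacter K) := Fintype.ofFinite _
  have hχK : IsCharacter K (fun k : K => χ k) := Helper35.isCharacter_res K hχ
  obtain ⟨m, hm⟩ := Helper4.exists_decomp_of_isCharacter _ hχK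
  let α : MulAut K := MulAut.conjNormal x
  have hαapp : ∀ u : K, ((α u : K) : G) = x * u * x⁻¹ := fun u => MulAut.conjNormal_apply x u
  have hinvθ : ∀ θ : IrrCharacter K, m θ ≠ 0 →
      ∀ u : K, (θ : K → ℂ) (α u) = (θ : K → ℂ) u := by
    intro θ hθ u
    have h1 := ps_inv K χ hχ n hχ1 (by omega) x hxp m hm θ hθ
    have h2 := congrFun h1 u
    rw [Helper20.conjFun_eq_comp] at h2
    exact h2
  obtain ⟨θ, hθm, u₀, hu₀⟩ : ∃ θ : IrrCharacter K, m θ ≠ 0 ∧
      ∃ u : K, (θ : K → ℂ) ((α u)⁻¹ * u) ≠ (θ : K → ℂ) 1 := by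
    by_contra hcon
    push Not at hcon
    obtain ⟨u, hu, hxu⟩ := hxK
    apply hxu
    have h1 : χ ((((α ⟨u, hu⟩)⁻¹ * ⟨u, hu⟩ : K) : G)) = χ 1 := by
      have h2 := congrFun hm ((α ⟨u, hu⟩)⁻¹ * ⟨u, hu⟩)
      have h3 := congrFun hm 1
      simp only [Finset.sum_apply, Pi.smul_apply, smul_eq_mul] at h2 h3
      rw [Subgroup.coe_one] at h3
      rw [h2, h3]
      refine Finset.sum_congr rfl fun θ _ => ?_
      by_cases hθ : m θ = 0
      · rw [hθ]; simp
      · rw [hcon θ hθ]
    have h4 := hf _ h1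
    have h5 : ((((α ⟨u, hu⟩)⁻¹ * ⟨u, hu⟩ : K) : G)) = (x * u * x⁻¹)⁻¹ * u := by
      rw [Subgroup.coe_mul, Subgroup.coe_inv, hαapp]
    rw [h5] at h4
    have h6 : x * u * x⁻¹ = u := inv_mul_eq_one.mp h4
    calc x * u = (x * u * x⁻¹) * x := by group
      _ = u * x := by rw [h6]
  obtain ⟨N, hNn, hN⟩ := Helper83.exists_ker θ.2
  haveI := hNn
  have hθinv := hinvθ θ hθm
  have hNα : N.map α.toMonoidHom = N := by
    ext w
    rw [Subgroup.mem_map]
    constructor
    · rintro ⟨v, hv, rfl⟩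
      rw [hN]
      show (θ : K → ℂ) (α v) = _
      rw [hθinv]
      exact (hN v).mp hv
    · intro hw
      refine ⟨α.symm w, ?_, α.apply_symm_apply w⟩
      rw [hN, ← hθinv, α.apply_symm_apply]
      exact (hN w).mp hw
  let αq : MulAut (K ⧸ N) := QuotientGroup.congr N N α hNα
  have hαq : ∀ u : K, αq (u : K ⧸ N) = ((α u : K) : K ⧸ N) :=
    fun u => QuotientGroup.congr_mk N N α hNα u
  obtain ⟨θq, hθq, hθq'⟩ := Helper83.irr_deflate N θ.2 (fun w hw => (hN w).mp hw)
  have hcopq : ¬ p ∣ Nat.card (K ⧸ N) := fun h => hcop (h.trans (Subgroup.index_dvd_card N))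
  have hαqp : αq ^ p = 1 := by
    have hpow : ∀ (k : ℕ) (u : K), (αq ^ k) (u : K ⧸ N) = (((α ^ k) u : K) : K ⧸ N) := by
      intro k
      induction k with
      | zero => intro u; rfl
      | succ k ih =>
        intro u
        rw [pow_succ', MulAut.mul_apply, ih, hαq, pow_succ', MulAut.mul_apply]
    ext q
    obtain ⟨u, rfl⟩ := QuotientGroup.mk_surjective q
    rw [hpow]
    have h1 : (α ^ p) u = u := by
      have h2 : α ^ p = MulAut.conjNormal (x ^ p) := (map_pow MulAut.conjNormal x p).symm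
      rw [h2]
      apply Subtype.ext
      rw [MulAut.conjNormal_apply, hxp u u.2, mul_inv_cancel_right]
    rw [h1]
    rfl
  have hαq1 : αq ≠ 1 := by
    intro h
    apply hu₀
    have h1 : αq (u₀ : K ⧸ N) = (u₀ : K ⧸ N) := by rw [h]; rfl
    rw [hαq, QuotientGroup.eq] at h1
    exact (hN _).mp h1
  have hminq : ∀ M : Subgroup (K ⧸ N), (∀ q ∈ M, αq q ∈ M) → M ≠ ⊤ →
      ∀ q ∈ M, αq q = q := by
    intro M hMinv hMtop q hq
    obtain ⟨u, rfl⟩ := QuotientGroup.mk_surjective q
    have hQ₀K : (M.comap (QuotientGroup.mk' N)).map K.subtype ≤ K := Subgroup.map_subtype_le _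
    have hQ₀ne : (M.comap (QuotientGroup.mk' N)).map K.subtype ≠ K := by
      intro h
      apply hMtop
      rw [eq_top_iff]
      intro q' _
      obtain ⟨v, rfl⟩ := QuotientGroup.mk_surjective q'
      have hv : (v : G) ∈ (M.comap (QuotientGroup.mk' N)).map K.subtype := by
        rw [h]; exact v.2
      obtain ⟨v', hv', hvv'⟩ := hv
      have e : v' = v := Subtype.ext hvv'
      rw [← e]
      exact hv'
    have hQ₀inv : ∀ w ∈ (M.comap (QuotientGroup.mk' N)).map K.subtype,
        x * w * x⁻¹ ∈ (M.comap (QuotientGroup.mk' N)).map K.subtype := by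
      rintro w ⟨v, hv, rfl⟩
      refine ⟨α v, ?_, hαapp v⟩
      show ((α v : K) : K ⧸ N) ∈ M
      rw [← hαq]
      exact hMinv _ hv
    have h1 := ps_min IH P K hcop x hz _ hQ₀K hQ₀ne hQ₀inv (u : G) ⟨u, hq, rfl⟩
    rw [hαq]
    congr 1
    apply Subtype.ext
    rw [hαapp, h1, mul_inv_cancel_right]
  have hfq : ∀ q : K ⧸ N, θq q = θq 1 → q = 1 := by
    intro q hq
    obtain ⟨u, rfl⟩ := QuotientGroup.mk_surjective q
    have h1 : θq ((1 : K) : K ⧸ N) = (θ : K → ℂ) 1 := hθq' 1
    have h2 : θq (1 : K ⧸ N) = (θ : K → ℂ) 1 := h1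
    rw [hθq', h2] at hq
    exact (QuotientGroup.eq_one_iff u).mpr ((hN u).mpr hq)
  have hinvq : ∀ q : K ⧸ N, θq (αq q) = θq q := by
    intro q
    obtain ⟨u, rfl⟩ := QuotientGroup.mk_surjective q
    rw [hαq, hθq', hθq', hθinv]
  obtain ⟨hd1, hd2⟩ := hh_main αq p hcopq hαqp hαq1 hminq θq hθq hfq hinvq
  have hdeg : charDegree θq = charDegree (θ : K → ℂ) := by
    have h1 := (Helper83.irr_degree hθq).2
    have h2 := (Helper83.irr_degree θ.2).2
    have h3 : θq 1 = (θ : K → ℂ) 1 := hθq' 1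
    rw [h1, h2] at h3
    exact_mod_cast h3
  have hle := decomp_degree_le (G := K) (χ := fun k : K => χ k) (n := n)
    (by show χ ((1 : K) : G) = n; rw [Subgroup.coe_one]; exact hχ1) m hm θ hθm
  rw [hdeg] at hd1 hd2
  obtain ⟨e, he⟩ : ∃ e, charDegree (θ : K → ℂ) = e + 1 :=
    ⟨charDegree (θ : K → ℂ) - 1, by omega⟩
  rw [he] at hd1 hd2 hle
  have h1 : (e + 1) ^ 2 - 1 = e * (e + 2) := by
    have h2 : (e + 1) ^ 2 = e * (e + 2) + 1 := by ring
    rw [h2]; simp
  rw [h1] at hd2
  rcases (Nat.Prime.dvd_mul hp.out).mp hd2 with h | h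
  · have h3 := Nat.le_of_dvd (by omega) h
    omega
  · have h3 := Nat.le_of_dvd (by omega) h
    omega

end PSolv

section Main

variable (p : ℕ) [hp : Fact p.Prime]

/-- The main theorem, by induction on the order. -/
theorem ft_sylow_aux (n : ℕ) : ∀ (N : ℕ) (G : Type u) [Group G] [Finite G],
    Nat.card G = N → FTHyp p n G → ∀ P : Sylow p G, (P : Subgroup G).Normal := by
  intro N
  induction N using Nat.strong_induction_on with
  | _ N ih =>
    intro G _ _ hN hG P
    by_contra hPn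
    have IH : ∀ L : Subgroup G, L ≠ ⊤ → ∀ Q : Sylow p L, (Q : Subgroup L).Normal := by
      intro L hL Q
      have hlt : Nat.card L < N := by
        rw [← hN]
        exact lt_of_le_of_ne (Subgroup.card_le_card_group L)
          (fun h => hL ((Subgroup.card_eq_iff_eq_top L).mp h))
      exact ih (Nat.card L) hlt L rfl (hG.subgroup p L) Q
    obtain ⟨⟨χ, hχ, hχ1, hf⟩, h2⟩ := hG
    have hnp : n + 1 < p := by
      rcases h2 with h2 | ⟨h2, -⟩
      · have h3 := hp.out.two_le
        nlinarith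
      · exact h2
    have hab : ∀ P : Sylow p G, ∀ a ∈ P, ∀ b ∈ P, a * b = b * a := by
      intro P' a ha b hb
      have h3 := comm_of_faithful_lt (p := p) (G := (P' : Subgroup G)) (n := n) (by omega)
        P'.isPGroup' (fun k => χ k) (Helper35.isCharacter_res _ hχ)
        (by show χ ((1 : (P' : Subgroup G)) : G) = n; rw [Subgroup.coe_one]; exact hχ1)
        (fun g hg => Subtype.ext (hf g hg)) ⟨a, ha⟩ ⟨b, hb⟩
      exact congrArg Subtype.val h3
    by_cases hZ : (P : Subgroup G) ⊓ Subgroup.center G = ⊥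
    · have hlt := ft_card_lt IH hab P hPn hZ χ hχ n hχ1 hf
      have hPne : (P : Subgroup G) ≠ ⊥ := by
        intro h
        apply hPn
        rw [h]
        infer_instance
      have hcard := P.card_eq_multiplicity
      rcases h2 with h2 | ⟨h2, h3⟩
      · -- `(n + 1) ^ 2 ≤ p ≤ |P|`
        have hk : (Nat.card G).factorization p ≠ 0 := by
          intro h0
          rw [h0, pow_zero] at hcard
          exact hPne (Subgroup.card_eq_one.mp hcard)
        have hple : p ≤ Nat.card (P : Subgroup G) := by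
          rw [hcard]
          exact Nat.le_self_pow hk p
        have e : (1 + n) ^ 2 = (n + 1) ^ 2 := by ring
        omega
      · -- `p ^ 2 ∣ |G|`
        have hp2 : p ^ 2 ∣ Nat.card G := by
          by_contra hnd
          apply hPn
          have h4 : ∀ Q : Sylow p (⊤ : Subgroup G), (Q : Subgroup (⊤ : Subgroup G)).Normal :=
            h3 ⊤ (by rw [Subgroup.card_top]; exact hnd)
          exact sylow_normal_of_equiv p (Subgroup.topEquiv (G := G)).symm h4 P
        have hk : 2 ≤ (Nat.card G).factorization p :=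
          (hp.out.pow_dvd_iff_le_factorization Nat.card_pos.ne').mp hp2
        have hple : p ^ 2 ≤ Nat.card (P : Subgroup G) := by
          rw [hcard]
          exact Nat.pow_le_pow_right hp.out.pos hk
        have h5 : (1 + n) ^ 2 < p ^ 2 := by
          have h6 : 1 + n < p := by omega
          exact Nat.pow_lt_pow_left h6 (by norm_num)
        omega
    · obtain ⟨hcop, hsup⟩ := ft_center_case IH hab P hPn hZ
      exact ps_false IH P (hab P) (commutator G) hcop hsup hPn χ hχ n hχ1 hf hnp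

end Main

end Cfsg.Agent.Lib.Helper21
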