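import Mathlib
import Cfsg.Agent.Lib.Helper52.LPDefs
import Cfsg.Agent.Lib.Helper65.LS2
import Cfsg.Agent.S2616

/-!
# LP-2: rational normal form of a `σ`-invariant quadratic form of even dimension
-/

set_option autoImplicit false
set_option linter.unusedSectionVars false
set_option linter.unusedSimpArgs false

namespace Cfsg.Agent.Lib.Helper21.LP2

open Module QuadraticMap Matrix
open Cfsg Cfsg.Agent.Lib.Helper51 Cfsg.Agent.Lib.Helper52 Cfsg.Agent.Lib.Helper54
open Cfsg.Agent.Lib.Helper52.LP
open Cfsg.Agent.Lib.Helper65.LS2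

/-- Char-free: a quadratic form is determined by its values and its polar form on a basis. -/
theorem quad_ext_basis {K V κ : Type*} [Field K] [AddCommGroup V] [Module K V] [Fintype κ]
    (b : Module.Basis κ K V) (A B : QuadraticForm K V)
    (h1 : ∀ i, A (b i) = B (b i))
    (h2 : ∀ i j, QuadraticMap.polar ⇑A (b i) (b j) = QuadraticMap.polar ⇑B (b i) (b j)) :
    A = B := by
  classical
  have hp : ∀ x y, QuadraticMap.polar ⇑A x y = QuadraticMap.polar ⇑B x y := by
    have hAB : QuadraticMap.polarBilin A = QuadraticMap.polarBilin B :=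
      LinearMap.BilinForm.ext_basis b (fun i j => h2 i j)
    intro x y
    have h3 := congrArg (fun f => f x y) hAB
    simpa using h3
  have key : ∀ (s : Finset κ) (c : κ → K),
      A (∑ i ∈ s, c i • b i) = B (∑ i ∈ s, c i • b i) := by
    intro s c
    induction s using Finset.induction_on with
    | empty => simp
    | insert a s ha ih =>
      rw [Finset.sum_insert ha, QuadraticMap.map_add ⇑A (c a • b a) (∑ i ∈ s, c i • b i),
        QuadraticMap.map_add ⇑B (c a • b a) (∑ i ∈ s, c i • b i), ih, hp,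
        QuadraticMap.map_smul, QuadraticMap.map_smul, h1]
  ext x
  have h4 := key Finset.univ (fun i => b.repr x i)
  rwa [b.sum_repr] at h4

variable {ι : Type} [Fintype ι] [DecidableEq ι] {F : Type*} [Field F]

theorem up_zero (σ : F ≃+* F) : up σ (0 : ι → ↥(fixSub σ)) = 0 := rfl

theorem up_sum (σ : F ≃+* F) {κ : Type*} (s : Finset κ) (c : κ → ↥(fixSub σ))
    (w : κ → ι → ↥(fixSub σ)) :
    up σ (∑ j ∈ s, c j • w j) = ∑ j ∈ s, (c j : F) • up σ (w j) := by
  classical
  induction s using Finset.induction_on with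
  | empty => simp [up_zero]
  | insert a s ha ih => rw [Finset.sum_insert ha, Finset.sum_insert ha, up_add, up_smul, ih]

/-- A basis over the fixed field lifts to a `σ`-equivariant linear equivalence. -/
theorem lift_basis (σ : F ≃+* F) {κ : Type} [Fintype κ] [DecidableEq κ]
    (b : Module.Basis κ ↥(fixSub σ) (ι → ↥(fixSub σ))) :
    ∃ L : (κ → F) ≃ₗ[F] (ι → F), (∀ v, L (fun i => σ (v i)) = fun i => σ (L v i)) ∧
      ∀ j, L (Pi.single j 1) = up σ (b j) := by
  have hcard : Fintype.card κ = finrank F (ι → F) := by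
    rw [Module.finrank_fintype_fun_eq_card, ← Module.finrank_eq_card_basis b,
      Module.finrank_fintype_fun_eq_card]
  have hspan : ⊤ ≤ Submodule.span F (Set.range (fun j => up σ (b j))) := by
    rw [← (Pi.basisFun F ι).span_eq]
    apply Submodule.span_le.mpr
    rintro _ ⟨i, rfl⟩
    rw [Pi.basisFun_apply, ← up_single σ i, ← b.sum_repr (Pi.single i 1), up_sum]
    apply Submodule.sum_mem
    intro j _
    apply Submodule.smul_mem
    exact Submodule.subset_span ⟨j, rfl⟩
  obtain ⟨B, hB⟩ : ∃ B : Module.Basis κ F (ι → F), ⇑B = fun j => up σ (b j) :=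
    ⟨basisOfTopLeSpanOfCardEqFinrank _ hspan hcard, coe_basisOfTopLeSpanOfCardEqFinrank _ _ _⟩
  refine ⟨B.equivFun.symm, ?_, ?_⟩
  · intro v
    funext i
    rw [Module.Basis.equivFun_symm_apply, Module.Basis.equivFun_symm_apply, hB]
    simp only [Finset.sum_apply, Pi.smul_apply, smul_eq_mul, map_sum, map_mul]
    apply Finset.sum_congr rfl
    intro j _
    congr 1
    exact ((b j i).2).symm
  · intro j
    rw [Module.Basis.equivFun_symm_apply, hB]
    simp [Pi.single_apply]

theorem ell_case (k : ℕ) (σ : F ≃+* F) (Q1 : QuadraticForm F (ι → F)) (hσ : SigInv σ Q1)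
    (b : Module.Basis ((Fin k ⊕ Fin k) ⊕ Fin 2) ↥(fixSub σ) (ι → ↥(fixSub σ)))
    (ζ : ↥(fixSub σ)) (hζ : ∀ t : ↥(fixSub σ), t ^ 2 + t + ζ ≠ 0)
    (hb1 : ∀ i, Q10 σ Q1 hσ (b (Sum.inl (Sum.inl i))) = 0 ∧
      Q10 σ Q1 hσ (b (Sum.inl (Sum.inr i))) = 0)
    (hb2 : ∀ i j, QuadraticMap.polar ⇑(Q10 σ Q1 hσ) (b (Sum.inl (Sum.inl i)))
      (b (Sum.inl (Sum.inr j))) = if i = j then 1 else 0)
    (hb3 : ∀ i j, QuadraticMap.polar ⇑(Q10 σ Q1 hσ) (b (Sum.inl (Sum.inl i)))
        (b (Sum.inl (Sum.inl j))) = 0 ∧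
      QuadraticMap.polar ⇑(Q10 σ Q1 hσ) (b (Sum.inl (Sum.inr i))) (b (Sum.inl (Sum.inr j))) = 0)
    (hb4 : ∀ i (l : Fin 2), QuadraticMap.polar ⇑(Q10 σ Q1 hσ) (b (Sum.inl (Sum.inl i)))
        (b (Sum.inr l)) = 0 ∧
      QuadraticMap.polar ⇑(Q10 σ Q1 hσ) (b (Sum.inl (Sum.inr i))) (b (Sum.inr l)) = 0)
    (hb5 : Q10 σ Q1 hσ (b (Sum.inr 0)) = 1)
    (hb6 : QuadraticMap.polar ⇑(Q10 σ Q1 hσ) (b (Sum.inr 0)) (b (Sum.inr 1)) = 1)
    (hb7 : Q10 σ Q1 hσ (b (Sum.inr 1)) = ζ) :
    IsEll k σ Q1 := by
  classical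
  obtain ⟨L, hL1, hL2⟩ := lift_basis σ b
  have hEq : Q1.comp (L : ((Fin k ⊕ Fin k) ⊕ Fin 2 → F) →ₗ[F] (ι → F))
      = QMinus k F 1 (ζ : F) := by
    apply quad_ext_basis (Pi.basisFun F ((Fin k ⊕ Fin k) ⊕ Fin 2))
    · intro j
      rw [Pi.basisFun_apply, QuadraticMap.comp_apply, LinearEquiv.coe_coe, hL2 j,
        ← coe_Q10 σ Q1 hσ, QMinus_apply]
      rcases j with (j | j) | j
      · rw [(hb1 j).1]
        simp [Pi.single_apply]
      · rw [(hb1 j).2]
        simp [Pi.single_apply]
      · revert j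
        rw [Fin.forall_fin_two]
        constructor
        · rw [hb5]
          simp [Pi.single_apply]
        · rw [hb7]
          simp [Pi.single_apply]
    · intro i j
      have e : QuadraticMap.polar
          ⇑(Q1.comp (L : ((Fin k ⊕ Fin k) ⊕ Fin 2 → F) →ₗ[F] (ι → F)))
          (Pi.single i 1) (Pi.single j 1)
          = QuadraticMap.polar ⇑Q1 (up σ (b i)) (up σ (b j)) := by
        simp only [QuadraticMap.polar, QuadraticMap.comp_apply, LinearEquiv.coe_coe, map_add,
          hL2]
      rw [Pi.basisFun_apply, Pi.basisFun_apply, e, ← coe_polar_Q10 σ Q1 hσ, polar_QMinus]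
      rcases i with (i | i) | i <;> rcases j with (j | j) | j
      · rw [(hb3 i j).1]
        simp [Pi.single_apply]
      · rw [hb2 i j]
        by_cases hij : i = j
        · subst hij
          simp [Pi.single_apply]
        · simp [Pi.single_apply, hij, Ne.symm hij]
      · rw [(hb4 i j).1]
        simp [Pi.single_apply]
      · rw [QuadraticMap.polar_comm, hb2 j i]
        by_cases hij : j = i
        · subst hij
          simp [Pi.single_apply]
        · simp [Pi.single_apply, hij, Ne.symm hij]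
      · rw [(hb3 i j).2]
        simp [Pi.single_apply]
      · rw [(hb4 i j).2]
        simp [Pi.single_apply]
      · rw [QuadraticMap.polar_comm, (hb4 j i).1]
        simp [Pi.single_apply]
      · rw [QuadraticMap.polar_comm, (hb4 j i).2]
        simp [Pi.single_apply]
      · clear e
        revert i j
        rw [Fin.forall_fin_two]
        constructor
        · rw [Fin.forall_fin_two]
          constructor
          · rw [QuadraticMap.polar_self, hb5, two_nsmul, Subfield.coe_add]
            simp [Pi.single_apply]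
            norm_num
          · rw [hb6]
            simp [Pi.single_apply]
        · rw [Fin.forall_fin_two]
          constructor
          · rw [QuadraticMap.polar_comm, hb6]
            simp [Pi.single_apply]
          · rw [QuadraticMap.polar_self, hb7, two_nsmul, Subfield.coe_add]
            simp [Pi.single_apply]
            ring
  refine ⟨L, 1, (ζ : F), hL1, ζ.2, ?_, ?_⟩
  · intro t ht h0
    apply hζ ⟨t, ht⟩
    apply Subtype.ext
    simpa using h0
  · intro v
    rw [Units.val_one, one_mul, ← coe_QMinus, ← hEq]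
    rfl

theorem normal_form [Fintype F] (k : ℕ) (hcard : Fintype.card ι = 2 * (k + 1)) (σ : F ≃+* F)
    (Q1 : QuadraticForm F (ι → F)) (hQ1 : (polarBilin Q1).Nondegenerate) (hσ : SigInv σ Q1) :
    IsSplit (k + 1) σ Q1 ∨ IsEll k σ Q1 := by
  classical
  have hV : Module.finrank ↥(fixSub σ) (ι → ↥(fixSub σ)) = 2 * (k + 1) := by
    rw [Module.finrank_fintype_fun_eq_card, hcard]
  rcases Cfsg.Agent.S2616.result (m := k + 1) (by omega) hV (Q10 σ Q1 hσ)
    (Q10_nondeg σ Q1 hσ hQ1) with ⟨b, hb1, hb2, hb3⟩ | ⟨b, ζ, hζ, hb1, hb2, hb3, hb4, hb5, hb6, hb7⟩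
  · left
    obtain ⟨L, hL1, hL2⟩ := lift_basis σ b
    have hEq : Q1.comp (L : (Fin (k + 1) ⊕ Fin (k + 1) → F) →ₗ[F] (ι → F)) = QPlus (k + 1) F := by
      apply quad_ext_basis (Pi.basisFun F (Fin (k + 1) ⊕ Fin (k + 1)))
      · intro j
        rw [Pi.basisFun_apply, QuadraticMap.comp_apply, LinearEquiv.coe_coe, hL2 j,
          ← coe_Q10 σ Q1 hσ, QPlus_apply]
        rcases j with j | j
        · rw [(hb1 j).1]
          simp [Pi.single_apply]
        · rw [(hb1 j).2]
          simp [Pi.single_apply]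
      · intro i j
        have e : QuadraticMap.polar
            ⇑(Q1.comp (L : (Fin (k + 1) ⊕ Fin (k + 1) → F) →ₗ[F] (ι → F)))
            (Pi.single i 1) (Pi.single j 1)
            = QuadraticMap.polar ⇑Q1 (up σ (b i)) (up σ (b j)) := by
          simp only [QuadraticMap.polar, QuadraticMap.comp_apply, LinearEquiv.coe_coe, map_add,
            hL2]
        rw [Pi.basisFun_apply, Pi.basisFun_apply, e, ← coe_polar_Q10 σ Q1 hσ, polar_QPlus]
        rcases i with i | i <;> rcases j with j | j
        · rw [(hb3 i j).1]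
          simp [Pi.single_apply]
        · rw [hb2 i j]
          by_cases hij : i = j
          · subst hij
            simp [Pi.single_apply]
          · simp [Pi.single_apply, hij, Ne.symm hij]
        · rw [QuadraticMap.polar_comm, hb2 j i]
          by_cases hij : j = i
          · subst hij
            simp [Pi.single_apply]
          · simp [Pi.single_apply, hij, Ne.symm hij]
        · rw [(hb3 i j).2]
          simp [Pi.single_apply]
    refine ⟨L, 1, hL1, ?_⟩
    intro v
    rw [Units.val_one, one_mul, ← coe_QPlus, ← hEq]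
    rfl
  · right
    exact ell_case k σ Q1 hσ b ζ hζ hb1 hb2 hb3 hb4 hb5 hb6 hb7

end Cfsg.Agent.Lib.Helper21.LP2
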