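import Mathlib
import Cfsg.Agent.Lib.Helper51.GFDefs2
import Cfsg.Agent.Lib.Helper52.LangPlus
import Cfsg.Agent.Lib.Helper53.MFCENTO
import Cfsg.Agent.Lib.Helper53.OddFE
import Cfsg.Agent.Lib.Helper54.OrthInnPlus

/-!
# S2717, piece GF-SGN: the transport carries the similarities of sign one to those of sign one
-/

set_option autoImplicit false
set_option linter.unusedSectionVars false
set_option linter.unusedVariables false

namespace Cfsg.Agent.Lib.Helper21.GFSGN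

open Module QuadraticMap Matrix
open Cfsg Cfsg.Agent.Lib.Helper51 Cfsg.Agent.Lib.Helper51.GammaO Cfsg.Agent.Lib.Helper52
  Cfsg.Agent.Lib.Helper52.OU Cfsg.Agent.Lib.Helper53.OddF
  Cfsg.Agent.Lib.Helper53.MinusF Cfsg.Agent.Lib.Helper54 Cfsg.Agent.Lib.Helper51.GF
  Cfsg.Agent.Lib.Helper53.MFCENTO

universe u v

/-- transport of a similarity along `T` (generic index types) -/
theorem transport_sim {ι κ : Type} [Fintype ι] [DecidableEq ι] [Fintype κ] [DecidableEq κ]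
    {F : Type u} [Field F] (Q : QuadraticForm F (ι → F)) (Q' : QuadraticForm F (κ → F))
    (hv : ∃ v, Q v ≠ 0) (hv' : ∃ v, Q' v ≠ 0) (hQ' : PolarSep Q')
    (T : Matrix κ ι F) (T' : Matrix ι κ F) (hTT' : T * T' = 1) (hT'T : T' * T = 1)
    (hT : ∀ v, Q' (T *ᵥ v) = Q v) (n : ℕ)
    (g : ↥(Geo.quadSimilarityGroup (F := F) ⇑Q)) :
    ∃ g' : ↥(Geo.quadSimilarityGroup (F := F) ⇑Q'),
      ((g' : GL κ F) : Matrix κ κ F) = T * ((g : GL ι F) : Matrix ι ι F) * T' ∧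
      simSgn Q' hv' n g' = simSgn Q hv n g := by
  have hT' : ∀ w, Q (T' *ᵥ w) = Q' w := by
    intro w
    rw [← hT, Matrix.mulVec_mulVec, hTT', Matrix.one_mulVec]
  have hsim : ∀ w, Q' ((T * ((g : GL ι F) : Matrix ι ι F) * T') *ᵥ w)
      = (simMul Q hv g : F) * Q' w := by
    intro w
    rw [← Matrix.mulVec_mulVec, ← Matrix.mulVec_mulVec, hT, simMul_spec Q hv g, hT']
  refine ⟨simOfMatrix Q' hQ' (T * ((g : GL ι F) : Matrix ι ι F) * T') (simMul Q hv g : F)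
    (Units.ne_zero _) hsim, rfl, ?_⟩
  rw [simSgn_apply, simSgn_apply]
  have h1 : simMul Q' hv' (simOfMatrix Q' hQ' (T * ((g : GL ι F) : Matrix ι ι F) * T')
      (simMul Q hv g : F) (Units.ne_zero _) hsim) = simMul Q hv g :=
    Units.ext (simMul_simOfMatrix Q' hQ' hv' _ _ _ hsim)
  have h2 : Matrix.GeneralLinearGroup.det
      ((simOfMatrix Q' hQ' (T * ((g : GL ι F) : Matrix ι ι F) * T')
        (simMul Q hv g : F) (Units.ne_zero _) hsim : ↥(Geo.quadSimilarityGroup (F := F) ⇑Q')) :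
          GL κ F) = Matrix.GeneralLinearGroup.det (g : GL ι F) := by
    apply Units.ext
    rw [Matrix.GeneralLinearGroup.val_det_apply, Matrix.GeneralLinearGroup.val_det_apply]
    exact Matrix.det_conj_of_mul_eq_one hTT' hT'T
  rw [h1, h2]

theorem sgnKer_map_eq {F : Type u} [Field F] [Fintype F] (k : ℕ) (a b : F)
    (T : Matrix ((Fin k ⊕ Fin k) ⊕ Fin 2) (Fin (k + 1) ⊕ Fin (k + 1)) F)
    (T' : Matrix (Fin (k + 1) ⊕ Fin (k + 1)) ((Fin k ⊕ Fin k) ⊕ Fin 2) F)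
    (hTT' : T * T' = 1) (hT'T : T' * T = 1)
    (hT : ∀ v, QMinus k F a b (T *ᵥ v) = QPlus (k + 1) F v)
    (hD : a ^ 2 - 4 * b ≠ 0)
    (ψ : POmega F ⇑(QPlus (k + 1) F) ≃* POmega F ⇑(QMinus k F a b))
    (hψ1 : ∀ (g : GL (Fin (k + 1) ⊕ Fin (k + 1)) F) (g' : GL ((Fin k ⊕ Fin k) ⊕ Fin 2) F)
        (τ : F ≃+* F) (β : MulAut (POmega F ⇑(QPlus (k + 1) F))),
        (g' : Matrix _ _ F) * T.map τ = T * (g : Matrix _ _ F) →
        Ind ⇑(QPlus (k + 1) F) β g τ → Ind ⇑(QMinus k F a b) (MulAut.congr ψ β) g' τ)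
    (hψ2 : ∀ (g : GL (Fin (k + 1) ⊕ Fin (k + 1)) F) (g' : GL ((Fin k ⊕ Fin k) ⊕ Fin 2) F)
        (τ : F ≃+* F) (β' : MulAut (POmega F ⇑(QMinus k F a b))),
        (g' : Matrix _ _ F) * T.map τ = T * (g : Matrix _ _ F) →
        Ind ⇑(QMinus k F a b) β' g' τ → Ind ⇑(QPlus (k + 1) F) ((MulAut.congr ψ).symm β') g τ) :
    (((simSgn (QPlus (k + 1) F) (hv_plus (Nat.succ_le_succ (Nat.zero_le k))) (k + 1)).ker).map
        (simAut ⇑(QPlus (k + 1) F))).map (MulAut.congr ψ).toMonoidHom =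
      ((simSgn (QMinus k F a b) (hv_minus a b) (k + 1)).ker).map (simAut ⇑(QMinus k F a b)) := by
  have hTid : T.map (RingEquiv.refl F) = T := Matrix.ext fun i j => rfl
  have hT' : ∀ w, QPlus (k + 1) F (T' *ᵥ w) = QMinus k F a b w := by
    intro w
    rw [← hT, Matrix.mulVec_mulVec, hTT', Matrix.one_mulVec]
  have hindP : ∀ g : ↥(Geo.quadSimilarityGroup (F := F) ⇑(QPlus (k + 1) F)),
      Ind ⇑(QPlus (k + 1) F) (simAut ⇑(QPlus (k + 1) F) g) (g : GL _ F) (RingEquiv.refl F) := by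
    intro g
    refine ⟨?_, (Cfsg.Agent.Lib.Helper54.induced_iff ⇑(QPlus (k + 1) F) g _).mpr rfl⟩
    obtain ⟨c, hc⟩ := g.2
    exact ⟨c, fun v => hc v⟩
  have hindM : ∀ g : ↥(Geo.quadSimilarityGroup (F := F) ⇑(QMinus k F a b)),
      Ind ⇑(QMinus k F a b) (simAut ⇑(QMinus k F a b) g) (g : GL _ F) (RingEquiv.refl F) := by
    intro g
    refine ⟨?_, (Cfsg.Agent.Lib.Helper54.induced_iff ⇑(QMinus k F a b) g _).mpr rfl⟩
    obtain ⟨c, hc⟩ := g.2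
    exact ⟨c, fun v => hc v⟩
  apply le_antisymm
  · rintro _ ⟨_, ⟨g, hg, rfl⟩, rfl⟩
    obtain ⟨g', hg'mat, hg'sgn⟩ := transport_sim (QPlus (k + 1) F) (QMinus k F a b)
      (hv_plus (Nat.succ_le_succ (Nat.zero_le k))) (hv_minus a b) (polarSep_minus' a b hD)
      T T' hTT' hT'T hT (k + 1) g
    have hrel : ((g' : GL ((Fin k ⊕ Fin k) ⊕ Fin 2) F) : Matrix ((Fin k ⊕ Fin k) ⊕ Fin 2) ((Fin k ⊕ Fin k) ⊕ Fin 2) F) *
        T.map (RingEquiv.refl F)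
        = T * ((g : GL (Fin (k + 1) ⊕ Fin (k + 1)) F) :
            Matrix (Fin (k + 1) ⊕ Fin (k + 1)) (Fin (k + 1) ⊕ Fin (k + 1)) F) := by
      rw [hTid, hg'mat, Matrix.mul_assoc, hT'T, Matrix.mul_one]
    have h1 := hψ1 (g : GL (Fin (k + 1) ⊕ Fin (k + 1)) F) (g' : GL ((Fin k ⊕ Fin k) ⊕ Fin 2) F)
      (RingEquiv.refl F) _ hrel (hindP g)
    have h2 := (Cfsg.Agent.Lib.Helper54.induced_iff ⇑(QMinus k F a b) g' _).mp h1.2
    refine ⟨g', ?_, h2.symm⟩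
    have hg0 := MonoidHom.mem_ker.mp hg
    exact MonoidHom.mem_ker.mpr (hg'sgn.trans hg0)
  · rintro _ ⟨g', hg', rfl⟩
    obtain ⟨g, hgmat, hgsgn⟩ := transport_sim (QMinus k F a b) (QPlus (k + 1) F)
      (hv_minus a b) (hv_plus (Nat.succ_le_succ (Nat.zero_le k))) polarSep_plus
      T' T hT'T hTT' hT' (k + 1) g'
    have hrel : ((g' : GL ((Fin k ⊕ Fin k) ⊕ Fin 2) F) : Matrix ((Fin k ⊕ Fin k) ⊕ Fin 2) ((Fin k ⊕ Fin k) ⊕ Fin 2) F) *
        T.map (RingEquiv.refl F)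
        = T * ((g : GL (Fin (k + 1) ⊕ Fin (k + 1)) F) :
            Matrix (Fin (k + 1) ⊕ Fin (k + 1)) (Fin (k + 1) ⊕ Fin (k + 1)) F) := by
      rw [hTid, hgmat, ← Matrix.mul_assoc, ← Matrix.mul_assoc, hTT', Matrix.one_mul]
    have h1 := hψ2 (g : GL (Fin (k + 1) ⊕ Fin (k + 1)) F) (g' : GL ((Fin k ⊕ Fin k) ⊕ Fin 2) F)
      (RingEquiv.refl F) _ hrel (hindM g')
    have h2 := (Cfsg.Agent.Lib.Helper54.induced_iff ⇑(QPlus (k + 1) F) g _).mp h1.2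
    refine ⟨simAut ⇑(QPlus (k + 1) F) g, ⟨g, ?_, rfl⟩, ?_⟩
    · have hg0 := MonoidHom.mem_ker.mp hg'
      exact MonoidHom.mem_ker.mpr (hgsgn.trans hg0)
    · rw [← h2]
      exact (MulAut.congr ψ).apply_symm_apply _

end Cfsg.Agent.Lib.Helper21.GFSGN
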