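import Cfsg.Agent.Lib.Helper98.T73Defs
import Cfsg.Agent.Lib.Helper61.T73COUNTQ

/-!
# Project H74 (S5974, helper98), piece CNTG (helper21)

If a prime `r` divides the number of nondegenerate subspaces of given dimension and type of a
quadratic space (and there is one), then there is an isometry of order `r`: the isometry group is
transitive on these subspaces (piece TRANS, taken here as the hypothesis `htrans`);
orbit-stabiliser; Cauchy.  `exists_qi_of_dvd_card_typ_of` is the statement of the skeleton with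
the conclusion of `typed_trans` as an extra hypothesis.
-/

set_option autoImplicit false

namespace Cfsg.Agent.Lib.Helper98.H74

open Cfsg.Agent.Lib.Helper47 Cfsg.Agent.Lib.Helper98.T73 Module Polynomial

universe u

variable {F : Type u} [Field F] [Fintype F] {V : Type u} [AddCommGroup V] [Module F V]
  [FiniteDimensional F V] {Q : V → F} {B : V → V → F}

omit [Fintype F] [FiniteDimensional F V] in
/-- CNTG: an isometry of `Q` preserves the polar form. -/
theorem CNTG_form (hQ : IsQuad Q B) (g : V ≃ₗ[F] V) (hg : ∀ v, Q (g v) = Q v) (x y : V) :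
    B (g x) (g y) = B x y := by
  have h1 := hQ.polar (g x) (g y)
  have h2 := hQ.polar x y
  rw [← map_add, hg, hg, hg] at h1
  linear_combination h2 - h1

/-- CNTG: the image of a typed subspace under an isometry is typed. -/
theorem CNTG_map (hQ : IsQuad Q B) (k : ℕ) (τ : ℤ) (W : Submodule F V) (g : V ≃ₗ[F] V)
    (hg : ∀ v, Q (g v) = Q v) (hW : SubTyp Q B W k τ) :
    SubTyp Q B (W.map (g : V →ₗ[F] V)) k τ := by
  obtain ⟨h1, h2, h3⟩ := hW
  refine ⟨?_, ?_, ?_⟩
  · intro x hx
    obtain ⟨x', hx'⟩ := x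
    obtain ⟨x0, hx0, rfl⟩ := hx'
    have h4 : (⟨x0, hx0⟩ : W) = 0 := by
      apply h1
      intro y
      have h5 := hx ⟨g y, Submodule.mem_map_of_mem y.2⟩
      show B x0 y = 0
      rw [← CNTG_form hQ g hg]
      exact h5
    have h6 : x0 = 0 := congrArg Subtype.val h4
    apply Subtype.ext
    show g x0 = 0
    rw [h6, map_zero]
  · rw [LinearEquiv.finrank_map_eq]; exact h2
  · exact IsTyp.of_equiv (g.submoduleMap W).toEquiv (fun v => by
      show Q ((g.submoduleMap W v : V)) = Q (v : V)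
      rw [LinearEquiv.submoduleMap_apply, hg]) h3

/-- CNTG: the action of the isometries on the typed subspaces. -/
@[reducible] noncomputable def CNTG_act (hQ : IsQuad Q B) (k : ℕ) (τ : ℤ) :
    MulAction ↥(COUNTQ_grp Q) {W : Submodule F V // SubTyp Q B W k τ} where
  smul g W := ⟨(W.1).map ((g : V ≃ₗ[F] V) : V →ₗ[F] V), CNTG_map hQ k τ W.1 g.1 g.2 W.2⟩
  one_smul W := Subtype.ext (Submodule.map_id _)
  mul_smul g h W := Subtype.ext (Submodule.map_comp _ _ _)

/-- CNTG with the transitivity (piece TRANS) as a hypothesis. -/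
theorem exists_qi_of_dvd_card_typ_of (hQ : IsQuad Q B) (k : ℕ) (τ : ℤ)
    (htrans : ∀ W W' : Submodule F V, SubTyp Q B W k τ → SubTyp Q B W' k τ →
      ∃ φ : V ≃ₗ[F] V, (∀ v, Q (φ v) = Q v) ∧ W.map (φ : V →ₗ[F] V) = W')
    (hne : ∃ W : Submodule F V, SubTyp Q B W k τ) (r : ℕ) (hr : r.Prime)
    (hdvd : r ∣ Nat.card {W : Submodule F V // SubTyp Q B W k τ}) :
    ∃ g : Module.End F V, QI Q g ∧ g ^ r = 1 ∧ g ≠ 1 := by
  classical
  obtain ⟨W₀, hW₀⟩ := hne
  haveI : Fact r.Prime := ⟨hr⟩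
  haveI : Finite V := Module.finite_of_finite F
  haveI : Finite (V ≃ₗ[F] V) :=
    Finite.of_injective (fun g : V ≃ₗ[F] V => (g : V → V)) DFunLike.coe_injective
  have h2 : Nat.card {W : Submodule F V // SubTyp Q B W k τ} ∣ Nat.card ↥(COUNTQ_grp Q) := by
    letI := CNTG_act hQ k τ
    haveI : MulAction.IsPretransitive ↥(COUNTQ_grp Q)
        {W : Submodule F V // SubTyp Q B W k τ} :=
      ⟨by
        intro D D'
        obtain ⟨g, hg, hgD⟩ := htrans D.1 D'.1 D.2 D'.2
        exact ⟨⟨g, hg⟩, Subtype.ext hgD⟩⟩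
    rw [← MulAction.index_stabilizer_of_transitive ↥(COUNTQ_grp Q)
      (⟨W₀, hW₀⟩ : {W : Submodule F V // SubTyp Q B W k τ})]
    exact Subgroup.index_dvd_card _
  have h3 : r ∣ Nat.card ↥(COUNTQ_grp Q) := dvd_trans hdvd h2
  obtain ⟨g, hg⟩ := exists_prime_orderOf_dvd_card' (G := ↥(COUNTQ_grp Q)) r h3
  have hgr : (g : V ≃ₗ[F] V) ^ r = 1 := by
    have h4 : g ^ r = 1 := by
      rw [← hg]
      exact pow_orderOf_eq_one g
    have h := congrArg (fun x : ↥(COUNTQ_grp Q) => (x : V ≃ₗ[F] V)) h4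
    simpa using h
  have hpow : ∀ (j : ℕ) (x : V),
      ((((g : V ≃ₗ[F] V) : V →ₗ[F] V) : Module.End F V) ^ j) x = ((g : V ≃ₗ[F] V) ^ j) x := by
    intro j
    induction j with
    | zero => intro x; rfl
    | succ j ih =>
      intro x
      rw [pow_succ, pow_succ]
      show ((((g : V ≃ₗ[F] V) : V →ₗ[F] V) : Module.End F V) ^ j) ((g : V ≃ₗ[F] V) x) =
        ((g : V ≃ₗ[F] V) ^ j) ((g : V ≃ₗ[F] V) x)
      exact ih _
  have hgQ : ∀ v, Q ((g : V ≃ₗ[F] V) v) = Q v := g.2
  refine ⟨((g : V ≃ₗ[F] V) : V →ₗ[F] V), fun v => hgQ v, ?_, ?_⟩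
  · ext x
    rw [hpow, hgr]
    rfl
  · intro h
    have hg1 : g = 1 := by
      apply Subtype.ext
      ext x
      have h5 := LinearMap.congr_fun h x
      exact h5
    rw [hg1, orderOf_one] at hg
    exact hr.one_lt.ne hg

end Cfsg.Agent.Lib.Helper98.H74
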