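import Mathlib
import Cfsg.Agent.Lib.Helper72.JMDefs
import Cfsg.Agent.Lib.Helper82.JcOCPC
import Cfsg.Agent.Lib.Helper88.JcK3
import Cfsg.Agent.Lib.Helper75.JcWF

/-!
# Project JM (S2943, architect helper72): piece KD (proof by helper21)

Unpack `IsJComponent T K` and `Z(T) ∩ W_K ≠ 1` into the elementwise structure `KData T K`.
-/

set_option autoImplicit false

namespace Cfsg.Agent.Lib.Helper21.JM

open Cfsg.Agent.Lib.Helper72.JM Cfsg.Agent.Lib.Helper72.JL Cfsg.Agent.Lib.Helper72.SC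
  Cfsg.Agent.Lib.Helper78.Jc

open scoped commutatorElement

universe u

theorem kd : KdStmt.{u} := by
  intro G _ _ T K hJ hne
  obtain ⟨hodd, hKJ, h3, hS, hW4, hW2⟩ := hJ
  have hPK : Cfsg.pCoreOf 2 K ≤ K := Cfsg.Agent.Lib.Helper82.Jc.pc_le K
  have hP2 : IsPGroup 2 ↥(Cfsg.pCoreOf 2 K) := Cfsg.Agent.Lib.Helper82.Jc.pc_pgroup K
  have hKN : K ≤ Subgroup.normalizer (Cfsg.pCoreOf 2 K : Set G) :=
    Cfsg.Agent.Lib.Helper82.Jc.pc_le_normalizer K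
  have hKΩ : K ≤ Subgroup.normalizer (Cfsg.omegaCenterOf (Cfsg.pCoreOf 2 K) : Set G) :=
    hKN.trans (Cfsg.Agent.Lib.Helper82.Jc.oc_normalizer (Cfsg.pCoreOf 2 K))
  have hWdef : Cfsg.wOf K = ⁅Cfsg.omegaCenterOf (Cfsg.pCoreOf 2 K), K⁆ := rfl
  obtain ⟨k, hk, hkP, hk3⟩ := Cfsg.Agent.Lib.Helper88.Jc.k3_exists K (Cfsg.pCoreOf 2 K) hPK hKN
    hP2 h3 hodd
  have hcases := Cfsg.Agent.Lib.Helper88.Jc.k3_cases K (Cfsg.pCoreOf 2 K) hPK hKN h3 k hk hkP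
  have hΩab : ∀ a ∈ Cfsg.omegaCenterOf (Cfsg.pCoreOf 2 K),
      ∀ b ∈ Cfsg.omegaCenterOf (Cfsg.pCoreOf 2 K), a * b = b * a := fun a ha b hb =>
    Cfsg.Agent.Lib.Helper82.Jc.oc_comm _ a ha b (Cfsg.Agent.Lib.Helper82.Jc.oc_le _ hb)
  have hPΩ : ∀ q ∈ Cfsg.pCoreOf 2 K, ∀ v ∈ Cfsg.omegaCenterOf (Cfsg.pCoreOf 2 K),
      q * v = v * q := fun q hq v hv =>
    (Cfsg.Agent.Lib.Helper82.Jc.oc_comm _ v hv q hq).symm
  have hfpf := Cfsg.Agent.Lib.Helper75.Jc.wf_fpf (Cfsg.omegaCenterOf (Cfsg.pCoreOf 2 K)) K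
    (Cfsg.pCoreOf 2 K) k hΩab hPΩ hKΩ hcases hk hk3
  have hkW : k ∈ Subgroup.normalizer ((Cfsg.wOf K : Subgroup G) : Set G) := by
    rw [hWdef]
    exact Cfsg.Agent.Lib.Helper75.Jc.wf_normalizer _ K k (hKΩ hk) (Subgroup.le_normalizer hk)
  obtain ⟨⟨z, hz⟩, hz1⟩ := (Subgroup.ne_bot_iff_exists_ne_one).1 hne
  have hz1' : z ≠ 1 := fun h => hz1 (Subtype.ext h)
  refine ⟨Cfsg.pCoreOf 2 K, Cfsg.wOf K, k, z, hPK, ?_, ?_, hk, hk3, ?_, ?_, hW4, hW2, ?_, ?_, ?_,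
    hz.2, hz1', hz.1.1, ?_⟩
  · -- elements of `P` are 2-elements
    intro p hp
    obtain ⟨n, hn⟩ := hP2 ⟨p, hp⟩
    exact ⟨n, congrArg Subtype.val hn⟩
  · -- 2-elements of `K` lie in `P`
    intro x hx ⟨n, hn⟩
    obtain ⟨j, _, hj⟩ := (Nat.dvd_prime_pow Nat.prime_two).1 (orderOf_dvd_of_pow_eq_one hn)
    have h2 : IsPGroup 2 ↥(Subgroup.zpowers x) := by
      apply IsPGroup.of_card (n := j)
      rw [Nat.card_zpowers, hj]
    have hle := Cfsg.Agent.Lib.Helper82.Jc.pc_two_le K h3 (Subgroup.zpowers x)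
      ((Subgroup.zpowers_le).2 hx) h2
    exact hle (Subgroup.mem_zpowers x)
  · -- `K = P ⟨k⟩`
    intro x hx
    obtain ⟨q, hq, h | h | h⟩ := hcases x hx
    · exact ⟨q, hq, 0, by rw [h, pow_zero, mul_one]⟩
    · refine ⟨k * q * k⁻¹, Cfsg.Agent.Lib.Helper75.Jc.wf_conj_mem (hKN hk) hq, 1, ?_⟩
      rw [h, pow_one, inv_mul_cancel_right]
    · refine ⟨k⁻¹ * q * k, Cfsg.Agent.Lib.Helper75.Jc.wf_conj_mem' (hKN hk) hq, 2, ?_⟩
      have e : k⁻¹ * q * k * k ^ 2 = k⁻¹ * q * k ^ 3 := by group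
      rw [h, e, hk3, mul_one]
  · -- `W ≤ P`
    rw [hWdef]
    exact (Cfsg.Agent.Lib.Helper75.Jc.wf_le _ K hKΩ).trans (Cfsg.Agent.Lib.Helper82.Jc.oc_le _)
  · -- `k` normalizes `W`
    intro w hw
    exact Cfsg.Agent.Lib.Helper75.Jc.wf_conj_mem hkW hw
  · -- fixed-point-freeness
    intro w hw hfix
    have h1 := hfpf w hw
    have h2 : k⁻¹ * w * k = w := by
      have e : k⁻¹ * w * k = k⁻¹ * (k * w * k⁻¹) * k := by rw [hfix]
      rw [e]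
      group
    rw [hfix, h2, hW2 w hw, one_mul] at h1
    exact h1
  · -- central involutions of `P`
    intro u hu hc hu2
    have huΩ : u ∈ Cfsg.omegaCenterOf (Cfsg.pCoreOf 2 K) :=
      Cfsg.Agent.Lib.Helper82.Jc.oc_mem _ u hu hc hu2
    rw [hWdef]
    exact Subgroup.commutator_mem_commutator huΩ hk
  · -- `z` is central in `T`
    intro t ht
    exact Subgroup.mem_centralizer_iff.1 hz.1.2 t ht

end Cfsg.Agent.Lib.Helper21.JM
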