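import Mathlib
import Cfsg.Prelude.Def_LieTypeDatum
import Cfsg.Prelude.Def_KGroupFacts

/-!
# S2716, piece MF-ABS: abstract group theory (for helper53)
-/

set_option autoImplicit false

namespace Cfsg.Agent.Lib.Helper21.MFABS

theorem inn_map_congr {G H : Type*} [Group G] [Group H] (ψ : G ≃* H) :
    (Cfsg.Inn G).map (MulAut.congr ψ).toMonoidHom = Cfsg.Inn H := by
  ext β
  constructor
  · rintro ⟨α, ⟨g, rfl⟩, rfl⟩
    refine ⟨ψ g, ?_⟩
    ext h
    simp [MulAut.congr]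
  · rintro ⟨h, rfl⟩
    refine ⟨MulAut.conj (ψ.symm h), ⟨_, rfl⟩, ?_⟩
    ext x
    simp [MulAut.congr]

theorem conjUnder_map {X X' : Type*} [Group X] [Group X'] (Ψ : X ≃* X') (H : Subgroup X)
    (x y : X) :
    Cfsg.IsConjUnder H x y ↔ Cfsg.IsConjUnder (H.map Ψ.toMonoidHom) (Ψ x) (Ψ y) := by
  constructor
  · rintro ⟨h, hh, e⟩
    refine ⟨Ψ h, ⟨h, hh, rfl⟩, ?_⟩
    rw [e]
    simp
  · rintro ⟨_, ⟨h, hh, rfl⟩, e⟩
    refine ⟨h, hh, Ψ.injective ?_⟩
    rw [e]
    simp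

theorem split_map {X X' : Type*} [Group X] [Group X'] (Ψ : X ≃* X') (H K : Subgroup X) (x : X) :
    Cfsg.splitClassCount (H.map Ψ.toMonoidHom) (K.map Ψ.toMonoidHom) (Ψ x) =
      Cfsg.splitClassCount H K x := by
  symm
  unfold Cfsg.splitClassCount
  apply Nat.card_congr
  refine Quot.congr (Equiv.subtypeEquiv Ψ.toEquiv (fun y => ?_)) ?_
  · exact conjUnder_map Ψ H x y
  · intro y z
    exact conjUnder_map Ψ K y.1 z.1

theorem cent_map {X X' : Type*} [Group X] [Group X'] (Ψ : X ≃* X') (H : Subgroup X) (x : X) :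
    Nonempty (↥(H ⊓ Subgroup.centralizer {x}) ≃*
      ↥(H.map Ψ.toMonoidHom ⊓ Subgroup.centralizer {Ψ x})) := by
  have e : (H ⊓ Subgroup.centralizer {x}).map Ψ.toMonoidHom
      = H.map Ψ.toMonoidHom ⊓ Subgroup.centralizer {Ψ x} := by
    ext y
    rw [Subgroup.mem_map_equiv, Subgroup.mem_inf, Subgroup.mem_inf, Subgroup.mem_map_equiv,
      Subgroup.mem_centralizer_iff, Subgroup.mem_centralizer_iff]
    simp only [Set.mem_singleton_iff, forall_eq]
    constructor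
    · rintro ⟨h1, h2⟩
      refine ⟨h1, ?_⟩
      have h3 := congrArg Ψ h2
      simpa using h3
    · rintro ⟨h1, h2⟩
      refine ⟨h1, ?_⟩
      have h3 := congrArg Ψ.symm h2
      simpa using h3
  exact ⟨(Ψ.subgroupMap (H ⊓ Subgroup.centralizer {x})).trans (MulEquiv.subgroupCongr e)⟩

theorem split_eq_one_of_cover {X : Type*} [Group X] (H K : Subgroup X) (x : X)
    (h : ∀ h ∈ H, ∃ k ∈ K, ∃ c ∈ H ⊓ Subgroup.centralizer {x}, h = k * c) :
    Cfsg.splitClassCount H K x = 1 := by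
  unfold Cfsg.splitClassCount
  rw [Nat.card_eq_one_iff_unique]
  have hx : Cfsg.IsConjUnder H x x := ⟨1, H.one_mem, by simp⟩
  have key : ∀ q : Quot (fun y z : {y : X // Cfsg.IsConjUnder H x y} =>
      Cfsg.IsConjUnder K y.1 z.1), q = Quot.mk _ ⟨x, hx⟩ := by
    intro q
    induction q using Quot.ind with
    | mk y =>
      symm
      apply Quot.sound
      obtain ⟨y, h0, hh0, e⟩ := y
      obtain ⟨k, hk, c, hc, rfl⟩ := h h0 hh0
      refine ⟨k, hk, ?_⟩
      have hcx : x * c = c * x := (Subgroup.mem_centralizer_iff.1 hc.2) x rfl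
      show y = k * x * k⁻¹
      rw [e]
      have e1 : k * c * x * (k * c)⁻¹ = k * (c * x * c⁻¹) * k⁻¹ := by group
      rw [e1, ← hcx, mul_inv_cancel_right]
  exact ⟨⟨fun a b => (key a).trans (key b).symm⟩, ⟨Quot.mk _ ⟨x, hx⟩⟩⟩

theorem split_self {X : Type*} [Group X] (K : Subgroup X) (x : X) :
    Cfsg.splitClassCount K K x = 1 := by
  apply split_eq_one_of_cover
  intro h hh
  exact ⟨h, hh, 1, Subgroup.one_mem _, by simp⟩

end Cfsg.Agent.Lib.Helper21.MFABS
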