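import Mathlib
import Cfsg.Prelude.Def_LieTypeDatum

/-!
# S2716, piece MF-ISO: an isometry induces an isomorphism of the groups `PΩ` (for helper53)
-/

set_option autoImplicit false

namespace Cfsg.Agent.Lib.Helper21.MFISO

open Matrix

variable {ι : Type} [Fintype ι] [DecidableEq ι] {F : Type*} [Field F]

theorem mem_iso_iff (Q : (ι → F) → F) (g : GL ι F) :
    g ∈ Cfsg.isometryGroup F Q ↔ ∀ u : ι → F, Q ((g : Matrix ι ι F) *ᵥ u) = Q u :=
  ⟨fun h u => h u u, fun h u _ => h u⟩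

theorem conj_mem (Q Q' : (ι → F) → F) (T : GL ι F)
    (hT : ∀ v, Q' ((T : Matrix ι ι F) *ᵥ v) = Q v) (g : GL ι F)
    (hg : g ∈ Cfsg.isometryGroup F Q) : T * g * T⁻¹ ∈ Cfsg.isometryGroup F Q' := by
  rw [mem_iso_iff] at hg ⊢
  intro u
  have e : ((T * g * T⁻¹ : GL ι F) : Matrix ι ι F) *ᵥ u
      = (T : Matrix ι ι F) *ᵥ ((g : Matrix ι ι F) *ᵥ (((T⁻¹ : GL ι F) : Matrix ι ι F) *ᵥ u)) := by
    rw [Units.val_mul, Units.val_mul, Matrix.mulVec_mulVec, Matrix.mulVec_mulVec]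
  rw [e, hT, hg]
  have e2 : (T : Matrix ι ι F) *ᵥ (((T⁻¹ : GL ι F) : Matrix ι ι F) *ᵥ u) = u := by
    rw [Matrix.mulVec_mulVec, ← Units.val_mul, mul_inv_cancel, Units.val_one, Matrix.one_mulVec]
  have h := hT (((T⁻¹ : GL ι F) : Matrix ι ι F) *ᵥ u)
  rw [e2] at h
  exact h.symm

theorem conj_mem' (Q Q' : (ι → F) → F) (T : GL ι F)
    (hT : ∀ v, Q' ((T : Matrix ι ι F) *ᵥ v) = Q v) (g : GL ι F)
    (hg : g ∈ Cfsg.isometryGroup F Q') : T⁻¹ * g * T ∈ Cfsg.isometryGroup F Q := by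
  rw [mem_iso_iff] at hg ⊢
  intro u
  have hT' : ∀ w, Q (((T⁻¹ : GL ι F) : Matrix ι ι F) *ᵥ w) = Q' w := by
    intro w
    have h := hT (((T⁻¹ : GL ι F) : Matrix ι ι F) *ᵥ w)
    rw [Matrix.mulVec_mulVec, ← Units.val_mul, mul_inv_cancel, Units.val_one,
      Matrix.one_mulVec] at h
    exact h.symm
  have e : ((T⁻¹ * g * T : GL ι F) : Matrix ι ι F) *ᵥ u
      = ((T⁻¹ : GL ι F) : Matrix ι ι F) *ᵥ ((g : Matrix ι ι F) *ᵥ ((T : Matrix ι ι F) *ᵥ u)) := by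
    rw [Units.val_mul, Units.val_mul, Matrix.mulVec_mulVec, Matrix.mulVec_mulVec]
  rw [e, hT', hg, hT]

/-- conjugation by `T` as an isomorphism of isometry groups -/
def isoConj (Q Q' : (ι → F) → F) (T : GL ι F)
    (hT : ∀ v, Q' ((T : Matrix ι ι F) *ᵥ v) = Q v) :
    ↥(Cfsg.isometryGroup F Q) ≃* ↥(Cfsg.isometryGroup F Q') where
  toFun g := ⟨T * g.1 * T⁻¹, conj_mem Q Q' T hT g.1 g.2⟩
  invFun g := ⟨T⁻¹ * g.1 * T, conj_mem' Q Q' T hT g.1 g.2⟩
  left_inv g := by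
    apply Subtype.ext
    show T⁻¹ * (T * g.1 * T⁻¹) * T = g.1
    group
  right_inv g := by
    apply Subtype.ext
    show T * (T⁻¹ * g.1 * T) * T⁻¹ = g.1
    group
  map_mul' g h := by
    apply Subtype.ext
    show T * (g.1 * h.1) * T⁻¹ = T * g.1 * T⁻¹ * (T * h.1 * T⁻¹)
    group

theorem isoConj_coe (Q Q' : (ι → F) → F) (T : GL ι F)
    (hT : ∀ v, Q' ((T : Matrix ι ι F) *ᵥ v) = Q v) (g : ↥(Cfsg.isometryGroup F Q)) :
    ((isoConj Q Q' T hT g : ↥(Cfsg.isometryGroup F Q')) : GL ι F) = T * g.1 * T⁻¹ := rfl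

theorem map_Omega (Q Q' : (ι → F) → F) (T : GL ι F)
    (hT : ∀ v, Q' ((T : Matrix ι ι F) *ᵥ v) = Q v) :
    (Cfsg.Omega F Q).map (isoConj Q Q' T hT).toMonoidHom = Cfsg.Omega F Q' := by
  show (commutator ↥(Cfsg.isometryGroup F Q)).map (isoConj Q Q' T hT).toMonoidHom
    = commutator ↥(Cfsg.isometryGroup F Q')
  rw [_root_.commutator_def, _root_.commutator_def, Subgroup.map_commutator,
    Subgroup.map_top_of_surjective _ (isoConj Q Q' T hT).surjective]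

/-- the induced isomorphism `Ω(Q) ≃* Ω(Q')` -/
noncomputable def omegaConj (Q Q' : (ι → F) → F) (T : GL ι F)
    (hT : ∀ v, Q' ((T : Matrix ι ι F) *ᵥ v) = Q v) :
    ↥(Cfsg.Omega F Q) ≃* ↥(Cfsg.Omega F Q') :=
  ((isoConj Q Q' T hT).subgroupMap (Cfsg.Omega F Q)).trans
    (MulEquiv.subgroupCongr (map_Omega Q Q' T hT))

theorem omegaConj_coe (Q Q' : (ι → F) → F) (T : GL ι F)
    (hT : ∀ v, Q' ((T : Matrix ι ι F) *ᵥ v) = Q v) (s : ↥(Cfsg.Omega F Q)) :
    (((omegaConj Q Q' T hT s : ↥(Cfsg.Omega F Q')) : ↥(Cfsg.isometryGroup F Q')) : GL ι F)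
      = T * ((s : ↥(Cfsg.isometryGroup F Q)) : GL ι F) * T⁻¹ := rfl

theorem map_center (Q Q' : (ι → F) → F) (T : GL ι F)
    (hT : ∀ v, Q' ((T : Matrix ι ι F) *ᵥ v) = Q v) :
    (Subgroup.center ↥(Cfsg.Omega F Q)).map (omegaConj Q Q' T hT).toMonoidHom
      = Subgroup.center ↥(Cfsg.Omega F Q') := by
  ext y
  rw [Subgroup.mem_map_equiv, Subgroup.mem_center_iff, Subgroup.mem_center_iff]
  constructor
  · intro h b
    have h1 := congrArg (omegaConj Q Q' T hT) (h ((omegaConj Q Q' T hT).symm b))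
    simpa using h1
  · intro h a
    have h1 := congrArg (omegaConj Q Q' T hT).symm (h (omegaConj Q Q' T hT a))
    simpa using h1

/-- the induced isomorphism `PΩ(Q) ≃* PΩ(Q')` -/
noncomputable def pomegaConj (Q Q' : (ι → F) → F) (T : GL ι F)
    (hT : ∀ v, Q' ((T : Matrix ι ι F) *ᵥ v) = Q v) :
    Cfsg.POmega F Q ≃* Cfsg.POmega F Q' :=
  QuotientGroup.congr (Subgroup.center ↥(Cfsg.Omega F Q)) (Subgroup.center ↥(Cfsg.Omega F Q'))
    (omegaConj Q Q' T hT) (map_center Q Q' T hT)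

theorem pomegaConj_mk (Q Q' : (ι → F) → F) (T : GL ι F)
    (hT : ∀ v, Q' ((T : Matrix ι ι F) *ᵥ v) = Q v) (s : ↥(Cfsg.Omega F Q)) :
    pomegaConj Q Q' T hT (QuotientGroup.mk s) = QuotientGroup.mk (omegaConj Q Q' T hT s) := rfl

omit [Fintype ι] [DecidableEq ι] in
theorem map_refl (M : Matrix ι ι F) : M.map (RingEquiv.refl F) = M := by
  ext i j
  rfl

theorem exists_iso_of_isometry {ι : Type} [Fintype ι] [DecidableEq ι] {F : Type*} [Field F]
    (Q Q' : (ι → F) → F) (T : GL ι F) (hT : ∀ v, Q' ((T : Matrix ι ι F) *ᵥ v) = Q v) :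
    ∃ ψT : Cfsg.POmega F Q ≃* Cfsg.POmega F Q',
      (∀ (g : GL ι F) (β : MulAut (Cfsg.POmega F Q)),
        Cfsg.IsInducedBySemilinearPOmega Q g (RingEquiv.refl F) β →
        Cfsg.IsInducedBySemilinearPOmega Q' (T * g * T⁻¹) (RingEquiv.refl F)
          (MulAut.congr ψT β)) ∧
      (∀ (g : GL ι F) (β : MulAut (Cfsg.POmega F Q')),
        Cfsg.IsInducedBySemilinearPOmega Q' g (RingEquiv.refl F) β →
        Cfsg.IsInducedBySemilinearPOmega Q (T⁻¹ * g * T) (RingEquiv.refl F)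
          ((MulAut.congr ψT).symm β)) := by
  refine ⟨pomegaConj Q Q' T hT, ?_, ?_⟩
  · intro g β hβ t t' htt
    rw [map_refl] at htt
    -- pull back to `Ω(Q)`
    obtain ⟨s, hs⟩ : ∃ s, omegaConj Q Q' T hT s = t := ⟨(omegaConj Q Q' T hT).symm t, by simp⟩
    obtain ⟨s', hs'⟩ : ∃ s', omegaConj Q Q' T hT s' = t' :=
      ⟨(omegaConj Q Q' T hT).symm t', by simp⟩
    have h1 : ((t' : ↥(Cfsg.isometryGroup F Q')) : GL ι F)
        = (T * g * T⁻¹) * ((t : ↥(Cfsg.isometryGroup F Q')) : GL ι F) * (T * g * T⁻¹)⁻¹ := by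
      apply Units.ext
      exact htt
    rw [← hs, ← hs', omegaConj_coe, omegaConj_coe] at h1
    have h2 : ((s' : ↥(Cfsg.isometryGroup F Q)) : GL ι F)
        = g * ((s : ↥(Cfsg.isometryGroup F Q)) : GL ι F) * g⁻¹ := by
      have h3 : ((s' : ↥(Cfsg.isometryGroup F Q)) : GL ι F)
          = T⁻¹ * (T * ((s' : ↥(Cfsg.isometryGroup F Q)) : GL ι F) * T⁻¹) * T := by group
      rw [h3, h1]
      group
    have h4 := hβ s s' (by
      rw [map_refl]
      have h5 := congrArg Units.val h2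
      rw [Units.val_mul, Units.val_mul] at h5
      exact h5)
    show (pomegaConj Q Q' T hT) (β ((pomegaConj Q Q' T hT).symm (QuotientGroup.mk t)))
      = QuotientGroup.mk t'
    have h6 : (pomegaConj Q Q' T hT).symm (QuotientGroup.mk t) = QuotientGroup.mk s := by
      rw [MulEquiv.symm_apply_eq, pomegaConj_mk, hs]
    rw [h6, h4, pomegaConj_mk, hs']
  · intro g β hβ s s' hss
    rw [map_refl] at hss
    have h1 : ((s' : ↥(Cfsg.isometryGroup F Q)) : GL ι F)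
        = (T⁻¹ * g * T) * ((s : ↥(Cfsg.isometryGroup F Q)) : GL ι F) * (T⁻¹ * g * T)⁻¹ := by
      apply Units.ext
      exact hss
    have h2 : (((omegaConj Q Q' T hT s' : ↥(Cfsg.Omega F Q')) :
          ↥(Cfsg.isometryGroup F Q')) : GL ι F)
        = g * (((omegaConj Q Q' T hT s : ↥(Cfsg.Omega F Q')) :
          ↥(Cfsg.isometryGroup F Q')) : GL ι F) * g⁻¹ := by
      rw [omegaConj_coe, omegaConj_coe, h1]
      group
    have h4 := hβ (omegaConj Q Q' T hT s) (omegaConj Q Q' T hT s') (by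
      rw [map_refl]
      have h5 := congrArg Units.val h2
      rw [Units.val_mul, Units.val_mul] at h5
      exact h5)
    show (pomegaConj Q Q' T hT).symm (β ((pomegaConj Q Q' T hT) (QuotientGroup.mk s)))
      = QuotientGroup.mk s'
    rw [pomegaConj_mk, h4, MulEquiv.symm_apply_eq, pomegaConj_mk]

end Cfsg.Agent.Lib.Helper21.MFISO
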