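import Mathlib

set_option autoImplicit false

open Matrix

/-!
# Piece OB for S2140 (helper45's job board): orbit bookkeeping
-/

namespace Cfsg.Agent.Lib.Helper21.MinIdx

theorem orbit_family {G : Type*} [Group G] [Finite G] {F : Type*} [Field F] [Fintype F] (k : ℕ)
    (H : Subgroup G) (u : (Fin k → F) → G) (hu : ∀ x y, u (x + y) = u x * u y)
    (hnorm : ∀ A : Matrix.SpecialLinearGroup (Fin k) F, ∃ g : G, ∀ x,
      g * u x * g⁻¹ = u ((A : Matrix (Fin k) (Fin k) F) *ᵥ x)) :
    ∃ (t : ℕ) (W : Fin t → AddSubgroup (Fin k → F)),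
      (∑ i, (W i).index = H.index) ∧
      (∀ A : Matrix.SpecialLinearGroup (Fin k) F, ∃ π : Equiv.Perm (Fin t), ∀ i x,
        ((A : Matrix (Fin k) (Fin k) F) *ᵥ x ∈ W (π i) ↔ x ∈ W i)) ∧
      (∀ g : G, ∃ i, ∀ x, (g⁻¹ * u x * g ∈ H ↔ x ∈ W i)) := by
  classical
  have hu0 : u 0 = 1 := by
    have h1 := hu 0 0
    rw [add_zero] at h1
    exact left_eq_mul.mp h1
  letI act : AddAction (Fin k → F) (G ⧸ H) :=
    { vadd := fun x ω => u x • ω
      zero_vadd := fun ω => by
        show u 0 • ω = ω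
        rw [hu0, one_smul]
      add_vadd := fun x y ω => by
        show u (x + y) • ω = u x • (u y • ω)
        rw [hu, mul_smul] }
  have hvadd : ∀ (x : Fin k → F) (ω : G ⧸ H), x +ᵥ ω = u x • ω := fun _ _ => rfl
  have hstab : ∀ (ω ω' : G ⧸ H), ω' ∈ AddAction.orbit (Fin k → F) ω →
      AddAction.stabilizer (Fin k → F) ω' = AddAction.stabilizer (Fin k → F) ω := by
    intro ω ω' h
    obtain ⟨y, rfl⟩ := h
    ext x
    rw [AddAction.mem_stabilizer_iff, AddAction.mem_stabilizer_iff]
    show x +ᵥ (y +ᵥ ω) = y +ᵥ ω ↔ x +ᵥ ω = ω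
    rw [← add_vadd, add_comm, add_vadd]
    exact vadd_left_cancel_iff y
  haveI : Finite (AddAction.orbitRel.Quotient (Fin k → F) (G ⧸ H)) := Quotient.finite _
  letI : Fintype (AddAction.orbitRel.Quotient (Fin k → F) (G ⧸ H)) := Fintype.ofFinite _
  let e : AddAction.orbitRel.Quotient (Fin k → F) (G ⧸ H) ≃
      Fin (Nat.card (AddAction.orbitRel.Quotient (Fin k → F) (G ⧸ H))) := Finite.equivFin _
  have hout : ∀ ω : G ⧸ H, Quotient.out (Quotient.mk'' ω :
      AddAction.orbitRel.Quotient (Fin k → F) (G ⧸ H)) ∈ AddAction.orbit (Fin k → F) ω := by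
    intro ω
    have h1 := Quotient.exact (Quotient.out_eq (Quotient.mk'' ω :
      AddAction.orbitRel.Quotient (Fin k → F) (G ⧸ H)))
    exact h1
  refine ⟨Nat.card (AddAction.orbitRel.Quotient (Fin k → F) (G ⧸ H)),
    fun i => AddAction.stabilizer (Fin k → F) (Quotient.out (e.symm i)), ?_, ?_, ?_⟩
  · have h1 : Nat.card (G ⧸ H) = ∑ q : AddAction.orbitRel.Quotient (Fin k → F) (G ⧸ H),
        Nat.card (AddAction.orbit (Fin k → F) (Quotient.out q)) := by
      rw [Nat.card_congr (AddAction.selfEquivSigmaOrbits (Fin k → F) (G ⧸ H)), Nat.card_sigma]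
    have h2 : ∀ q : AddAction.orbitRel.Quotient (Fin k → F) (G ⧸ H),
        Nat.card (AddAction.orbit (Fin k → F) (Quotient.out q))
          = (AddAction.stabilizer (Fin k → F) (Quotient.out q)).index := by
      intro q
      rw [AddAction.index_stabilizer, Nat.card_coe_set_eq]
    rw [Subgroup.index_eq_card, h1]
    exact Fintype.sum_equiv e.symm _ _ (fun i => (h2 _).symm)
  · intro A
    obtain ⟨gA, hgA⟩ := hnorm A
    have hrel : ∀ (x : Fin k → F) (ω : G ⧸ H),
        gA • (x +ᵥ ω) = ((A : Matrix (Fin k) (Fin k) F) *ᵥ x) +ᵥ (gA • ω) := by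
      intro x ω
      rw [hvadd, hvadd, ← mul_smul, ← mul_smul, ← hgA x]
      congr 1
      group
    have hAinv : ∀ y : Fin k → F, (A : Matrix (Fin k) (Fin k) F) *ᵥ
        (((A⁻¹ : Matrix.SpecialLinearGroup (Fin k) F) : Matrix (Fin k) (Fin k) F) *ᵥ y) = y := by
      intro y
      rw [Matrix.mulVec_mulVec, ← Matrix.SpecialLinearGroup.coe_mul, mul_inv_cancel,
        Matrix.SpecialLinearGroup.coe_one, Matrix.one_mulVec]
    let σ0 : AddAction.orbitRel.Quotient (Fin k → F) (G ⧸ H) →
        AddAction.orbitRel.Quotient (Fin k → F) (G ⧸ H) :=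
      Quotient.map' (fun ω => gA • ω) (by
        intro ω ω' h
        obtain ⟨x, hx⟩ := h
        exact ⟨(A : Matrix (Fin k) (Fin k) F) *ᵥ x, by
          show ((A : Matrix (Fin k) (Fin k) F) *ᵥ x) +ᵥ (gA • ω') = gA • ω
          rw [← hrel]
          exact congrArg (fun z => gA • z) hx⟩)
    have hσ0 : ∀ ω : G ⧸ H, σ0 (Quotient.mk'' ω) = Quotient.mk'' (gA • ω) := fun ω => rfl
    have hinj : Function.Injective σ0 := by
      intro q q'
      induction q using Quotient.inductionOn' with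
      | h ω =>
        induction q' using Quotient.inductionOn' with
        | h ω' =>
          intro h
          rw [hσ0, hσ0] at h
          have h1 := Quotient.exact' h
          obtain ⟨y, hy⟩ := h1
          apply Quotient.sound'
          refine ⟨((A⁻¹ : Matrix.SpecialLinearGroup (Fin k) F) : Matrix (Fin k) (Fin k) F) *ᵥ y, ?_⟩
          have h2 : gA • ((((A⁻¹ : Matrix.SpecialLinearGroup (Fin k) F) :
              Matrix (Fin k) (Fin k) F) *ᵥ y) +ᵥ ω') = gA • ω := by
            rw [hrel, hAinv]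
            exact hy
          exact smul_left_cancel gA h2
    let σ : Equiv.Perm (AddAction.orbitRel.Quotient (Fin k → F) (G ⧸ H)) :=
      Equiv.ofBijective σ0 (Finite.injective_iff_bijective.mp hinj)
    refine ⟨(e.symm.trans σ).trans e, fun i x => ?_⟩
    show (A : Matrix (Fin k) (Fin k) F) *ᵥ x ∈ AddAction.stabilizer (Fin k → F)
      (Quotient.out (e.symm (e (σ0 (e.symm i))))) ↔
      x ∈ AddAction.stabilizer (Fin k → F) (Quotient.out (e.symm i))
    rw [Equiv.symm_apply_apply]
    have h3 : σ0 (e.symm i) = Quotient.mk'' (gA • Quotient.out (e.symm i)) := by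
      conv_lhs => rw [← Quotient.out_eq' (e.symm i)]
      rfl
    rw [h3, hstab _ _ (hout _), AddAction.mem_stabilizer_iff, AddAction.mem_stabilizer_iff,
      ← hrel]
    exact smul_left_cancel_iff gA
  · intro g
    refine ⟨e (Quotient.mk'' (QuotientGroup.mk g)), fun x => ?_⟩
    show _ ↔ x ∈ AddAction.stabilizer (Fin k → F) (Quotient.out (e.symm (e _)))
    rw [Equiv.symm_apply_apply, hstab _ _ (hout _), AddAction.mem_stabilizer_iff, hvadd,
      MulAction.Quotient.smul_mk, QuotientGroup.eq]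
    have e1 : (u x • g)⁻¹ * g = (g⁻¹ * u x * g)⁻¹ := by
      rw [smul_eq_mul]; group
    rw [e1, H.inv_mem_iff]

end Cfsg.Agent.Lib.Helper21.MinIdx
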