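import Mathlib
import Cfsg.Prelude.Def_GeometricClasses
import Cfsg.Agent.Lib.Helper71.OK1
import Cfsg.Agent.Lib.Helper52.Siegel

set_option autoImplicit false

/-!
# S5701 piece C0 (helper71's job board): maximal pairs
-/

namespace Cfsg.Agent.Lib.Helper21.OKC0

open Matrix Cfsg.Agent.Lib.Helper71.SpK Cfsg.Agent.Lib.Helper71.OK

theorem exists_max_pair_gen {ι : Type} [Fintype ι] [DecidableEq ι] {F : Type*} [Field F] [Finite F]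
    {Q : QuadraticForm F (ι → F)} {L : Type*} [Field L] [Algebra F L] [FiniteDimensional F L]
    (S : KO (QuadraticMap.polar ⇑Q) L) (h2 : (2 : F) ≠ 0)
    (hQ : (QuadraticMap.polarBilin Q).Nondegenerate)
    (hr : (Module.finrank F L).Prime) (hd : 4 * Module.finrank F L ≤ Fintype.card ι) (M : Subgroup (GL ι F)) (hNM : S.NO Q ≤ M) (hMΩ : M ≤ Cfsg.Geo.omegaGL ⇑Q)
    (P : Submodule F (ι → F) → Submodule F (ι → F) → Prop)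
    (hP : ∀ g ∈ M, ∀ W W', P W W' → P (gim W g) (gim W' g))
    (hex : ∃ W₁ W₂, S.InW M W₁ ∧ S.InW M W₂ ∧ W₁ ≠ W₂ ∧ P W₁ W₂ ∧ W₁ ⊓ W₂ ≠ ⊥) :
    ∃ (u : ι → F) (W₂ : Submodule F (ι → F)), u ≠ 0 ∧ S.B u u = 0 ∧ S.InW M W₂ ∧
      W₂ ≠ S.line u ∧ P (S.line u) W₂ ∧ S.line u ⊓ W₂ ≠ ⊥ ∧
      ∀ W₃ W₄, S.InW M W₃ → S.InW M W₄ → W₃ ≠ W₄ → P W₃ W₄ →
        Module.finrank F ↥(W₃ ⊓ W₄) ≤ Module.finrank F ↥(S.line u ⊓ W₂) := by
  classical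
  obtain ⟨A, hAdef⟩ : ∃ A : ℕ → Prop, ∀ k, A k ↔ ∃ W₁ W₂, S.InW M W₁ ∧ S.InW M W₂ ∧ W₁ ≠ W₂ ∧
      P W₁ W₂ ∧ Module.finrank F ↥(W₁ ⊓ W₂) = k := ⟨_, fun k => Iff.rfl⟩
  have hbound : ∀ k, A k → k ≤ Fintype.card ι := by
    intro k hk
    obtain ⟨W₁, W₂, -, -, -, -, rfl⟩ := (hAdef k).mp hk
    calc Module.finrank F ↥(W₁ ⊓ W₂) ≤ Module.finrank F (ι → F) := Submodule.finrank_le _
      _ = Fintype.card ι := Module.finrank_fintype_fun_eq_card F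
  obtain ⟨W₁, W₂, hW₁, hW₂, hne, hPW, hint⟩ := hex
  have hA0 : A (Module.finrank F ↥(W₁ ⊓ W₂)) := (hAdef _).mpr ⟨W₁, W₂, hW₁, hW₂, hne, hPW, rfl⟩
  have hspec : A (Nat.findGreatest A (Fintype.card ι)) :=
    Nat.findGreatest_spec (hbound _ hA0) hA0
  have hmax : ∀ k, A k → k ≤ Nat.findGreatest A (Fintype.card ι) :=
    fun k hk => Nat.le_findGreatest (hbound k hk) hk
  obtain ⟨V₁, V₂, hV₁, hV₂, hVne, hPV, hk⟩ := (hAdef _).mp hspec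
  have hVint : V₁ ⊓ V₂ ≠ ⊥ := by
    intro hbot
    have h0 : Module.finrank F ↥(V₁ ⊓ V₂) = 0 := by
      rw [hbot]; exact finrank_bot F (ι → F)
    have h1 := hmax _ hA0
    rw [← hk, h0] at h1
    exact hint (Submodule.finrank_eq_zero.mp (Nat.le_zero.mp h1))
  obtain ⟨g, hg, v, hv, hvv, rfl⟩ := hV₁
  have hginv : g⁻¹ ∈ M := M.inv_mem hg
  have hinf : S.line v ⊓ gim V₂ g⁻¹ = gim (gim (S.line v) g ⊓ V₂) g⁻¹ := by
    rw [gim_inf, gim_gim_inv]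
  refine ⟨v, gim V₂ g⁻¹, hv, hvv, S.InW_gim hV₂ hginv, ?_, ?_, ?_, ?_⟩
  · intro heq
    apply hVne
    rw [← gim_inv_gim V₂ g, heq]
  · have h1 := hP g⁻¹ hginv _ _ hPV
    rwa [gim_gim_inv] at h1
  · rw [hinf]
    intro hbot
    apply hVint
    have h0 : Module.finrank F ↥(gim (gim (S.line v) g ⊓ V₂) g⁻¹) = 0 := by
      rw [hbot]; exact finrank_bot F (ι → F)
    rw [finrank_gim] at h0
    exact Submodule.finrank_eq_zero.mp h0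
  · intro W₃ W₄ h3 h4 h34 hP34
    rw [hinf, finrank_gim, hk]
    exact hmax _ ((hAdef _).mpr ⟨W₃, W₄, h3, h4, h34, hP34, rfl⟩)

end Cfsg.Agent.Lib.Helper21.OKC0
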