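import Mathlib
import Cfsg.Prelude.Def_GeometricClasses
import Cfsg.Agent.Lib.Helper71.OK1
import Cfsg.Agent.Lib.Helper52.Siegel
import Cfsg.Agent.Lib.Helper52.FullPair
import Cfsg.Agent.Lib.Helper57.OKGEOM2

set_option autoImplicit false

/-!
# S5701 piece H6 (helper71's job board): a subgroup containing all Eichler matrices at all
singular points contains `Ω`
-/

namespace Cfsg.Agent.Lib.Helper21.OKH6

open Matrix Cfsg.Agent.Lib.Helper71.SpK Cfsg.Agent.Lib.Helper71.OK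

/-- `omega_le_of_full` with the existence of a hyperbolic pair (GEOM2 `exists_sing`,
`exists_hyp`) as a hypothesis. -/
theorem omega_le_of_full_of {ι : Type} [Fintype ι] [DecidableEq ι] {F : Type*} [Field F] [Finite F]
    {Q : QuadraticForm F (ι → F)} {L : Type*} [Field L] [Algebra F L] [FiniteDimensional F L]
    (S : KO (QuadraticMap.polar ⇑Q) L) (h2 : (2 : F) ≠ 0)
    (hQ : (QuadraticMap.polarBilin Q).Nondegenerate)
    (hr : (Module.finrank F L).Prime) (hd : 4 * Module.finrank F L ≤ Fintype.card ι) (M : Subgroup (GL ι F)) (hNM : S.NO Q ≤ M) (hMΩ : M ≤ Cfsg.Geo.omegaGL ⇑Q)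
    (hpair : ∃ v v₂ : ι → F, v ≠ 0 ∧ S.B v v = 0 ∧ S.B v₂ v₂ = 0 ∧ S.B v v₂ = 1)
    (hfull : ∀ v : ι → F, v ≠ 0 → S.B v v = 0 →
      ∀ w, QuadraticMap.polar ⇑Q v w = 0 → EM Q M v w) : Cfsg.Geo.omegaGL ⇑Q ≤ M := by
  classical
  have := Fintype.ofFinite F
  have hn : 5 ≤ Fintype.card ι := by
    have := hr.two_le
    omega
  obtain ⟨v, v₂, hv, hvv, hv₂, hvv₂⟩ := hpair
  obtain ⟨c, hc⟩ := S.exists_β_ne
  have hc0 : c ≠ 0 := by
    rintro rfl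
    exact hc (map_zero _)
  have hv₂0 : v₂ ≠ 0 := by
    rintro rfl
    rw [S.B_zero_right] at hvv₂
    exact zero_ne_one hvv₂
  have hv'0 : S.φ c *ᵥ v₂ ≠ 0 := S.φ_mulVec_ne_zero hc0 hv₂0
  have hv'v' : S.B (S.φ c *ᵥ v₂) (S.φ c *ᵥ v₂) = 0 := by
    rw [S.B_act, S.B_act_right, hv₂, mul_zero, mul_zero]
  have hvv' : QuadraticMap.polar ⇑Q v (S.φ c *ᵥ v₂) ≠ 0 := by
    rw [S.f_act_right, hvv₂, mul_one]
    exact hc
  have hfp : ∀ x : ι → F, x ≠ 0 → S.B x x = 0 →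
      Cfsg.Agent.Lib.Helper52.IsFullPt Q (M.comap (Cfsg.isometryGroup F ⇑Q).subtype) x := by
    intro x hx hxx
    refine ⟨S.Q_eq_zero h2 hxx, fun w huw => ?_⟩
    obtain ⟨γ, hγM, hγ⟩ := hfull x hx hxx w huw
    have e : ((Cfsg.Agent.Lib.Helper52.eich Q x w (S.Q_eq_zero h2 hxx) huw :
        ↥(Cfsg.isometryGroup F ⇑Q)) : GL ι F) = γ :=
      Units.ext (by rw [Cfsg.Agent.Lib.Helper52.coe_eich, hγ])
    show ((Cfsg.Agent.Lib.Helper52.eich Q x w (S.Q_eq_zero h2 hxx) huw :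
        ↥(Cfsg.isometryGroup F ⇑Q)) : GL ι F) ∈ M
    rw [e]
    exact hγM
  have hcomm := Cfsg.Agent.Lib.Helper52.commutator_le_of_fullPair Q hQ hn (hfp v hv hvv)
    (hfp _ hv'0 hv'v') hvv'
  rintro x ⟨g, hg, rfl⟩
  exact hcomm hg

theorem omega_le_of_full {ι : Type} [Fintype ι] [DecidableEq ι] {F : Type*} [Field F] [Finite F]
    {Q : QuadraticForm F (ι → F)} {L : Type*} [Field L] [Algebra F L] [FiniteDimensional F L]
    (S : KO (QuadraticMap.polar ⇑Q) L) (h2 : (2 : F) ≠ 0)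
    (hQ : (QuadraticMap.polarBilin Q).Nondegenerate)
    (hr : (Module.finrank F L).Prime) (hd : 4 * Module.finrank F L ≤ Fintype.card ι) (M : Subgroup (GL ι F)) (hNM : S.NO Q ≤ M) (hMΩ : M ≤ Cfsg.Geo.omegaGL ⇑Q)
    (hfull : ∀ v : ι → F, v ≠ 0 → S.B v v = 0 →
      ∀ w, QuadraticMap.polar ⇑Q v w = 0 → EM Q M v w) : Cfsg.Geo.omegaGL ⇑Q ≤ M := by
  obtain ⟨v, hv, hvv⟩ := Cfsg.Agent.Lib.Helper57.OKGEOM2.exists_sing S h2 hQ hr hd
  obtain ⟨v₂, hv₂, hvv₂⟩ := Cfsg.Agent.Lib.Helper57.OKGEOM2.exists_hyp S h2 hQ hr hd hv hvv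
  exact omega_le_of_full_of S h2 hQ hr hd M hNM hMΩ ⟨v, v₂, hv, hvv, hv₂, hvv₂⟩ hfull

end Cfsg.Agent.Lib.Helper21.OKH6
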