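import Mathlib
import Cfsg.Prelude.Def_GeometricClasses
import Cfsg.Agent.Lib.Helper71.OK1
import Cfsg.Agent.Lib.Helper52.Siegel

set_option autoImplicit false

/-!
# S5701 piece S2 (helper71's job board): `r ∣ n`
-/

namespace Cfsg.Agent.Lib.Helper21.OKS2

open Matrix Cfsg.Agent.Lib.Helper71.SpK Cfsg.Agent.Lib.Helper71.OK

theorem finrank_dvd_card {ι : Type} [Fintype ι] [DecidableEq ι] {F : Type*} [Field F]
    {f : (ι → F) → (ι → F) → F} {L : Type*} [Field L] [Algebra F L] [FiniteDimensional F L]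
    (S : KO f L) : Module.finrank F L ∣ Fintype.card ι := by
  letI : Module L (ι → F) :=
    Module.compHom (ι → F)
      ((Matrix.toLinAlgEquiv' : Matrix ι ι F ≃ₐ[F] _).toRingEquiv.toRingHom.comp
        (S.φ : L →+* Matrix ι ι F))
  have hsmul : ∀ (l : L) (w : ι → F), l • w = S.φ l *ᵥ w := fun l w => rfl
  haveI : IsScalarTower F L (ι → F) := ⟨fun c l w => by
    rw [hsmul, hsmul, Algebra.smul_def, map_mul, ← Matrix.mulVec_mulVec, S.φ_algebraMap_mulVec]⟩
  have h := Module.finrank_mul_finrank F L (ι → F)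
  rw [Module.finrank_fintype_fun_eq_card] at h
  exact ⟨_, h.symm⟩

end Cfsg.Agent.Lib.Helper21.OKS2
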