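import Mathlib
import Cfsg.Prelude.Def_GeometricClasses
import Cfsg.Agent.Lib.Helper71.OK1
import Cfsg.Agent.Lib.Helper52.Siegel
import Cfsg.Agent.Lib.Helper57.OKGEOM2

set_option autoImplicit false

/-!
# S5701 piece S3 (helper71's job board): an Eichler element of `Ω` which does not normalise `φ(L)`
-/

namespace Cfsg.Agent.Lib.Helper21.OKS3

open Matrix Cfsg.Agent.Lib.Helper71.SpK Cfsg.Agent.Lib.Helper71.OK

/-- `exists_omega_not_normalizer` with the existence of a singular vector (GEOM2 `exists_sing`)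
as a hypothesis. -/
theorem exists_omega_not_normalizer_of {ι : Type} [Fintype ι] [DecidableEq ι] {F : Type*} [Field F] [Finite F]
    {Q : QuadraticForm F (ι → F)} {L : Type*} [Field L] [Algebra F L] [FiniteDimensional F L]
    (S : KO (QuadraticMap.polar ⇑Q) L) (h2 : (2 : F) ≠ 0)
    (hQ : (QuadraticMap.polarBilin Q).Nondegenerate)
    (hr : (Module.finrank F L).Prime) (hd : 4 * Module.finrank F L ≤ Fintype.card ι)
    (hsing : ∃ u : ι → F, u ≠ 0 ∧ S.B u u = 0) :
    ∃ g ∈ Cfsg.Geo.omegaGL ⇑Q, g ∉ Cfsg.Geo.subalgebraNormalizer S.φ.range := by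
  classical
  have := Fintype.ofFinite F
  have hr2 := hr.two_le
  have hn : 5 ≤ Fintype.card ι := by omega
  obtain ⟨v, hv, hvv⟩ := hsing
  have hperp : Fintype.card ι ≤ Module.finrank F ↥(S.perp ⊤ v) + Module.finrank F L := by
    have h1 := LinearMap.finrank_range_add_finrank_ker (S.Bl v)
    rw [Module.finrank_fintype_fun_eq_card] at h1
    have h3 : Module.finrank F ↥(LinearMap.range (S.Bl v)) ≤ Module.finrank F L :=
      Submodule.finrank_le _
    have h4 : S.perp ⊤ v = LinearMap.ker (S.Bl v) := by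
      unfold KO.perp
      exact top_inf_eq _
    rw [h4]
    omega
  obtain ⟨w, hw, hwl⟩ : ∃ w, w ∈ S.perp ⊤ v ∧ w ∉ S.line v := by
    by_contra hcon
    push Not at hcon
    have hle : S.perp ⊤ v ≤ S.line v := fun w hw => hcon w hw
    have h1 := Submodule.finrank_mono hle
    rw [S.finrank_line hv] at h1
    omega
  have hwv : S.B w v = 0 := (S.mem_perp.mp hw).2
  have hvw : S.B v w = 0 := by rw [S.B_symm, hwv]
  have hQv : Q v = 0 := S.Q_eq_zero h2 hvv
  have hpvw : QuadraticMap.polar ⇑Q v w = 0 := by rw [S.f_eq, hvw, map_zero]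
  refine ⟨((Cfsg.Agent.Lib.Helper52.eich Q v w hQv hpvw : ↥(Cfsg.isometryGroup F ⇑Q)) : GL ι F),
    ⟨_, Cfsg.Agent.Lib.Helper52.eich_mem_commutator Q hQ hn v w hQv hpvw, rfl⟩, ?_⟩
  intro hnorm
  -- the matrix of g
  have hE : ∀ x : ι → F, (((Cfsg.Agent.Lib.Helper52.eich Q v w hQv hpvw :
      ↥(Cfsg.isometryGroup F ⇑Q)) : GL ι F) : Matrix ι ι F) *ᵥ x
      = x + QuadraticMap.polar ⇑Q w x • v - QuadraticMap.polar ⇑Q v x • w
        - (Q w * QuadraticMap.polar ⇑Q v x) • v := fun x =>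
    Cfsg.Agent.Lib.Helper52.eichMat_mulVec Q v w x
  generalize ((Cfsg.Agent.Lib.Helper52.eich Q v w hQv hpvw :
      ↥(Cfsg.isometryGroup F ⇑Q)) : GL ι F) = g at hnorm hE
  -- g fixes the line of v pointwise
  have hEv : ∀ l : L, (g : Matrix ι ι F) *ᵥ (S.φ l *ᵥ v) = S.φ l *ᵥ v := by
    intro l
    rw [hE, S.f_act_right, S.f_act_right, hwv, hvv, mul_zero, map_zero, zero_smul, mul_zero,
      zero_smul, zero_smul, add_zero, sub_zero, sub_zero]
  have hEv1 : (g : Matrix ι ι F) *ᵥ v = v := by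
    have := hEv 1
    rwa [S.φ_one_mulVec] at this
  -- g commutes with φ l
  have hcomm : ∀ (l : L) (x : ι → F),
      (g : Matrix ι ι F) *ᵥ (S.φ l *ᵥ x) = S.φ l *ᵥ ((g : Matrix ι ι F) *ᵥ x) := by
    intro l x
    have h1 : (g : Matrix ι ι F) * S.φ l * ((g⁻¹ : GL ι F) : Matrix ι ι F) ∈ S.φ.range :=
      (hnorm (S.φ l)).mp ⟨l, rfl⟩
    obtain ⟨l', hl'⟩ := h1
    have hl'' : S.φ l' = (g : Matrix ι ι F) * S.φ l * ((g⁻¹ : GL ι F) : Matrix ι ι F) := hl'
    have h2' : S.φ l' * (g : Matrix ι ι F) = (g : Matrix ι ι F) * S.φ l := by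
      rw [hl'', mul_assoc, Units.inv_mul, mul_one]
    have h3 : ∀ y : ι → F, S.φ l' *ᵥ ((g : Matrix ι ι F) *ᵥ y)
        = (g : Matrix ι ι F) *ᵥ (S.φ l *ᵥ y) := by
      intro y
      rw [Matrix.mulVec_mulVec, Matrix.mulVec_mulVec, h2']
    have h4 : l' = l := by
      apply S.φ_mulVec_inj hv
      have := h3 v
      rw [hEv1, hEv] at this
      exact this
    rw [← h3, h4]
  -- a dual vector
  obtain ⟨t₀, ht₀v, ht₀w⟩ := S.exists_dual hQ hwl
  have hkey : ∀ l : L, S.β l • v = S.β 1 • (S.φ l *ᵥ v) := by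
    intro l
    have h1 := hcomm l t₀
    rw [hE, hE, S.f_act_right, S.f_act_right, S.f_eq w t₀, S.f_eq v t₀, ht₀v, ht₀w, mul_zero,
      mul_one, map_zero, mul_zero] at h1
    simp only [zero_smul, sub_zero] at h1
    rw [S.φ_mulVec_add, S.φ_mulVec_smul] at h1
    exact add_left_cancel h1
  have hkey' : ∀ l : L, algebraMap F L (S.β l) = algebraMap F L (S.β 1) * l := by
    intro l
    apply S.φ_mulVec_inj hv
    rw [S.φ_algebraMap_mulVec, S.φ_mul_mulVec, S.φ_algebraMap_mulVec]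
    exact hkey l
  by_cases hβ1 : S.β 1 = 0
  · apply S.β_ne
    apply LinearMap.ext
    intro l
    have h1 := hkey' l
    rw [hβ1, map_zero, zero_mul] at h1
    rw [LinearMap.zero_apply]
    exact (map_eq_zero (algebraMap F L)).mp h1
  · have hle : Module.finrank F L ≤ 1 := by
      apply finrank_le_one (1 : L)
      intro l
      refine ⟨(S.β 1)⁻¹ * S.β l, ?_⟩
      rw [← Algebra.algebraMap_eq_smul_one, map_mul, hkey', ← mul_assoc, ← map_mul,
        inv_mul_cancel₀ hβ1, map_one, one_mul]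
    omega

theorem exists_omega_not_normalizer {ι : Type} [Fintype ι] [DecidableEq ι] {F : Type*} [Field F] [Finite F]
    {Q : QuadraticForm F (ι → F)} {L : Type*} [Field L] [Algebra F L] [FiniteDimensional F L]
    (S : KO (QuadraticMap.polar ⇑Q) L) (h2 : (2 : F) ≠ 0)
    (hQ : (QuadraticMap.polarBilin Q).Nondegenerate)
    (hr : (Module.finrank F L).Prime) (hd : 4 * Module.finrank F L ≤ Fintype.card ι) :
    ∃ g ∈ Cfsg.Geo.omegaGL ⇑Q, g ∉ Cfsg.Geo.subalgebraNormalizer S.φ.range :=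
  exists_omega_not_normalizer_of S h2 hQ hr hd
    (Cfsg.Agent.Lib.Helper57.OKGEOM2.exists_sing S h2 hQ hr hd)

end Cfsg.Agent.Lib.Helper21.OKS3
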