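import Mathlib
import Cfsg.Agent.Lib.Helper19.DkL

/-!
# S3421, piece OS-L (helper14's project): element orders of `PSL₂(F)`

* `psl2_order_dvd_odd`: for `|F| = q` odd every element order divides `q`, `(q - 1) / 2` or
  `(q + 1) / 2`;
* `psl2_order_exists_odd`: elements of orders `(q - 1) / 2` and `(q + 1) / 2` exist;
* `psl2_order_even_char2`: in characteristic `2` the only even element order is `2`.
-/

set_option autoImplicit false

namespace Cfsg.Agent.Lib.Helper14.OS

open Cfsg.Agent.Lib.Helper19.Dk Cfsg.Agent.S0809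

/-- an element of `SL₂(F)` with `tr² ≠ 4` has order dividing `q - 1` or `q + 1` -/
theorem osl_order_ss {F : Type*} [Field F] [Fintype F] (p : ℕ) [Fact p.Prime] [CharP F p]
    (x : S2 F) (hx : tr x ^ 2 ≠ 4) :
    orderOf x ∣ Fintype.card F - 1 ∨ orderOf x ∣ Fintype.card F + 1 := by
  have hmem : x ∈ Subgroup.centralizer ({x} : Set (S2 F)) := by
    rw [Subgroup.mem_centralizer_iff]
    intro y hy
    rw [Set.mem_singleton_iff.1 hy]
  have hdvd : orderOf x ∣ Nat.card (Subgroup.centralizer ({x} : Set (S2 F))) := by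
    have h := orderOf_dvd_natCard (⟨x, hmem⟩ : Subgroup.centralizer ({x} : Set (S2 F)))
    rwa [← Subgroup.orderOf_coe] at h
  rcases card_centralizer_dvd p x hx with h | h
  · exact Or.inl (hdvd.trans h)
  · exact Or.inr (hdvd.trans h)

/-- an element of `SL₂(F)` with `tr² = 4` has `p`-th power in the centre -/
theorem osl_prj_pow_char {F : Type*} [Field F] (p : ℕ) [Fact p.Prime] [CharP F p]
    (x : S2 F) (h4 : tr x ^ 2 = 4) : prj F x ^ p = 1 := by
  have h22 : (tr x - 2) * (tr x + 2) = 0 := by linear_combination h4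
  rcases mul_eq_zero.1 h22 with h | h
  · have h1 := pow_char_of_tr p x (by linear_combination h)
    rw [← map_pow, h1, map_one]
  · have htn : tr (negOne * x) = 2 := by
      unfold tr at h ⊢
      simp only [mul00, mul11, negOne, mk2_00, mk2_01, mk2_10, mk2_11]
      linear_combination -h
    have h1 := pow_char_of_tr p (negOne * x) htn
    have h2 : prj F (negOne * x) = prj F x := by
      rw [map_mul, (prj_eq_one_iff negOne).2 isSc_negOne, one_mul]
    rw [← h2, ← map_pow, h1, map_one]

theorem psl2_order_dvd_odd {F : Type*} [Field F] [Fintype F] (h2 : (2 : F) ≠ 0)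
    (g : Matrix.ProjectiveSpecialLinearGroup (Fin 2) F) :
    orderOf g ∣ Fintype.card F ∨ orderOf g ∣ (Fintype.card F - 1) / 2 ∨
      orderOf g ∣ (Fintype.card F + 1) / 2 := by
  obtain ⟨p, hp⟩ := CharP.exists F
  have : Fact p.Prime := ⟨CharP.char_is_prime F p⟩
  have hpp : p.Prime := Fact.out
  have hodd : Odd (Fintype.card F) := q_odd p h2
  obtain ⟨n, -, hq⟩ := FiniteField.card F p
  have hpq : p ∣ Fintype.card F := by
    rw [hq]
    exact dvd_pow_self p n.ne_zero
  have hq2 : 2 ≤ Fintype.card F := Fintype.one_lt_card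
  by_cases hcop : (orderOf g).Coprime p
  · right
    have h := psl_ord p g hcop
    rw [gcd_of_two_ne p h2] at h
    obtain ⟨k, hk⟩ := hodd
    rcases h with h | h
    · left
      obtain ⟨c, hc⟩ := h
      refine ⟨c, ?_⟩
      have : Fintype.card F - 1 = 2 * (orderOf g * c) := by rw [hc]; ring
      omega
    · right
      obtain ⟨c, hc⟩ := h
      refine ⟨c, ?_⟩
      have : Fintype.card F + 1 = 2 * (orderOf g * c) := by rw [hc]; ring
      omega
  · left
    have hpd : p ∣ orderOf g := by
      by_contra hnd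
      exact hcop ((Nat.Prime.coprime_iff_not_dvd hpp).2 hnd).symm
    obtain ⟨x, rfl⟩ := prj_surj g
    have h4 : tr x ^ 2 = 4 := by
      by_contra h4
      have hpx : p ∣ orderOf x := hpd.trans (orderOf_map_dvd (prj F) x)
      rcases osl_order_ss p x h4 with h | h
      · have h' := hpx.trans h
        have h1 : p ∣ 1 := by
          have h3 : p ∣ Fintype.card F - (Fintype.card F - 1) := Nat.dvd_sub hpq h'
          have h5 : Fintype.card F - (Fintype.card F - 1) = 1 := by omega
          rwa [h5] at h3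
        exact hpp.one_lt.ne' (Nat.dvd_one.1 h1)
      · have h' := hpx.trans h
        have h1 : p ∣ 1 := by
          have h3 : p ∣ Fintype.card F + 1 - Fintype.card F := Nat.dvd_sub h' hpq
          have h5 : Fintype.card F + 1 - Fintype.card F = 1 := by omega
          rwa [h5] at h3
        exact hpp.one_lt.ne' (Nat.dvd_one.1 h1)
    exact (orderOf_dvd_of_pow_eq_one (osl_prj_pow_char p x h4)).trans hpq

theorem psl2_order_exists_odd {F : Type*} [Field F] [Fintype F] (h2 : (2 : F) ≠ 0) :
    (∃ g : Matrix.ProjectiveSpecialLinearGroup (Fin 2) F, orderOf g = (Fintype.card F - 1) / 2) ∧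
    (∃ g : Matrix.ProjectiveSpecialLinearGroup (Fin 2) F, orderOf g = (Fintype.card F + 1) / 2) := by
  obtain ⟨p, hp⟩ := CharP.exists F
  have : Fact p.Prime := ⟨CharP.char_is_prime F p⟩
  have hodd : Odd (Fintype.card F) := q_odd p h2
  have hq2 : 2 ≤ Fintype.card F := Fintype.one_lt_card
  obtain ⟨k, hk⟩ := hodd
  constructor
  · obtain ⟨t, ht⟩ := exists_order_sub_one (F := F)
    refine ⟨prj F t, orderOf_prj_odd h2 t _ ?_ ?_⟩
    · rw [ht]; omega
    · omega
  · obtain ⟨t, ht⟩ := exists_order_add_one (F := F) p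
    refine ⟨prj F t, orderOf_prj_odd h2 t _ ?_ ?_⟩
    · rw [ht]; omega
    · omega

theorem psl2_order_even_char2 {F : Type*} [Field F] [Fintype F] (h2 : (2 : F) = 0)
    (g : Matrix.ProjectiveSpecialLinearGroup (Fin 2) F) (hg : Even (orderOf g)) :
    orderOf g = 2 := by
  obtain ⟨p, hp⟩ := CharP.exists F
  have : Fact p.Prime := ⟨CharP.char_is_prime F p⟩
  have hp2 : p = 2 := char_two_of p h2
  have heven : Even (Fintype.card F) := q_even p h2
  have hq2 : 2 ≤ Fintype.card F := Fintype.one_lt_card
  obtain ⟨x, rfl⟩ := prj_surj g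
  rw [orderOf_prj_even h2] at hg ⊢
  have h4 : tr x ^ 2 = 4 := by
    by_contra h4
    obtain ⟨k, hk⟩ := heven
    obtain ⟨m, hm⟩ := hg
    rcases osl_order_ss p x h4 with h | h
    · obtain ⟨c, hc⟩ := h
      rw [hm] at hc
      have : Fintype.card F - 1 = 2 * (m * c) := by rw [hc]; ring
      omega
    · obtain ⟨c, hc⟩ := h
      rw [hm] at hc
      have : Fintype.card F + 1 = 2 * (m * c) := by rw [hc]; ring
      omega
  have h40 : (4 : F) = 0 := by linear_combination 2 * h2
  have htr : tr x = 2 := by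
    rw [h40] at h4
    have h0 : tr x = 0 := by simpa using h4
    rw [h0, h2]
  have hx2 : x ^ 2 = 1 := by
    have h := pow_char_of_tr p x htr
    rwa [hp2] at h
  have hdvd : orderOf x ∣ 2 := orderOf_dvd_of_pow_eq_one hx2
  have hle : orderOf x ≤ 2 := Nat.le_of_dvd (by norm_num) hdvd
  obtain ⟨m, hm⟩ := hg
  have hpos : 0 < orderOf x := Nat.pos_of_dvd_of_pos hdvd (by norm_num)
  omega

end Cfsg.Agent.Lib.Helper14.OS
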