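import Cfsg.Agent.Lib.Helper47.OmcDefs

/-!
# S2683–S2685, piece OBIJ: `O` and `C_O(x)` versus the `Q`-preserving elements of `Sp`
-/

set_option autoImplicit false

namespace Cfsg.Agent.Lib.Helper21.Omc

open Cfsg.Agent.Lib.Helper47 Matrix

variable {F : Type*} [Field F]

/-- every `Q`-preserving symplectic matrix comes from an element of the orthogonal group -/
theorem obij_exists [CharP F 2] (m : ℕ) (A : ↥(Matrix.symplecticGroup (Fin m) F))
    (hA : A ∈ oInSp m F) :
    ∃ g : ↥(Cfsg.isometryGroup F (Cfsg.quadFormPlus m F)), spOfO g = A := by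
  have h1 : (A : Matrix (Fin m ⊕ Fin m) (Fin m ⊕ Fin m) F)
      * ((A⁻¹ : ↥(Matrix.symplecticGroup (Fin m) F)) :
        Matrix (Fin m ⊕ Fin m) (Fin m ⊕ Fin m) F) = 1 :=
    congrArg Subtype.val (mul_inv_cancel A)
  have h2 : ((A⁻¹ : ↥(Matrix.symplecticGroup (Fin m) F)) :
        Matrix (Fin m ⊕ Fin m) (Fin m ⊕ Fin m) F)
      * (A : Matrix (Fin m ⊕ Fin m) (Fin m ⊕ Fin m) F) = 1 :=
    congrArg Subtype.val (inv_mul_cancel A)
  let u : Matrix.GeneralLinearGroup (Fin m ⊕ Fin m) F :=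
    ⟨(A : Matrix (Fin m ⊕ Fin m) (Fin m ⊕ Fin m) F),
      ((A⁻¹ : ↥(Matrix.symplecticGroup (Fin m) F)) :
        Matrix (Fin m ⊕ Fin m) (Fin m ⊕ Fin m) F), h1, h2⟩
  have hu : u ∈ Cfsg.isometryGroup F (Cfsg.quadFormPlus m F) := by
    intro v w
    exact (mem_oInSp m A).mp hA v
  exact ⟨⟨u, hu⟩, Subtype.ext rfl⟩

theorem obij_injective [CharP F 2] (m : ℕ) :
    Function.Injective
      (spOfO : ↥(Cfsg.isometryGroup F (Cfsg.quadFormPlus m F)) →
        ↥(Matrix.symplecticGroup (Fin m) F)) := by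
  intro g g' h
  apply omat_injective
  exact congrArg Subtype.val h

-- PIECE OBIJ (two theorems)
theorem card_oInSp [CharP F 2] (m : ℕ) :
    Nat.card (oInSp m F) = Nat.card ↥(Cfsg.isometryGroup F (Cfsg.quadFormPlus m F)) := by
  symm
  apply Nat.card_congr
  refine Equiv.ofBijective
    (fun g : ↥(Cfsg.isometryGroup F (Cfsg.quadFormPlus m F)) =>
      (⟨spOfO g, (mem_oInSp m (spOfO g)).mpr (omat_qplus g)⟩ : ↥(oInSp m F))) ⟨?_, ?_⟩
  · intro g g' h
    exact obij_injective m (congrArg Subtype.val h)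
  · rintro ⟨A, hA⟩
    obtain ⟨g, hg⟩ := obij_exists m A hA
    exact ⟨g, Subtype.ext hg⟩

theorem card_oInSp_cent [CharP F 2] (m : ℕ)
    (x : ↥(Cfsg.isometryGroup F (Cfsg.quadFormPlus m F))) :
    Nat.card ((oInSp m F).subgroupOf
        (Subgroup.centralizer ({spOfO x} : Set ↥(Matrix.symplecticGroup (Fin m) F))))
      = Nat.card {g : ↥(Cfsg.isometryGroup F (Cfsg.quadFormPlus m F)) // g * x = x * g} := by
  symm
  apply Nat.card_congr
  have hcomm : ∀ g : ↥(Cfsg.isometryGroup F (Cfsg.quadFormPlus m F)), g * x = x * g →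
      spOfO g ∈ Subgroup.centralizer ({spOfO x} : Set ↥(Matrix.symplecticGroup (Fin m) F)) := by
    intro g hg
    rw [Subgroup.mem_centralizer_iff]
    intro h hh
    rw [Set.mem_singleton_iff] at hh
    subst hh
    apply Subtype.ext
    show omat x * omat g = omat g * omat x
    rw [← omat_mul, ← omat_mul, hg]
  refine Equiv.ofBijective
    (fun g : {g : ↥(Cfsg.isometryGroup F (Cfsg.quadFormPlus m F)) // g * x = x * g} =>
      (⟨⟨spOfO g.1, hcomm g.1 g.2⟩, Subgroup.mem_subgroupOf.mpr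
        ((mem_oInSp m (spOfO g.1)).mpr (omat_qplus g.1))⟩ :
        ↥((oInSp m F).subgroupOf
          (Subgroup.centralizer ({spOfO x} : Set ↥(Matrix.symplecticGroup (Fin m) F))))))
    ⟨?_, ?_⟩
  · intro g g' h
    apply Subtype.ext
    exact obij_injective m (congrArg Subtype.val (congrArg Subtype.val h))
  · rintro ⟨⟨A, hAc⟩, hAo⟩
    have hAo' : A ∈ oInSp m F := Subgroup.mem_subgroupOf.mp hAo
    obtain ⟨g, hg⟩ := obij_exists m A hAo'
    have hgx : g * x = x * g := by
      apply omat_injective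
      rw [omat_mul, omat_mul]
      rw [Subgroup.mem_centralizer_iff] at hAc
      have h3 := hAc (spOfO x) rfl
      have h4 := congrArg Subtype.val h3
      have h5 : omat g = (A : Matrix (Fin m ⊕ Fin m) (Fin m ⊕ Fin m) F) :=
        congrArg Subtype.val hg
      rw [h5]
      exact h4.symm
    refine ⟨⟨g, hgx⟩, ?_⟩
    apply Subtype.ext
    apply Subtype.ext
    exact hg

end Cfsg.Agent.Lib.Helper21.Omc
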