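import Cfsg.Agent.Lib.Helper98.H74Defs

/-! Project PE (S5988, helper96), piece AR88O: the arithmetic model of "every element of odd prime
order `r` fixes an elliptic `m`-space" for `i = ord_r(q)` odd. -/

set_option autoImplicit false
set_option linter.unusedSectionVars false
set_option linter.unusedVariables false

namespace Cfsg.Agent.Lib.Helper21.Pe

universe u

open Cfsg.Agent.Lib.Helper47 Cfsg.Agent.Lib.Helper98.T73 Cfsg.Agent.Lib.Helper98.H74 Module

-- PIECE AR88O
theorem ar88_odd (i d m : ℕ) (hi : 1 ≤ i) (hodd : ¬ Even i) (hd : 4 ≤ d) (hm : 2 ≤ m)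
    (hme : Even m) (hmd : m < d) :
    (2 * i ≤ m ∧ ModelH 1 (-1) i d m) ↔
      (2 * i ≤ m ∧ 0 < m % (2 * i) ∧ m % (2 * i) < (2 * d) % (2 * i)) := by
  have hio : Odd i := Nat.not_even_iff_odd.mp hodd
  have hsgn : ∀ A, sgn i A = 1 := fun A => by unfold sgn; rw [if_neg hodd]
  have hc : 0 < 2 * i := by omega
  have hmdiv := Nat.div_add_mod m (2 * i)
  have hddiv := Nat.div_add_mod (2 * d) (2 * i)
  constructor
  · rintro ⟨h2i, hM⟩
    refine ⟨h2i, ?_⟩
    have hA : Valid 1 i d (2 * ((2 * d) / (2 * i))) := by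
      unfold Valid
      refine ⟨?_, ?_, fun _ => even_two_mul _, fun _ => hsgn _⟩
      · have h1 : 1 ≤ (2 * d) / (2 * i) := by
          rw [Nat.le_div_iff_mul_le hc]; omega
        omega
      · have e : i * (2 * ((2 * d) / (2 * i))) = 2 * i * ((2 * d) / (2 * i)) := by ring
        rw [e]; omega
    unfold ModelH at hM
    obtain ⟨j, w, hMC⟩ := hM _ hA
    unfold MC at hMC
    obtain ⟨hjA, hje, hmw, hw, hw0, hw1⟩ := hMC
    obtain ⟨b, hb⟩ := hje hio
    have hw0' : 0 < w := by
      by_contra hcon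
      have hw00 : w = 0 := by omega
      have h3 := hw0 hw00
      rw [hsgn] at h3
      norm_num at h3
    have hmod : 2 * d - i * (2 * ((2 * d) / (2 * i))) = (2 * d) % (2 * i) := by
      have e : i * (2 * ((2 * d) / (2 * i))) = 2 * i * ((2 * d) / (2 * i)) := by ring
      rw [e]; omega
    rw [hmod] at hw hw1
    have hwlt : w < (2 * d) % (2 * i) := by
      rcases Nat.lt_or_ge w ((2 * d) % (2 * i)) with h | h
      · exact h
      · exfalso
        have hweq : w = (2 * d) % (2 * i) := le_antisymm hw h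
        have h3 := hw1 hw0' hweq
        rw [hsgn, hsgn] at h3
        norm_num at h3
    have hwc : w < 2 * i := lt_trans hwlt (Nat.mod_lt _ hc)
    have hmm : m % (2 * i) = w := by
      rw [hmw, hb]
      have e : i * (b + b) + w = w + 2 * i * b := by ring
      rw [e, Nat.add_mul_mod_self_left, Nat.mod_eq_of_lt hwc]
    rw [hmm]
    exact ⟨hw0', hwlt⟩
  · rintro ⟨h2i, hpos, hlt⟩
    refine ⟨h2i, ?_⟩
    unfold ModelH
    intro A hA
    unfold Valid at hA
    obtain ⟨hA1, hA2, hA3, -⟩ := hA
    obtain ⟨a, ha⟩ := hA3 hio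
    have e : i * A = 2 * i * a := by rw [ha]; ring
    have hca : 2 * i * a ≤ 2 * d := by rw [← e]; exact hA2
    unfold MC
    by_cases hcase : a ≤ m / (2 * i)
    · have h1 : 2 * i * a ≤ 2 * i * (m / (2 * i)) := Nat.mul_le_mul_left _ hcase
      refine ⟨A, m - i * A, le_refl _, fun _ => ⟨a, ha⟩, ?_, ?_, ?_, ?_⟩
      · rw [e]; omega
      · rw [e]; omega
      · intro hw0
        exfalso
        rw [e] at hw0
        omega
      · intro _ hweq
        exfalso
        rw [e] at hweq
        omega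
    · push Not at hcase
      have h1 : a ≤ (2 * d) / (2 * i) := by
        rw [Nat.le_div_iff_mul_le hc, mul_comm]; exact hca
      have h2 : 2 * i * a ≤ 2 * i * ((2 * d) / (2 * i)) := Nat.mul_le_mul_left _ h1
      have e2 : i * (2 * (m / (2 * i))) = 2 * i * (m / (2 * i)) := by ring
      refine ⟨2 * (m / (2 * i)), m % (2 * i), ?_, fun _ => even_two_mul _, ?_, ?_, ?_, ?_⟩
      · rw [ha]; omega
      · rw [e2]; omega
      · rw [e]; omega
      · intro hw0; omega
      · intro _ hweq
        exfalso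
        rw [e] at hweq
        omega

end Cfsg.Agent.Lib.Helper21.Pe
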