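import Cfsg.Agent.Lib.Helper96.SpDefs

/-! Piece ZNORM of project PI (S5989, helper96): normalising an isometry whose odd power is a
scalar. -/

set_option autoImplicit false
set_option linter.unusedSectionVars false
set_option linter.unusedVariables false

namespace Cfsg.Agent.Lib.Helper21.Pi

open Module Cfsg.Agent.Lib.Helper96.Sp

universe u

variable {F : Type u} [Field F] [Fintype F] {V : Type u} [AddCommGroup V] [Module F V]
  [FiniteDimensional F V] {B : LinearMap.BilinForm F V}

-- PIECE ZNORM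
theorem exists_normalized (T : Module.End F V) (hT : Isom B T) (r : ℕ) (hr : Odd r) (z : F)
    (hz : T ^ r = z • (1 : Module.End F V)) (hzz : z * z = 1)
    (hns : ∀ c : F, T ≠ c • (1 : Module.End F V)) :
    ∃ T' : Module.End F V, Isom B T' ∧ T' ^ r = 1 ∧ T' ≠ 1 ∧
      ∀ W : Submodule F V, W.map T' ≤ W → W.map T ≤ W := by
  have hT2 : z • (z • T) = T := by rw [smul_smul, hzz, one_smul]
  refine ⟨z • T, ?_, ?_, ?_, ?_⟩
  · intro x y
    simp only [LinearMap.smul_apply, map_smul, smul_eq_mul]
    rw [hT x y, ← mul_assoc, hzz, one_mul]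
  · obtain ⟨j, hj⟩ := hr
    rw [smul_pow, hz, smul_smul, ← pow_succ, hj]
    have h1 : z ^ (2 * j + 1 + 1) = (z * z) ^ (j + 1) := by
      rw [← pow_two, ← pow_mul]
      rfl
    rw [h1, hzz, one_pow, one_smul]
  · intro h
    apply hns z
    rw [← h, hT2]
  · intro W hW w hw
    obtain ⟨v, hv, rfl⟩ := hw
    have h1 : (z • T) v ∈ W := hW ⟨v, hv, rfl⟩
    have h2 : z • ((z • T) v) ∈ W := W.smul_mem z h1
    have h3 : z • ((z • T) v) = T v := by rw [LinearMap.smul_apply, smul_smul, hzz, one_smul]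
    rw [h3] at h2
    exact h2

end Cfsg.Agent.Lib.Helper21.Pi
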