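import Cfsg.Agent.Lib.Helper96.SpDefs

/-! Piece ZSQ of project PI (S5989, helper96): a scalar power of an isometry is `± 1`. -/

set_option autoImplicit false
set_option linter.unusedSectionVars false
set_option linter.unusedVariables false

namespace Cfsg.Agent.Lib.Helper21.Pi

open Module Cfsg.Agent.Lib.Helper96.Sp

universe u

variable {F : Type u} [Field F] [Fintype F] {V : Type u} [AddCommGroup V] [Module F V]
  [FiniteDimensional F V] {B : LinearMap.BilinForm F V}

-- PIECE ZSQ
theorem scalar_sq_one (hN : ND B ⊤) (hpos : 0 < finrank F V) (T : Module.End F V)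
    (hT : Isom B T) (k : ℕ) (z : F) (hz : T ^ k = z • (1 : Module.End F V)) : z * z = 1 := by
  have hk : ∀ k : ℕ, ∀ x y, B ((T ^ k) x) ((T ^ k) y) = B x y := by
    intro k
    induction k with
    | zero => intro x y; simp
    | succ k ih =>
      intro x y
      rw [pow_succ, Module.End.mul_apply, Module.End.mul_apply, ih, hT]
  obtain ⟨u, hu⟩ := Module.finrank_pos_iff_exists_ne_zero.mp hpos
  have hex : ∃ v, B u v ≠ 0 := by
    by_contra hne
    push Not at hne
    exact hu (hN u Submodule.mem_top (fun v _ => hne v))
  obtain ⟨v, hv⟩ := hex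
  have h1 := hk k u v
  rw [hz] at h1
  simp only [LinearMap.smul_apply, Module.End.one_apply, map_smul, smul_eq_mul] at h1
  have h2 : (z * z - 1) * B u v = 0 := by linear_combination h1
  rcases mul_eq_zero.mp h2 with h | h
  · exact sub_eq_zero.mp h
  · exact absurd h hv

end Cfsg.Agent.Lib.Helper21.Pi
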