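import Mathlib
import Cfsg.Agent.Lib.Helper13.Basic

/-!
# The structure of a solvable primitive group: a maximal subgroup and its core
-/

set_option autoImplicit false

namespace Cfsg.Agent.Lib.Helper21

open scoped commutatorElement

section PrimSolv

variable {G : Type*} [Group G]

/-- If `H M = G` with `M` normal, a subgroup normalized by `H` and by `M` is normal. -/
theorem normal_of_sup_eq_top (H M A : Subgroup G) [M.Normal] (hHM : H ⊔ M = ⊤)
    (h1 : ∀ h ∈ H, ∀ x ∈ A, h * x * h⁻¹ ∈ A) (h2 : ∀ m ∈ M, ∀ x ∈ A, m * x * m⁻¹ ∈ A) :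
    A.Normal := by
  refine ⟨fun x hx g => ?_⟩
  have hg : g ∈ H ⊔ M := by rw [hHM]; trivial
  rw [← SetLike.mem_coe, Subgroup.mul_normal, Set.mem_mul] at hg
  obtain ⟨h, hh, m, hm, rfl⟩ := hg
  have e : h * m * x * (h * m)⁻¹ = h * (m * x * m⁻¹) * h⁻¹ := by group
  rw [e]
  exact h1 h hh _ (h2 m hm x hx)

/-- A minimal normal subgroup contained in a normal `p`-subgroup is central in it. -/
theorem minimal_normal_central_of_pgroup [Finite G] {p : ℕ} [Fact p.Prime] (M P : Subgroup G)
    [M.Normal] [P.Normal] (hMP : M ≤ P) (hP : IsPGroup p P) (hM : M ≠ ⊥)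
    (hmin : ∀ K : Subgroup G, K.Normal → K ≤ M → K = ⊥ ∨ K = M) :
    ∀ m ∈ M, ∀ y ∈ P, m * y = y * m := by
  have hcn : (⁅M, P⁆ : Subgroup G).Normal := Subgroup.commutator_normal M P
  have hle : ⁅M, P⁆ ≤ M := Subgroup.commutator_le_left M P
  rcases hmin _ hcn hle with h | h
  · intro m hm y hy
    have h1 : ⁅m, y⁆ ∈ ⁅M, P⁆ := Subgroup.commutator_mem_commutator hm hy
    rw [h, Subgroup.mem_bot, commutatorElement_eq_one_iff_commute] at h1
    exact h1
  · exfalso
    haveI : Group.IsNilpotent P := hP.isNilpotent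
    have hall : ∀ k, M ≤ P.lowerCentralSeries k := by
      intro k
      induction k with
      | zero => exact hMP
      | succ k ih =>
        rw [Subgroup.lowerCentralSeries_succ]
        calc M = ⁅M, P⁆ := h.symm
          _ ≤ ⁅P.lowerCentralSeries k, P⁆ := Subgroup.commutator_mono ih le_rfl
    obtain ⟨n, hn⟩ := (Subgroup.isNilpotent_iff_lowerCentralSeries P).mp inferInstance
    have h2 := hall n
    rw [hn, le_bot_iff] at h2
    exact hM h2

/-- The structure of a finite solvable group with a core-free maximal subgroup. -/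
theorem prim_solv_structure [Finite G] [Group.IsSolvable G] (H : Subgroup G) (hmax : IsCoatom H)
    (hcore : H.normalCore = ⊥) (hH : H ≠ ⊥) :
    ∃ (p : ℕ) (M N : Subgroup G), p.Prime ∧ M.Normal ∧ H ⊔ M = ⊤ ∧ H ⊓ M = ⊥ ∧
      (∃ k, Nat.card M = p ^ k) ∧ N ≤ H ∧ N ≠ ⊥ ∧ (∀ h ∈ H, ∀ y ∈ N, h * y * h⁻¹ ∈ N) ∧
      ¬ p ∣ Nat.card N := by
  have htop : (⊤ : Subgroup G) ≠ ⊥ := by
    intro h
    apply hH
    rw [eq_bot_iff, ← h]
    exact le_top
  obtain ⟨M, -, hMn, hMne, hMmin⟩ := Helper13.exists_minimal_normal_le (⊤ : Subgroup G)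
    inferInstance htop
  haveI := hMn
  obtain ⟨p, hp, -, hcomm, -, hPG⟩ := Helper13.minimal_normal_solvable M hMn hMne hMmin
  haveI : Fact p.Prime := ⟨hp⟩
  have hMH : ¬ M ≤ H := by
    intro h
    have h1 : M ≤ H.normalCore := Subgroup.normal_le_normalCore.mpr h
    rw [hcore, le_bot_iff] at h1
    exact hMne h1
  have hsup : M ⊔ H = ⊤ := Helper13.sup_eq_top_of_isCoatom_of_not_le M H hmax hMH
  have hsup' : H ⊔ M = ⊤ := by rw [sup_comm]; exact hsup
  have hinf : H ⊓ M = ⊥ := by
    haveI : (M ⊓ H).Normal := Helper13.inf_normal_of_comm_of_sup_eq_top M H hMn hcomm hsup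
    have h1 : M ⊓ H ≤ H.normalCore := Subgroup.normal_le_normalCore.mpr inf_le_right
    rw [hcore, le_bot_iff] at h1
    rw [inf_comm]
    exact h1
  -- a minimal normal subgroup of `H`
  have hHtop : (⊤ : Subgroup H) ≠ ⊥ := by
    intro h
    apply hH
    rw [eq_bot_iff]
    intro x hx
    have h1 : (⟨x, hx⟩ : H) ∈ (⊤ : Subgroup H) := trivial
    rw [h, Subgroup.mem_bot] at h1
    exact congrArg Subtype.val h1
  obtain ⟨N₀, -, hN₀n, hN₀ne, hN₀min⟩ := Helper13.exists_minimal_normal_le (⊤ : Subgroup H)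
    inferInstance hHtop
  obtain ⟨q, hq, hqdvd, -, -, hQG⟩ := Helper13.minimal_normal_solvable N₀ hN₀n hN₀ne hN₀min
  haveI : Fact q.Prime := ⟨hq⟩
  have hNle : N₀.map H.subtype ≤ H := Subgroup.map_subtype_le _
  have hNne : N₀.map H.subtype ≠ ⊥ := by
    intro h
    exact hN₀ne ((Subgroup.map_eq_bot_iff_of_injective _ H.subtype_injective).mp h)
  have hNnorm : ∀ h ∈ H, ∀ y ∈ N₀.map H.subtype, h * y * h⁻¹ ∈ N₀.map H.subtype := by
    rintro h hh y ⟨y₀, hy₀, rfl⟩
    exact ⟨⟨h, hh⟩ * y₀ * ⟨h, hh⟩⁻¹, hN₀n.conj_mem y₀ hy₀ ⟨h, hh⟩, rfl⟩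
  have hNcard : Nat.card (N₀.map H.subtype) = Nat.card N₀ :=
    (Nat.card_congr (N₀.equivMapOfInjective H.subtype H.subtype_injective).toEquiv).symm
  refine ⟨p, M, N₀.map H.subtype, hp, hMn, hsup', hinf, IsPGroup.iff_card.mp hPG, hNle, hNne,
    hNnorm, ?_⟩
  intro hpd
  obtain ⟨j, hj⟩ := IsPGroup.iff_card.mp hQG
  rw [hNcard, hj] at hpd
  have hpq : p = q := (Nat.prime_dvd_prime_iff_eq hp hq).mp (hp.dvd_of_dvd_pow hpd)
  subst hpq
  have hNP : IsPGroup p (N₀.map H.subtype) := hQG.map H.subtype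
  have hPP : IsPGroup p (M ⊔ N₀.map H.subtype : Subgroup G) :=
    IsPGroup.to_sup_of_normal_left hPG hNP
  haveI hPn : (M ⊔ N₀.map H.subtype).Normal := by
    apply normal_of_sup_eq_top H M _ hsup'
    · intro h hh x hx
      have h1 : (M ⊔ N₀.map H.subtype).map (MulAut.conj h).toMonoidHom ≤
          M ⊔ N₀.map H.subtype := by
        rw [Subgroup.map_sup]
        apply sup_le_sup
        · rintro _ ⟨m, hm, rfl⟩
          exact hMn.conj_mem m hm h
        · rintro _ ⟨y, hy, rfl⟩
          exact hNnorm h hh y hy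
      exact h1 ⟨x, hx, rfl⟩
    · intro m hm x hx
      exact Subgroup.mul_mem _ (Subgroup.mul_mem _ (le_sup_left (a := M) hm) hx)
        (Subgroup.inv_mem _ (le_sup_left (a := M) hm))
  have hcen := minimal_normal_central_of_pgroup M (M ⊔ N₀.map H.subtype) le_sup_left hPP hMne
    hMmin
  haveI hNn : (N₀.map H.subtype).Normal := by
    apply normal_of_sup_eq_top H M _ hsup' hNnorm
    intro m hm x hx
    have h1 := hcen m hm x (le_sup_right (a := M) hx)
    rw [h1, mul_inv_cancel_right]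
    exact hx
  have h2 : N₀.map H.subtype ≤ H.normalCore := Subgroup.normal_le_normalCore.mpr hNle
  rw [hcore, le_bot_iff] at h2
  exact hNne h2

/-- The structure above a maximal subgroup `H` whose core `C` has solvable quotient: a normal
subgroup `M` complementing `H` modulo `C`, of `p`-power index over `C`, and a subgroup `N` of `H`
normal in `H`, properly containing `C`, of index prime to `p` over `C`. -/
theorem coatom_structure [Finite G] (H C : Subgroup G) [hCn : C.Normal] (hmax : IsCoatom H)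
    (hCH : C ≤ H) (hCmax : ∀ K : Subgroup G, K.Normal → K ≤ H → K ≤ C)
    [hsolv : Group.IsSolvable (G ⧸ C)] (hne : H ≠ C) :
    ∃ (p : ℕ) (M N : Subgroup G), p.Prime ∧ M.Normal ∧ C ≤ M ∧ H ⊔ M = ⊤ ∧
      H ⊓ M = C ∧ (∃ k, C.relIndex M = p ^ k) ∧
      C ≤ N ∧ N ≤ H ∧ N ≠ C ∧ (∀ h ∈ H, ∀ y ∈ N, h * y * h⁻¹ ∈ N) ∧
      ¬ p ∣ C.relIndex N := by
  set π : G →* G ⧸ C := QuotientGroup.mk' C with hπ
  have hπs : Function.Surjective π := QuotientGroup.mk'_surjective C
  have hker : π.ker = C := QuotientGroup.ker_mk' C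
  have hcomapH : (H.map π).comap π = H := Subgroup.comap_map_eq_self (by rw [hker]; exact hCH)
  have hcomapbot : (⊥ : Subgroup (G ⧸ C)).comap π = C := by rw [MonoidHom.comap_bot, hker]
  have hmapcomap : ∀ K : Subgroup (G ⧸ C), (K.comap π).map π = K :=
    fun K => Subgroup.map_comap_eq_self_of_surjective hπs K
  have hmapC : C.map π = ⊥ := by
    rw [eq_bot_iff]
    rintro _ ⟨c, hc, rfl⟩
    rw [Subgroup.mem_bot]
    exact (QuotientGroup.eq_one_iff c).mpr hc
  have hmax' : IsCoatom (H.map π) := by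
    constructor
    · intro h
      apply hmax.1
      rw [← hcomapH, h, Subgroup.comap_top]
    · intro K hK
      have h1 : H < K.comap π := by
        apply lt_of_le_of_ne
        · calc H = (H.map π).comap π := hcomapH.symm
            _ ≤ K.comap π := Subgroup.comap_mono hK.le
        · intro h
          apply hK.ne
          rw [← hmapcomap K, ← h]
      have h2 := hmax.2 _ h1
      rw [← hmapcomap K, h2, Subgroup.map_top_of_surjective π hπs]
  have hcore' : (H.map π).normalCore = ⊥ := by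
    have h1 : ((H.map π).normalCore.comap π) ≤ C := by
      apply hCmax _ (Subgroup.Normal.comap (Subgroup.normalCore_normal _) π)
      calc (H.map π).normalCore.comap π ≤ (H.map π).comap π :=
            Subgroup.comap_mono (Subgroup.normalCore_le _)
        _ = H := hcomapH
    rw [← hmapcomap (H.map π).normalCore, eq_bot_iff]
    calc ((H.map π).normalCore.comap π).map π ≤ C.map π := Subgroup.map_mono h1
      _ = ⊥ := hmapC
  have hHne' : H.map π ≠ ⊥ := by
    intro h
    apply hne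
    rw [← hcomapH, h, hcomapbot]
  obtain ⟨p, M, N, hp, hMn, hsup, hinf, ⟨k, hk⟩, hNle, hNne, hNnorm, hpN⟩ :=
    prim_solv_structure (H.map π) hmax' hcore' hHne'
  have hrel : ∀ K : Subgroup (G ⧸ C), C.relIndex (K.comap π) = Nat.card K := by
    intro K
    have h1 := Subgroup.relIndex_comap (H := (⊥ : Subgroup (G ⧸ C))) π (K.comap π)
    rw [hmapcomap, Subgroup.relIndex_bot_left] at h1
    rw [← h1]
    exact congrArg (fun X : Subgroup G => X.relIndex (K.comap π)) hcomapbot.symm
  refine ⟨p, M.comap π, N.comap π, hp, hMn.comap π, ?_, ?_, ?_, ⟨k, ?_⟩, ?_, ?_, ?_, ?_, ?_⟩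
  · calc C = (⊥ : Subgroup (G ⧸ C)).comap π := hcomapbot.symm
      _ ≤ M.comap π := Subgroup.comap_mono bot_le
  · calc H ⊔ M.comap π = (H.map π).comap π ⊔ M.comap π := by rw [hcomapH]
      _ = (H.map π ⊔ M).comap π := Subgroup.comap_sup_eq π _ _ hπs
      _ = ⊤ := by rw [hsup, Subgroup.comap_top]
  · calc H ⊓ M.comap π = (H.map π).comap π ⊓ M.comap π := by rw [hcomapH]
      _ = (H.map π ⊓ M).comap π := (Subgroup.comap_inf _ _ π).symm
      _ = C := by rw [hinf, hcomapbot]
  · rw [hrel, hk]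
  · calc C = (⊥ : Subgroup (G ⧸ C)).comap π := hcomapbot.symm
      _ ≤ N.comap π := Subgroup.comap_mono bot_le
  · calc N.comap π ≤ (H.map π).comap π := Subgroup.comap_mono hNle
      _ = H := hcomapH
  · intro h
    apply hNne
    rw [← hmapcomap N, h, hmapC]
  · intro h hh y hy
    show π (h * y * h⁻¹) ∈ N
    rw [map_mul, map_mul, map_inv]
    exact hNnorm (π h) (Subgroup.mem_map_of_mem π hh) (π y) hy
  · rw [hrel]
    exact hpN

end PrimSolv

end Cfsg.Agent.Lib.Helper21
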