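import Mathlib
import Cfsg.Agent.Lib.Helper21.PrimSolv
import Cfsg.Agent.Lib.Helper21.Ext
import Cfsg.Agent.Lib.Helper21.HH
import Cfsg.Agent.Lib.Helper4.CharEquiv
import Cfsg.Agent.Lib.Helper20.Clifford
import Cfsg.Agent.Lib.Helper20.CharSub
import Cfsg.Agent.Lib.Helper35.Ind
import Cfsg.Agent.S0887

/-!
# A character induced from a maximal subgroup is not quasi-primitive (solvable quotient case)
-/

set_option autoImplicit false

namespace Cfsg.Agent.Lib.Helper21

open Cfsg
open scoped ComplexConjugate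
open scoped Classical

section QP

/-- A character whose restriction to a subgroup is irreducible is irreducible. -/
theorem irr_of_res_irr {K : Type*} [Group K] [Finite K] (A : Subgroup K) {η : K → ℂ}
    (hη : IsCharacter K η) (hA : IsIrrCharacter A (fun a : A => η a)) : IsIrrCharacter K η := by
  classical
  letI : Fintype K := Fintype.ofFinite K
  obtain ⟨n, ρ, rfl⟩ := hη
  obtain ⟨m, ρ', hρ', hc⟩ := hA
  haveI := hρ'
  set σ : Representation ℂ A (Fin n → ℂ) := ρ.comp A.subtype with hσ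
  have h1 : ρ'.character = σ.character := by
    rw [hc]; rfl
  obtain ⟨φ⟩ := Helper4.equiv_of_char_eq ρ' σ h1
  haveI : σ.IsIrreducible := Helper4.isIrreducible_of_equiv φ
  exact (irr_of_res A ρ σ (fun _ => rfl)).1

variable {G : Type*} [Group G]

/-- If the restriction of a character of `H` to `C` is irreducible, so is its restriction to any
intermediate subgroup. -/
theorem irr_res_mid [Finite G] (C D H : Subgroup G) (hCD : C ≤ D) (hDH : D ≤ H) (ϑ : H → ℂ)
    (hϑ : IsCharacter H ϑ) (hC : IsIrrCharacter C (fun c : C => ϑ ⟨c, hDH (hCD c.2)⟩)) :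
    IsIrrCharacter D (fun d : D => ϑ ⟨d, hDH d.2⟩) := by
  apply irr_of_res_irr (C.subgroupOf D)
  · exact Helper20.isCharacter_comp (Subgroup.inclusion hDH) hϑ
  · exact Helper20.irr_comp_surjective (Subgroup.subgroupOfEquivOfLe hCD).toMonoidHom
      (Subgroup.subgroupOfEquivOfLe hCD).surjective hC

theorem sum_ite_mem_eq [Fintype G] (D : Subgroup G) (a : G → ℝ) :
    ∑ g : G, (if g ∈ D then a g else 0) = ∑ d : D, a d := by
  classical
  rw [← Finset.sum_filter]
  exact Finset.sum_subtype _ (by simp) _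

theorem sum_normSq_mid [Fintype G] (C D H : Subgroup G) (hCD : C ≤ D) (hDH : D ≤ H) (ϑ : H → ℂ)
    (hϑ : IsCharacter H ϑ) (hC : IsIrrCharacter C (fun c : C => ϑ ⟨c, hDH (hCD c.2)⟩)) :
    ∑ g : G, (if g ∈ D then Complex.normSq (extendByZero H ϑ g) else 0) = (Nat.card D : ℝ) := by
  classical
  rw [sum_ite_mem_eq D (fun g => Complex.normSq (extendByZero H ϑ g))]
  rw [← sum_normSq_irr (irr_res_mid C D H hCD hDH ϑ hϑ hC)]
  refine Finset.sum_congr rfl fun d _ => ?_
  rw [Helper35.ext_mem H ϑ d (hDH d.2)]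

/-- The norm of a homogeneous restriction. -/
theorem homog_norm [Fintype G] (A : Subgroup G) (χ : G → ℂ) (φ : A → ℂ) (e : ℕ)
    (hφ : IsIrrCharacter A φ) (h : (fun a : A => χ a) = (e : ℂ) • φ) :
    ∑ g : G, (if g ∈ A then Complex.normSq (χ g) else 0) = (e : ℝ) ^ 2 * Nat.card A := by
  classical
  rw [sum_ite_mem_eq A (fun g => Complex.normSq (χ g))]
  rw [← sum_normSq_irr hφ, Finset.mul_sum]
  refine Finset.sum_congr rfl fun a _ => ?_
  have h1 : χ a = (e : ℂ) * φ a := congrFun h a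
  rw [h1, Complex.normSq_mul, Complex.normSq_natCast]
  ring

/-- The basic double-sum identity for induced class functions. -/
theorem sum_conj_sq [Fintype G] (F : G → ℂ) :
    ∑ g : G, (∑ x : G, F (x⁻¹ * g * x)) * conj (∑ y : G, F (y⁻¹ * g * y)) =
      (Fintype.card G : ℂ) * ∑ r : G, ∑ g : G, F g * conj (F (r * g * r⁻¹)) := by
  have h1 : ∀ g : G, (∑ x : G, F (x⁻¹ * g * x)) * conj (∑ y : G, F (y⁻¹ * g * y)) =
      ∑ x : G, ∑ y : G, F (x⁻¹ * g * x) * conj (F (y⁻¹ * g * y)) := by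
    intro g
    rw [map_sum, Finset.sum_mul_sum]
  rw [Finset.sum_congr rfl (fun g _ => h1 g), Finset.sum_comm]
  have h2 : ∀ x : G, ∑ g : G, ∑ y : G, F (x⁻¹ * g * x) * conj (F (y⁻¹ * g * y)) =
      ∑ r : G, ∑ g : G, F g * conj (F (r * g * r⁻¹)) := by
    intro x
    rw [Finset.sum_comm]
    rw [← Equiv.sum_comp ((Equiv.inv G).trans (Equiv.mulRight x))
      (fun r => ∑ g : G, F g * conj (F (r * g * r⁻¹)))]
    refine Finset.sum_congr rfl fun y _ => ?_
    rw [← Equiv.sum_comp (MulAut.conj x).toEquiv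
      (fun g => F (x⁻¹ * g * x) * conj (F (y⁻¹ * g * y)))]
    refine Finset.sum_congr rfl fun g _ => ?_
    simp [MulAut.conj_apply, mul_assoc]
  rw [Finset.sum_congr rfl (fun x _ => h2 x), Finset.sum_const, Finset.card_univ, nsmul_eq_mul]

/-- The key norm bound: if `F` is supported on `N`, has norm `|D|` on every subgroup `D` between
`C` and `N`, and `N` is not normal, the class function induced from `F` has small norm. -/
theorem ind_norm_bound [Fintype G] (N C : Subgroup G) [hCn : C.Normal] (hCN : C ≤ N) (F : G → ℂ)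
    (hF : ∀ g, g ∉ N → F g = 0)
    (hP : ∀ D : Subgroup G, C ≤ D → D ≤ N →
      ∑ g : G, (if g ∈ D then Complex.normSq (F g) else 0) = (Nat.card D : ℝ))
    (r₀ : G) (hr₀ : ∃ g ∈ N, r₀ * g * r₀⁻¹ ∉ N) :
    ∑ g : G, Complex.normSq (∑ x : G, F (x⁻¹ * g * x)) <
      (Nat.card G : ℝ) * ((Nat.card G : ℝ) * Nat.card N) := by
  set Dg : G → Subgroup G := fun r => N ⊓ N.comap (MulAut.conj r).toMonoidHom with hDg
  have hDmem : ∀ r g, g ∈ Dg r ↔ g ∈ N ∧ r * g * r⁻¹ ∈ N := by
    intro r g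
    simp [hDg, Subgroup.mem_inf, Subgroup.mem_comap, MulAut.conj_apply]
  have hCD : ∀ r, C ≤ Dg r := by
    intro r c hc
    rw [hDmem]
    exact ⟨hCN hc, hCN (hCn.conj_mem c hc r)⟩
  have hDN : ∀ r, Dg r ≤ N := fun r => inf_le_left
  have hcard : ∀ r, (Nat.card (Dg r) : ℝ) ≤ Nat.card N := by
    intro r
    exact_mod_cast Subgroup.card_le_of_le (hDN r)
  have hcard₀ : (Nat.card (Dg r₀) : ℝ) + 1 ≤ Nat.card N := by
    obtain ⟨g, hg, hg'⟩ := hr₀
    have hne : Dg r₀ ≠ N := fun h => hg' ((hDmem r₀ g).mp (h ▸ hg)).2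
    have hlt : Nat.card (Dg r₀) < Nat.card N := by
      by_contra hge
      push Not at hge
      exact hne (Subgroup.eq_of_le_of_card_ge (hDN r₀) hge)
    exact_mod_cast hlt
  have hpt : ∀ r g : G, (F g * conj (F (r * g * r⁻¹))).re ≤
      ((if g ∈ Dg r then Complex.normSq (F g) else 0) +
       (if r * g * r⁻¹ ∈ Dg r⁻¹ then Complex.normSq (F (r * g * r⁻¹)) else 0)) / 2 := by
    intro r g
    have hnn : (0 : ℝ) ≤ ((if g ∈ Dg r then Complex.normSq (F g) else 0) +
       (if r * g * r⁻¹ ∈ Dg r⁻¹ then Complex.normSq (F (r * g * r⁻¹)) else 0)) / 2 := by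
      have h1 := Complex.normSq_nonneg (F g)
      have h2 := Complex.normSq_nonneg (F (r * g * r⁻¹))
      split_ifs <;> positivity
    by_cases h1 : g ∈ N
    · by_cases h2 : r * g * r⁻¹ ∈ N
      · have hm1 : g ∈ Dg r := (hDmem r g).mpr ⟨h1, h2⟩
        have hm2 : r * g * r⁻¹ ∈ Dg r⁻¹ := by
          refine (hDmem _ _).mpr ⟨h2, ?_⟩
          have : r⁻¹ * (r * g * r⁻¹) * r⁻¹⁻¹ = g := by group
          rw [this]; exact h1
        rw [if_pos hm1, if_pos hm2]
        generalize F g = a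
        generalize F (r * g * r⁻¹) = b
        simp only [Complex.mul_re, Complex.conj_re, Complex.conj_im, Complex.normSq_apply]
        nlinarith [sq_nonneg (a.re - b.re), sq_nonneg (a.im - b.im)]
      · rw [hF _ h2] at hnn ⊢
        simpa using hnn
    · rw [hF _ h1] at hnn ⊢
      simpa using hnn
  have hT : ∀ r : G, (∑ g : G, F g * conj (F (r * g * r⁻¹))).re ≤
      ((Nat.card (Dg r) : ℝ) + Nat.card (Dg r⁻¹)) / 2 := by
    intro r
    rw [Complex.re_sum]
    calc ∑ g : G, (F g * conj (F (r * g * r⁻¹))).re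
        ≤ ∑ g : G, ((if g ∈ Dg r then Complex.normSq (F g) else 0) +
          (if r * g * r⁻¹ ∈ Dg r⁻¹ then Complex.normSq (F (r * g * r⁻¹)) else 0)) / 2 :=
          Finset.sum_le_sum (fun g _ => hpt r g)
      _ = ((∑ g : G, (if g ∈ Dg r then Complex.normSq (F g) else 0)) +
          ∑ g : G, (if r * g * r⁻¹ ∈ Dg r⁻¹ then Complex.normSq (F (r * g * r⁻¹)) else 0)) / 2 := by
          rw [← Finset.sum_add_distrib, Finset.sum_div]
      _ = ((Nat.card (Dg r) : ℝ) + Nat.card (Dg r⁻¹)) / 2 := by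
          have h3 : ∑ g : G, (if r * g * r⁻¹ ∈ Dg r⁻¹ then Complex.normSq (F (r * g * r⁻¹))
              else 0) = (Nat.card (Dg r⁻¹) : ℝ) := by
            rw [← hP _ (hCD r⁻¹) (hDN r⁻¹)]
            exact Equiv.sum_comp (MulAut.conj r).toEquiv
              (fun g' => if g' ∈ Dg r⁻¹ then Complex.normSq (F g') else 0)
          rw [hP _ (hCD r) (hDN r), h3]
  have hT' : ∀ r : G, (∑ g : G, F g * conj (F (r * g * r⁻¹))).re ≤ (Nat.card N : ℝ) := by
    intro r
    have := hT r
    have h1 := hcard r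
    have h2 := hcard r⁻¹
    linarith
  have hT₀ : (∑ g : G, F g * conj (F (r₀ * g * r₀⁻¹))).re < (Nat.card N : ℝ) := by
    have := hT r₀
    have h2 := hcard r₀⁻¹
    linarith
  have hsum : ∑ r : G, (∑ g : G, F g * conj (F (r * g * r⁻¹))).re <
      ∑ _r : G, (Nat.card N : ℝ) :=
    Finset.sum_lt_sum (fun r _ => hT' r) ⟨r₀, Finset.mem_univ _, hT₀⟩
  rw [Finset.sum_const, Finset.card_univ, nsmul_eq_mul, ← Nat.card_eq_fintype_card] at hsum
  have hmain := congrArg Complex.re (sum_conj_sq F)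
  rw [Complex.re_sum] at hmain
  have hl : ∀ g : G, ((∑ x : G, F (x⁻¹ * g * x)) * conj (∑ y : G, F (y⁻¹ * g * y))).re =
      Complex.normSq (∑ x : G, F (x⁻¹ * g * x)) := by
    intro g
    rw [Complex.mul_conj, Complex.ofReal_re]
  rw [Finset.sum_congr rfl (fun g _ => hl g)] at hmain
  have hcast : ((Fintype.card G : ℕ) : ℂ) = ((Nat.card G : ℝ) : ℂ) := by
    rw [Nat.card_eq_fintype_card]; push_cast; rfl
  rw [hmain, hcast, Complex.re_ofReal_mul, Complex.re_sum]
  have hGpos : (0 : ℝ) < Nat.card G := by exact_mod_cast Nat.card_pos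
  exact mul_lt_mul_of_pos_left hsum hGpos

/-- If `H M = G` with `M` normal then `|M : H ∩ M| = |G : H|`. -/
theorem relIndex_inf_of_sup_eq_top [Finite G] (H M : Subgroup G) [M.Normal] (h : H ⊔ M = ⊤) :
    (H ⊓ M).relIndex M = H.index := by
  have h1 : (H ⊓ M).relIndex M * M.index = (H ⊓ M).index :=
    Subgroup.relIndex_mul_index inf_le_right
  have h2 : (H ⊓ M).relIndex H * H.index = (H ⊓ M).index :=
    Subgroup.relIndex_mul_index inf_le_left
  have h3 : M.index = (H ⊓ M).relIndex H := by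
    rw [Subgroup.inf_relIndex_left, ← Subgroup.relIndex_sup_right H M, h, Subgroup.relIndex_top_right]
  have h4 : (H ⊓ M).relIndex H ≠ 0 := by
    intro h0
    rw [h0, zero_mul] at h2
    exact Subgroup.index_ne_zero_of_finite h2.symm
  rw [h3, ← h2, mul_comm] at h1
  exact Nat.eq_of_mul_eq_mul_left (Nat.pos_of_ne_zero h4) h1

theorem card_eq_card_mul_relIndex [Finite G] (C M : Subgroup G) (h : C ≤ M) :
    Nat.card M = Nat.card C * C.relIndex M := by
  have h1 := Subgroup.card_mul_index (C.subgroupOf M)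
  rw [Nat.card_congr (Subgroup.subgroupOfEquivOfLe h).toEquiv] at h1
  exact h1.symm

/-- **Main theorem**: a character induced from a maximal subgroup `H` with `G / L` solvable,
`L ≤ H` normal in `G`, and irreducible restriction of the inducing character to `L`, is not
quasi-primitive above `L`. -/
theorem qprim_main [Fintype G] (L H : Subgroup G) [hLn : L.Normal] (hLH : L ≤ H)
    (hmax : IsCoatom H) (hsolv : Group.IsSolvable (G ⧸ L)) (ϑ : H → ℂ)
    (hϑ : IsIrrCharacter H ϑ)
    (hϑL : IsIrrCharacter L (fun x : L => ϑ ⟨(x : G), hLH x.2⟩))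
    (hind : IsIrrCharacter G (indFun H ϑ)) :
    ∃ M : Subgroup G, M.Normal ∧ L ≤ M ∧ ¬ ∃ (φ : M → ℂ) (e : ℕ),
      IsIrrCharacter M φ ∧ (fun m : M => indFun H ϑ m) = (e : ℂ) • φ := by
  by_contra hcon
  push Not at hcon
  set χ := indFun H ϑ with hχdef
  have hϑc : IsCharacter H ϑ := Helper35.isChar_of_irr hϑ
  have hχc : IsCharacter G χ := Helper35.isChar_of_irr hind
  have hχcf : IsClassFunction G χ := Helper35.isClassFunction_of_isCharacter hχc
  have hϑ1 : ϑ 1 ≠ 0 := Helper83.irr_one_ne_zero hϑ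
  have hχ1 : χ 1 = (H.index : ℂ) * ϑ 1 := Helper35.indFun_one_eq H ϑ
  have hidx0 : H.index ≠ 0 := Subgroup.index_ne_zero_of_finite
  have hidx : (H.index : ℂ) ≠ 0 := by exact_mod_cast hidx0
  have hχ1ne : χ 1 ≠ 0 := by rw [hχ1]; exact mul_ne_zero hidx hϑ1
  -- the core
  set C := H.normalCore with hCdef
  haveI hCn : C.Normal := Subgroup.normalCore_normal H
  have hCH : C ≤ H := Subgroup.normalCore_le H
  have hLC : L ≤ C := Subgroup.normal_le_normalCore.mpr hLH
  have hCmax : ∀ K : Subgroup G, K.Normal → K ≤ H → K ≤ C := by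
    intro K hK hKH
    exact Subgroup.normal_le_normalCore.mpr hKH
  haveI hsolvC : Group.IsSolvable (G ⧸ C) := by
    haveI := hsolv
    exact solvable_of_surjective (f := QuotientGroup.map L C (MonoidHom.id G) hLC) (by
      intro x
      obtain ⟨g, rfl⟩ := QuotientGroup.mk_surjective x
      exact ⟨QuotientGroup.mk g, rfl⟩)
  have hϑC : IsIrrCharacter C (fun c : C => ϑ ⟨c, hCH c.2⟩) :=
    irr_res_mid L C H hLC hCH ϑ hϑc hϑL
  have hfr : classInner (Helper35.res H χ) ϑ = 1 := by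
    rw [← Helper35.frobenius_reciprocity' H ϑ χ hχcf, Helper35.classInner_irr' hind hind,
      if_pos rfl]
  have hδ : IsCharacter H (Helper35.res H χ - ϑ) :=
    Helper20.sub_constituent (Helper35.isCharacter_res H hχc) hϑ (by rw [hfr]; exact one_ne_zero)
  obtain ⟨φ, e, hφ, hφe⟩ := hcon C hCn hLC
  have hconst : classInner (fun c : C => χ c) (fun c : C => ϑ ⟨c, hCH c.2⟩) ≠ 0 := by
    have h1 : (fun c : C => χ c) = (fun c : C => ϑ ⟨c, hCH c.2⟩) +
        (fun c : C => (Helper35.res H χ - ϑ) ⟨c, hCH c.2⟩) := by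
      funext c
      simp [Helper35.res]
    have hδC : IsCharacter C (fun c : C => (Helper35.res H χ - ϑ) ⟨c, hCH c.2⟩) :=
      Helper20.isCharacter_comp (Subgroup.inclusion hCH) hδ
    obtain ⟨k, hk⟩ := Helper35.classInner_char_nat hδC (Helper35.isChar_of_irr hϑC)
    rw [h1, Helper35.classInner_add_left, Helper35.classInner_irr' hϑC hϑC, if_pos rfl, hk]
    exact_mod_cast (Nat.succ_ne_zero k ∘ fun h => by omega : 1 + k ≠ 0)
  have hφeq : φ = fun c : C => ϑ ⟨c, hCH c.2⟩ := by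
    by_contra hne
    apply hconst
    rw [hφe, Helper35.classInner_smul_left, Helper35.classInner_irr' hφ hϑC, if_neg hne, mul_zero]
  have hef : (e : ℂ) = H.index := by
    have h1 := congrFun hφe 1
    simp only [Pi.smul_apply, smul_eq_mul] at h1
    rw [hφeq] at h1
    have h1' : χ 1 = (e : ℂ) * ϑ 1 := h1
    rw [hχ1] at h1'
    exact (mul_right_cancel₀ hϑ1 h1').symm
  have hχC : ∀ c (hc : c ∈ C), χ c = (H.index : ℂ) * ϑ ⟨c, hCH hc⟩ := by
    intro c hc
    have h1 := congrFun hφe ⟨c, hc⟩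
    simp only [Pi.smul_apply, smul_eq_mul] at h1
    rw [hφeq, hef] at h1
    exact h1
  have hne : H ≠ C := by
    intro hHC
    have h1 : Helper35.res H χ = (H.index : ℂ) • ϑ := by
      funext h
      have hh : (h : G) ∈ C := by rw [← hHC]; exact h.2
      simpa [Helper35.res] using hχC h hh
    rw [h1, Helper35.classInner_smul_left, Helper35.classInner_irr' hϑ hϑ, if_pos rfl,
      mul_one] at hfr
    have h2 : H.index = 1 := by exact_mod_cast hfr
    exact hmax.1 (Subgroup.index_eq_one.mp h2)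
  obtain ⟨p, M, N, hp, hMn, hCM, hHM, hHMi, ⟨k, hk⟩, hCN, hNH, hNC, hNnorm, hpN⟩ :=
    coatom_structure H C hmax hCH hCmax hne
  haveI := hMn
  have hfM : C.relIndex M = H.index := by
    have := relIndex_inf_of_sup_eq_top H M hHM
    rwa [hHMi] at this
  have hcardM : Nat.card M = Nat.card C * H.index := by
    rw [← hfM]; exact card_eq_card_mul_relIndex C M hCM
  have hCpos : (0 : ℝ) < Nat.card C := by exact_mod_cast Nat.card_pos
  have hfpos : (0 : ℝ) < H.index := by exact_mod_cast Nat.pos_of_ne_zero hidx0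
  have hHpos : (0 : ℝ) < Nat.card H := by exact_mod_cast Nat.card_pos
  -- the restriction to `M`
  obtain ⟨ψ, eM, hψ, hψe⟩ := hcon M hMn (hLC.trans hCM)
  have hnormM := homog_norm M χ ψ eM hψ hψe
  have hvanish : ∀ g, g ∈ M → g ∉ C → χ g = 0 := by
    intro g hgM hgC
    rw [hχdef]
    unfold indFun
    rw [Finset.sum_eq_zero, mul_zero]
    intro x _
    apply Helper35.ext_not_mem
    intro hx
    apply hgC
    have h1 : x⁻¹ * g * x ∈ H ⊓ M :=
      ⟨hx, by have := hMn.conj_mem g hgM x⁻¹; simpa using this⟩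
    rw [hHMi] at h1
    have h2 := hCn.conj_mem _ h1 x
    simpa [mul_assoc] using h2
  have hnormM' : ∑ g : G, (if g ∈ M then Complex.normSq (χ g) else 0) =
      (H.index : ℝ) ^ 2 * Nat.card C := by
    rw [← sum_normSq_mid C C H le_rfl hCH ϑ hϑc hϑC, Finset.mul_sum]
    refine Finset.sum_congr rfl fun g _ => ?_
    by_cases hgC : g ∈ C
    · rw [if_pos (hCM hgC), if_pos hgC, hχC g hgC, Helper35.ext_mem H ϑ g (hCH hgC),
        Complex.normSq_mul, Complex.normSq_natCast]
      ring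
    · rw [if_neg hgC, mul_zero]
      by_cases hgM : g ∈ M
      · rw [if_pos hgM, hvanish g hgM hgC, map_zero]
      · rw [if_neg hgM]
  have he2 : eM ^ 2 = H.index := by
    have h1 : (eM : ℝ) ^ 2 * Nat.card M = (H.index : ℝ) ^ 2 * Nat.card C :=
      hnormM.symm.trans hnormM'
    rw [hcardM] at h1
    push_cast at h1
    have h2 : (eM : ℝ) ^ 2 = H.index :=
      mul_right_cancel₀ (ne_of_gt (mul_pos hCpos hfpos)) (h1.trans (by ring))
    exact_mod_cast h2
  -- the subgroup `G₁ = M N`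
  set G₁ := M ⊔ N with hG₁
  have hMG₁ : M ≤ G₁ := le_sup_left
  have hNG₁ : N ≤ G₁ := le_sup_right
  haveI hG₁n : G₁.Normal := by
    apply normal_of_sup_eq_top H M G₁ hHM
    · intro h hh x hx
      have hle : G₁ ≤ G₁.comap (MulAut.conj h).toMonoidHom := by
        rw [hG₁]
        refine sup_le ?_ ?_
        · intro m hm
          exact hMG₁ (hMn.conj_mem m hm h)
        · intro y hy
          exact hNG₁ (hNnorm h hh y hy)
      exact hle hx
    · intro m hm x hx
      exact G₁.mul_mem (G₁.mul_mem (hMG₁ hm) hx) (G₁.inv_mem (hMG₁ hm))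
  obtain ⟨ξ, e₁, hξ, hξe⟩ := hcon G₁ hG₁n (hLC.trans (hCM.trans hMG₁))
  have hnorm₁ := homog_norm G₁ χ ξ e₁ hξ hξe
  set N₁ := H ⊓ G₁ with hN₁
  have hCN₁ : C ≤ N₁ := le_inf hCH (hCM.trans hMG₁)
  have hHG₁ : H ⊔ G₁ = ⊤ := by
    apply top_le_iff.mp
    rw [← hHM]
    exact sup_le_sup_left hMG₁ H
  have hcardG₁ : Nat.card G₁ = Nat.card N₁ * H.index := by
    rw [card_eq_card_mul_relIndex N₁ G₁ inf_le_right, relIndex_inf_of_sup_eq_top H G₁ hHG₁]
  have hr₀ : ∃ r₀ : G, ∃ g ∈ N₁, r₀ * g * r₀⁻¹ ∉ N₁ := by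
    by_contra hno
    push Not at hno
    have hN₁n : N₁.Normal := ⟨fun g hg r => hno r g hg⟩
    have h1 : N₁ ≤ C := hCmax N₁ hN₁n inf_le_left
    exact hNC (le_antisymm ((le_inf hNH hNG₁).trans h1) hCN)
  obtain ⟨r₀, hr₀⟩ := hr₀
  set F : G → ℂ := fun g => if g ∈ G₁ then extendByZero H ϑ g else 0 with hF
  have hFsupp : ∀ g, g ∉ N₁ → F g = 0 := by
    intro g hg
    simp only [hF]
    split_ifs with h1
    · exact Helper35.ext_not_mem H ϑ g (fun h2 => hg ⟨h2, h1⟩)
    · rfl
  have hFP : ∀ D : Subgroup G, C ≤ D → D ≤ N₁ →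
      ∑ g : G, (if g ∈ D then Complex.normSq (F g) else 0) = (Nat.card D : ℝ) := by
    intro D hCD hDN
    rw [← sum_normSq_mid C D H hCD (hDN.trans inf_le_left) ϑ hϑc hϑC]
    refine Finset.sum_congr rfl fun g _ => ?_
    by_cases hg : g ∈ D
    · rw [if_pos hg, if_pos hg]
      simp only [hF]
      have hgG : g ∈ G₁ := (hDN hg).2
      rw [if_pos hgG]
    · rw [if_neg hg, if_neg hg]
  have hbound := ind_norm_bound N₁ C hCN₁ F hFsupp hFP r₀ hr₀
  have hHc : (Nat.card H : ℂ) ≠ 0 := by exact_mod_cast (Nat.card_pos (α := H)).ne'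
  have hsumF : ∀ g : G, ∑ x : G, F (x⁻¹ * g * x) =
      if g ∈ G₁ then (Nat.card H : ℂ) * χ g else 0 := by
    intro g
    by_cases hg : g ∈ G₁
    · rw [if_pos hg, hχdef]
      unfold indFun
      rw [← mul_assoc, mul_inv_cancel₀ hHc, one_mul]
      refine Finset.sum_congr rfl fun x _ => ?_
      simp only [hF]
      rw [if_pos]
      have := hG₁n.conj_mem g hg x⁻¹
      simpa using this
    · rw [if_neg hg]
      apply Finset.sum_eq_zero
      intro x _
      simp only [hF]
      rw [if_neg]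
      intro hx
      apply hg
      have := hG₁n.conj_mem _ hx x
      simpa [mul_assoc] using this
  have hbound' : (Nat.card H : ℝ) ^ 2 * ((e₁ : ℝ) ^ 2 * Nat.card G₁) <
      (Nat.card G : ℝ) * ((Nat.card G : ℝ) * Nat.card N₁) := by
    rw [← hnorm₁, Finset.mul_sum]
    refine lt_of_eq_of_lt ?_ hbound
    refine Finset.sum_congr rfl fun g _ => ?_
    rw [hsumF g]
    by_cases hg : g ∈ G₁
    · rw [if_pos hg, if_pos hg, Complex.normSq_mul, Complex.normSq_natCast]
      ring
    · rw [if_neg hg, if_neg hg, map_zero, mul_zero]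
  have he₁lt : e₁ ^ 2 < H.index := by
    have hG : Nat.card G = Nat.card H * H.index := (Subgroup.card_mul_index H).symm
    rw [hcardG₁, hG] at hbound'
    push_cast at hbound'
    have hNpos : (0 : ℝ) < Nat.card N₁ := by exact_mod_cast Nat.card_pos
    have : (e₁ : ℝ) ^ 2 < H.index := by
      by_contra hge
      push Not at hge
      have h3 : (0 : ℝ) ≤ (Nat.card H : ℝ) ^ 2 * (Nat.card N₁ * H.index) := by positivity
      nlinarith [mul_le_mul_of_nonneg_left hge h3]
    exact_mod_cast this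
  -- degrees
  obtain ⟨hcpos, hc⟩ := Helper83.irr_degree hξ
  obtain ⟨hdpos, hd⟩ := Helper83.irr_degree hψ
  generalize charDegree ξ = c at hcpos hc
  generalize charDegree ψ = d at hdpos hd
  have h1c : χ 1 = (e₁ : ℂ) * c := by
    have h := congrFun hξe 1
    simp only [Pi.smul_apply, smul_eq_mul] at h
    rw [← hc]; exact h
  have h1d : χ 1 = (eM : ℂ) * d := by
    have h := congrFun hψe 1
    simp only [Pi.smul_apply, smul_eq_mul] at h
    rw [← hd]; exact h
  have hnat : e₁ * c = eM * d := by exact_mod_cast h1c.symm.trans h1d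
  have he₁ne : e₁ ≠ 0 := by
    rintro rfl
    rw [Nat.cast_zero, zero_mul] at h1c
    exact hχ1ne h1c
  have heMne : eM ≠ 0 := by
    rintro rfl
    rw [Nat.cast_zero, zero_mul] at h1d
    exact hχ1ne h1d
  have he₁c : (e₁ : ℂ) ≠ 0 := by exact_mod_cast he₁ne
  have heMc : (eM : ℂ) ≠ 0 := by exact_mod_cast heMne
  set M' : Subgroup G₁ := M.subgroupOf G₁ with hM'
  haveI : M'.Normal := by rw [hM']; infer_instance
  set ψ' : M' → ℂ := fun m => ψ ⟨((m : G₁) : G), Subgroup.mem_subgroupOf.mp m.2⟩ with hψ'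
  have hψ'irr : IsIrrCharacter M' ψ' :=
    Helper20.irr_comp_surjective (Subgroup.subgroupOfEquivOfLe hMG₁).toMonoidHom
      (Subgroup.subgroupOfEquivOfLe hMG₁).surjective hψ
  have hres : (fun n : M' => ξ n) = ((eM : ℂ) / e₁) • ψ' := by
    funext m
    have h1 := congrFun hξe (m : G₁)
    have h2 := congrFun hψe ⟨((m : G₁) : G), Subgroup.mem_subgroupOf.mp m.2⟩
    simp only [Pi.smul_apply, smul_eq_mul] at h1 h2 ⊢
    rw [div_mul_eq_mul_div, eq_div_iff he₁c, mul_comm, ← h1]
    exact h2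
  have hcon' : classInner (fun n : M' => ξ n) ψ' ≠ 0 := by
    rw [hres, Helper35.classInner_smul_left, Helper35.classInner_irr' hψ'irr hψ'irr, if_pos rfl,
      mul_one]
    exact div_ne_zero heMc he₁c
  have h887 := Cfsg.Agent.S0887.result M' ξ hξ ψ' hψ'irr hcon' c d hc hd
  obtain ⟨hdc, hq⟩ := h887
  obtain ⟨q, hq'⟩ := hdc
  have hq2 : c / d = q := by rw [hq']; exact Nat.mul_div_cancel_left q hdpos
  rw [hq2] at hq
  have h3 : e₁ * q = eM := by
    have h4 : e₁ * (d * q) = eM * d := by rw [← hq']; exact hnat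
    exact Nat.eq_of_mul_eq_mul_left hdpos (by rw [mul_comm d eM, ← h4]; ring)
  have hidx' : M'.index = C.relIndex N := by
    show M.relIndex G₁ = C.relIndex N
    rw [hG₁, Subgroup.relIndex_sup_left, ← Subgroup.inf_relIndex_right]
    congr 1
    apply le_antisymm
    · rw [← hHMi]
      exact le_inf (inf_le_right.trans hNH) inf_le_left
    · exact le_inf hCM hCN
  rw [hidx'] at hq
  have hq1 : q = 1 := by
    have h4 : q ∣ p ^ k := by
      rw [← hk, hfM, ← he2, ← h3]
      exact Dvd.intro_left (e₁ * (e₁ * q)) (by ring)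
    have hcop : Nat.Coprime (p ^ k) (C.relIndex N) :=
      Nat.Coprime.pow_left k ((Nat.Prime.coprime_iff_not_dvd hp).mpr hpN)
    exact Nat.Coprime.eq_one_of_dvd (Nat.Coprime.coprime_dvd_left h4 hcop) hq
  rw [hq1, mul_one] at h3
  rw [h3, he2] at he₁lt
  exact lt_irrefl _ he₁lt

end QP

end Cfsg.Agent.Lib.Helper21
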