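import Mathlib
import Cfsg.Agent.S0680
import Cfsg.Agent.S0728

/-!
# S0730, part A: elementwise form of sharp 3-transitivity and the kernel package
-/

set_option autoImplicit false

namespace Cfsg.Agent.Lib.Helper21.S730

open MulAction

variable {α : Type*} [Fintype α] [DecidableEq α]

/-- elementwise 3-transitivity -/
theorem el_trans3 (G : Subgroup (Equiv.Perm α)) (h3 : MulAction.IsMultiplyPretransitive G α 3)
    {u v w u' v' w' : α} (huv : u ≠ v) (huw : u ≠ w) (hvw : v ≠ w) (huv' : u' ≠ v')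
    (huw' : u' ≠ w') (hvw' : v' ≠ w') : ∃ g ∈ G, g u = u' ∧ g v = v' ∧ g w = w' := by
  obtain ⟨g, h1, h2, h3'⟩ := Cfsg.Agent.S0728.trans3 h3 huv huw hvw huv' huw' hvw'
  exact ⟨g, g.2, h1, h2, h3'⟩

/-- elementwise sharpness -/
theorem el_fix3 (G : Subgroup (Equiv.Perm α))
    (hsharp : ∀ x : Fin 3 ↪ α, MulAction.stabilizer G x = ⊥) :
    ∀ g ∈ G, ∀ u v w : α, u ≠ v → u ≠ w → v ≠ w → g u = u → g v = v → g w = w → g = 1 := by
  intro g hg u v w huv huw hvw hu hv hw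
  have := Cfsg.Agent.S0728.fix3 hsharp (⟨g, hg⟩ : G) huv huw hvw hu hv hw
  exact congrArg Subtype.val this

/-- the order of a sharply 3-transitive group -/
theorem card_sharp3 (G : Subgroup (Equiv.Perm α)) (h3 : MulAction.IsMultiplyPretransitive G α 3)
    (hsharp : ∀ x : Fin 3 ↪ α, MulAction.stabilizer G x = ⊥) (h3c : 3 ≤ Fintype.card α) :
    Nat.card G = (Fintype.card α).descFactorial 3 := by
  classical
  have hne : Nonempty (Fin 3 ↪ α) := by
    rw [Function.Embedding.nonempty_iff_card_le]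
    simpa using h3c
  obtain ⟨x₀⟩ := hne
  have hbij : Function.Bijective (fun g : G => g • x₀) := by
    constructor
    · intro g g' hgg
      have h1 : g'⁻¹ * g ∈ MulAction.stabilizer G x₀ := by
        rw [MulAction.mem_stabilizer_iff, mul_smul]
        show g'⁻¹ • (g • x₀) = x₀
        simp only at hgg
        rw [hgg]
        exact inv_smul_smul g' x₀
      rw [hsharp, Subgroup.mem_bot] at h1
      exact (inv_mul_eq_one.mp h1).symm
    · intro y
      exact h3.exists_smul_eq x₀ y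
  rw [Nat.card_congr (Equiv.ofBijective _ hbij), Nat.card_eq_fintype_card,
    Fintype.card_embedding_eq, Fintype.card_fin]

/-- **Kernel package**: the point stabiliser of a sharply 3-transitive group has an elementary
abelian normal subgroup acting regularly on the remaining points. -/
theorem kernel_pkg (G : Subgroup (Equiv.Perm α)) (h3 : MulAction.IsMultiplyPretransitive G α 3)
    (hsharp : ∀ x : Fin 3 ↪ α, MulAction.stabilizer G x = ⊥) (h3c : 3 ≤ Fintype.card α) (a : α) :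
    ∃ (N : Subgroup (Equiv.Perm α)) (p j : ℕ), p.Prime ∧ 1 ≤ j ∧ Fintype.card α = p ^ j + 1 ∧
      N ≤ G ∧ (∀ n ∈ N, n a = a) ∧ (∀ g ∈ G, g a = a → ∀ n ∈ N, g * n * g⁻¹ ∈ N) ∧
      (∀ y z : α, y ≠ a → z ≠ a → ∃ n ∈ N, n y = z) ∧
      (∀ n ∈ N, ∀ y : α, y ≠ a → n y = y → n = 1) ∧
      (∀ n ∈ N, ∀ n' ∈ N, n * n' = n' * n) ∧ (∀ n ∈ N, n ^ p = 1) ∧ Nat.card N = p ^ j := by
  classical
  haveI : Fintype ↥(stabilizer G a) := Fintype.ofFinite _
  haveI : Fintype ↥(SubMulAction.ofStabilizer G a) := Fintype.ofFinite _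
  have hcardβ : Fintype.card ↥(SubMulAction.ofStabilizer G a) + 1 = Fintype.card α := by
    have := SubMulAction.nat_card_ofStabilizer_add_one_eq (G := G) a
    rw [Nat.card_eq_fintype_card, Nat.card_eq_fintype_card] at this
    exact this
  have hval : ∀ (g : ↥(stabilizer G a)) (x : ↥(SubMulAction.ofStabilizer G a)),
      ((g • x : ↥(SubMulAction.ofStabilizer G a)) : α) = ((g : G) : Equiv.Perm α) (x : α) :=
    fun _ _ => rfl
  have hne : ∀ x : ↥(SubMulAction.ofStabilizer G a), (x : α) ≠ a := fun x =>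
    (SubMulAction.mem_ofStabilizer_iff _ a).mp x.2
  have hT : ∀ x y x' y' : ↥(SubMulAction.ofStabilizer G a), x ≠ y → x' ≠ y' →
      ∃ g : ↥(stabilizer G a), g • x = x' ∧ g • y = y' := by
    intro x y x' y' hxy hxy'
    have h1 : (x : α) ≠ y := fun h => hxy (Subtype.ext h)
    have h2 : (x' : α) ≠ y' := fun h => hxy' (Subtype.ext h)
    obtain ⟨g, hga, hgx, hgy⟩ := Cfsg.Agent.S0728.trans3 h3 (hne x).symm (hne y).symm h1
      (hne x').symm (hne y').symm h2
    exact ⟨⟨g, hga⟩, Subtype.ext hgx, Subtype.ext hgy⟩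
  have hU : ∀ (g : ↥(stabilizer G a)) (x y : ↥(SubMulAction.ofStabilizer G a)), x ≠ y →
      g • x = x → g • y = y → g = 1 := by
    intro g x y hxy hgx hgy
    have h1 : (x : α) ≠ y := fun h => hxy (Subtype.ext h)
    apply Subtype.ext
    exact Cfsg.Agent.S0728.fix3 hsharp (g : G) (hne x).symm (hne y).symm h1 g.2
      (congrArg Subtype.val hgx) (congrArg Subtype.val hgy)
  obtain ⟨N₀, p, j, hpp, hj1, hj, hNmem, hNnorm, hNcomm, hNp, hNtrans, -⟩ :=
    Cfsg.Agent.S0680.main hT hU (by omega)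
  haveI := hNnorm
  -- lifting points
  have hpt : ∀ y : α, y ≠ a → ∃ x : ↥(SubMulAction.ofStabilizer G a), (x : α) = y := fun y hy =>
    ⟨⟨y, (SubMulAction.mem_ofStabilizer_iff _ a).mpr hy⟩, rfl⟩
  -- freeness of N₀
  have hfree : ∀ k ∈ N₀, ∀ x : ↥(SubMulAction.ofStabilizer G a), k • x = x → k = 1 := by
    intro k hk x hkx
    rcases (hNmem k).mp hk with h | h
    · exact h
    · exact absurd hkx (h x)
  let N : Subgroup (Equiv.Perm α) := (N₀.map (stabilizer G a).subtype).map G.subtype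
  have hNiff : ∀ σ : Equiv.Perm α, σ ∈ N ↔ ∃ (hσ : σ ∈ G) (hσa : (⟨σ, hσ⟩ : G) ∈ stabilizer G a),
      (⟨⟨σ, hσ⟩, hσa⟩ : ↥(stabilizer G a)) ∈ N₀ := by
    intro σ
    constructor
    · rintro ⟨g, ⟨k, hk, rfl⟩, rfl⟩
      exact ⟨(k : G).2, k.2, hk⟩
    · rintro ⟨hσ, hσa, hk⟩
      exact ⟨⟨σ, hσ⟩, ⟨⟨⟨σ, hσ⟩, hσa⟩, hk, rfl⟩, rfl⟩
  have hcardN₀ : Nat.card ↥N₀ = p ^ j := by
    obtain ⟨b, hb⟩ : ∃ b : α, b ≠ a := by
      by_contra hcon
      push Not at hcon
      have : Fintype.card α ≤ 1 :=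
        Fintype.card_le_one_iff.mpr (fun x y => by rw [hcon x, hcon y])
      omega
    obtain ⟨b', hb'⟩ := hpt b hb
    rw [← hj, ← Nat.card_eq_fintype_card]
    apply Nat.card_congr
    refine Equiv.ofBijective (fun k : ↥N₀ => (k : ↥(stabilizer G a)) • b') ⟨?_, ?_⟩
    · intro k k' hkk
      have h1 : ((k' : ↥(stabilizer G a))⁻¹ * k) • b' = b' := by
        simp only at hkk
        rw [mul_smul, hkk, inv_smul_smul]
      have h2 := hfree _ (N₀.mul_mem (N₀.inv_mem k'.2) k.2) b' h1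
      apply Subtype.ext
      exact (inv_mul_eq_one.mp h2).symm
    · intro y
      obtain ⟨k, hk, hky⟩ := hNtrans b' y
      exact ⟨⟨k, hk⟩, hky⟩
  refine ⟨N, p, j, hpp, hj1, by omega, ?_, ?_, ?_, ?_, ?_, ?_, ?_, ?_⟩
  · intro σ hσ
    obtain ⟨hσG, -, -⟩ := (hNiff σ).mp hσ
    exact hσG
  · intro σ hσ
    obtain ⟨hσG, hσa, -⟩ := (hNiff σ).mp hσ
    exact hσa
  · intro g hg hga σ hσ
    obtain ⟨hσG, hσa, hk⟩ := (hNiff σ).mp hσ
    have hga' : (⟨g, hg⟩ : G) ∈ stabilizer G a := hga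
    have := hNnorm.conj_mem _ hk ⟨⟨g, hg⟩, hga'⟩
    rw [hNiff]
    exact ⟨G.mul_mem (G.mul_mem hg hσG) (G.inv_mem hg),
      (stabilizer G a).mul_mem ((stabilizer G a).mul_mem hga' hσa) ((stabilizer G a).inv_mem hga'),
      this⟩
  · intro y z hy hz
    obtain ⟨y', hy'⟩ := hpt y hy
    obtain ⟨z', hz'⟩ := hpt z hz
    obtain ⟨k, hk, hky⟩ := hNtrans y' z'
    refine ⟨((k : G) : Equiv.Perm α), (hNiff _).mpr ⟨(k : G).2, k.2, hk⟩, ?_⟩
    rw [← hy', ← hz', ← hky, hval]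
  · intro σ hσ y hy hσy
    obtain ⟨hσG, hσa, hk⟩ := (hNiff σ).mp hσ
    obtain ⟨y', hy'⟩ := hpt y hy
    have h1 : (⟨⟨σ, hσG⟩, hσa⟩ : ↥(stabilizer G a)) • y' = y' := by
      apply Subtype.ext
      rw [hval, hy']
      exact hσy
    have h2 := hfree _ hk y' h1
    have h3' := congrArg (fun k : ↥(stabilizer G a) => ((k : G) : Equiv.Perm α)) h2
    exact h3'
  · intro σ hσ τ hτ
    obtain ⟨hσG, hσa, hk⟩ := (hNiff σ).mp hσ
    obtain ⟨hτG, hτa, hk'⟩ := (hNiff τ).mp hτ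
    have := hNcomm _ _ hk hk'
    have h3' := congrArg (fun k : ↥(stabilizer G a) => ((k : G) : Equiv.Perm α)) this
    exact h3'
  · intro σ hσ
    obtain ⟨hσG, hσa, hk⟩ := (hNiff σ).mp hσ
    have := hNp _ hk
    have h3' := congrArg (fun k : ↥(stabilizer G a) => ((k : G) : Equiv.Perm α)) this
    simpa using h3'
  · rw [← hcardN₀]
    have e1 : Nat.card ↥N = Nat.card ↥(N₀.map (stabilizer G a).subtype) :=
      (Nat.card_congr (Subgroup.equivMapOfInjective _ G.subtype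
        G.subtype_injective).toEquiv).symm
    have e2 : Nat.card ↥(N₀.map (stabilizer G a).subtype) = Nat.card ↥N₀ :=
      (Nat.card_congr (Subgroup.equivMapOfInjective _ (stabilizer G a).subtype
        (stabilizer G a).subtype_injective).toEquiv).symm
    rw [e1, e2]

end Cfsg.Agent.Lib.Helper21.S730
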