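import Mathlib

/-!
# S5976 project (helper47), piece FIELDODD

`field_odd`: if `n = ord_r(q)` is odd, there are `A ∈ M_n(F)` and `g ∈ F[X]` with `A ^ r = 1`, `A`
without non-zero fixed vectors, `g(A) = 0` and `g((A^(r-1))ᵀ)` invertible.  `A` is the matrix of the
multiplication by an element `λ` of order `r` of the extension of degree `n` of `F`, and `g` is
the minimal polynomial of `λ`; `λ⁻¹` is not a Frobenius conjugate of `λ` because `n` is odd.
-/

set_option autoImplicit false

universe u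

namespace Cfsg.Agent.Lib.Helper21.S76FIELDODD

open Matrix Polynomial

variable {F : Type u} [Field F]

theorem fo_aeval_transpose {n : ℕ} (M : Matrix (Fin n) (Fin n) F) (g : F[X]) :
    aeval Mᵀ g = (aeval M g)ᵀ := by
  rw [Polynomial.aeval_eq_sum_range, Polynomial.aeval_eq_sum_range, Matrix.transpose_sum]
  refine Finset.sum_congr rfl fun i _ => ?_
  rw [Matrix.transpose_smul, Matrix.transpose_pow]

theorem field_odd [Fintype F] {p : ℕ} [Fact p.Prime] [CharP F p] {q : ℕ}
    (hq : Fintype.card F = q) (r : ℕ) (hr : r.Prime) (hr2 : r ≠ 2) (hrp : r ≠ p) (n : ℕ)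
    (hn : n = orderOf (q : ZMod r)) (hodd : Odd n) :
    ∃ (A : Matrix (Fin n) (Fin n) F) (g : F[X]), A ^ r = 1 ∧ (∀ v, A *ᵥ v = v → v = 0) ∧
      aeval A g = 0 ∧ IsUnit (aeval ((A ^ (r - 1))ᵀ) g) := by
  classical
  have : Fact r.Prime := ⟨hr⟩
  have hp : p.Prime := Fact.out
  have : NeZero n := ⟨by rcases hodd with ⟨k, rfl⟩; omega⟩
  obtain ⟨k, hk⟩ := FiniteField.card F p
  have hqp : q = p ^ (k : ℕ) := by rw [← hq, hk.2]
  have hq0 : (q : ZMod r) ≠ 0 := by
    rw [Ne, ZMod.natCast_eq_zero_iff]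
    intro h
    rw [hqp] at h
    exact hrp ((Nat.prime_dvd_prime_iff_eq hr hp).1 (hr.dvd_of_dvd_pow h))
  have hqn : (q : ZMod r) ^ n = 1 := by rw [hn]; exact pow_orderOf_eq_one _
  have hcardE : Nat.card (FiniteField.Extension F p n) = q ^ n := by
    rw [FiniteField.natCard_extension, Nat.card_eq_fintype_card, hq]
  have hfr : Module.finrank F (FiniteField.Extension F p n) = n :=
    FiniteField.finrank_extension F p n
  have hq1 : 1 ≤ q ^ n := Nat.one_le_pow _ _ (by rw [hqp]; exact pow_pos hp.pos _)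
  have hrdvd : r ∣ q ^ n - 1 := by
    rw [← ZMod.natCast_eq_zero_iff, Nat.cast_sub hq1, Nat.cast_pow, hqn, Nat.cast_one, sub_self]
  have hcardU : Nat.card (FiniteField.Extension F p n)ˣ = q ^ n - 1 := by
    rw [Nat.card_units, hcardE]
  obtain ⟨lamU, hlamU⟩ := exists_prime_orderOf_dvd_card' r (by rw [hcardU]; exact hrdvd)
  obtain ⟨lam, hlam⟩ : ∃ lam : FiniteField.Extension F p n, lam = (lamU : FiniteField.Extension F p n) :=
    ⟨_, rfl⟩
  have hord : orderOf lam = r := by rw [hlam, orderOf_units]; exact hlamU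
  have hlamr : lam ^ r = 1 := by rw [← hord]; exact pow_orderOf_eq_one _
  have hlam1 : lam ≠ 1 := by
    intro h
    rw [h, orderOf_one] at hord
    exact hr.one_lt.ne hord
  obtain ⟨b⟩ : Nonempty (Module.Basis (Fin n) F (FiniteField.Extension F p n)) :=
    ⟨Module.finBasisOfFinrankEq F _ hfr⟩
  obtain ⟨L, hL⟩ : ∃ L : FiniteField.Extension F p n →ₐ[F] Matrix (Fin n) (Fin n) F,
      L = Algebra.leftMulMatrix b := ⟨_, rfl⟩
  have hLunit : ∀ x : FiniteField.Extension F p n, x ≠ 0 → IsUnit (L x) :=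
    fun x hx => (IsUnit.mk0 x hx).map L
  refine ⟨L lam, minpoly F lam, ?_, ?_, ?_, ?_⟩
  · rw [← map_pow, hlamr, map_one]
  · intro v hv
    have h1 : IsUnit (L (lam - 1)) := hLunit _ (sub_ne_zero.2 hlam1)
    have h2 : (L (lam - 1)) *ᵥ v = (L (lam - 1)) *ᵥ 0 := by
      rw [map_sub, map_one, Matrix.sub_mulVec, hv, Matrix.one_mulVec, sub_self, Matrix.mulVec_zero]
    exact (Matrix.mulVec_injective_iff_isUnit.2 h1) h2
  · rw [Polynomial.aeval_algHom_apply, minpoly.aeval, map_zero]
  · rw [fo_aeval_transpose, Matrix.isUnit_transpose, ← map_pow, Polynomial.aeval_algHom_apply]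
    apply hLunit
    intro hroot
    have halg : IsAlgebraic F lam := Algebra.IsAlgebraic.isAlgebraic lam
    obtain ⟨σ, hσ⟩ := minpoly.exists_algEquiv_of_root' halg hroot
    obtain ⟨j, hj, hjσ⟩ := FiniteField.Extension.exists_frob_pow_eq F p n σ
    have h3 : lam ^ (Nat.card F ^ j) = lam ^ (r - 1) := by
      rw [← FiniteField.Extension.frob_iterate_apply F p n j, hjσ]
      exact hσ
    rw [Nat.card_eq_fintype_card, hq] at h3
    have h3' : lamU ^ (q ^ j) = lamU ^ (r - 1) := by
      apply Units.ext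
      rw [Units.val_pow_eq_pow_val, Units.val_pow_eq_pow_val, ← hlam]
      exact h3
    have h4 : q ^ j ≡ r - 1 [MOD r] := by
      have h := pow_eq_pow_iff_modEq.1 h3'
      rwa [hlamU] at h
    have h5 : (q : ZMod r) ^ j = -1 := by
      have h := (ZMod.natCast_eq_natCast_iff _ _ _).2 h4
      rw [Nat.cast_pow, Nat.cast_sub hr.one_lt.le, ZMod.natCast_self, Nat.cast_one, zero_sub] at h
      exact h
    have h6 : (q : ZMod r) ^ (2 * j) = 1 := by
      rw [mul_comm, pow_mul, h5]
      norm_num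
    have h7 : n ∣ 2 * j := by
      rw [hn]
      exact orderOf_dvd_of_pow_eq_one h6
    have h8 : n ∣ j := (Nat.Coprime.dvd_mul_left (Nat.coprime_two_right.2 hodd)).1 h7
    have h9 : (q : ZMod r) ^ j = 1 := by
      obtain ⟨c, rfl⟩ := h8
      rw [pow_mul, hqn, one_pow]
    rw [h9] at h5
    have h10 : ((2 : ℕ) : ZMod r) = 0 := by
      push_cast
      linear_combination h5
    rw [ZMod.natCast_eq_zero_iff] at h10
    exact hr2 ((Nat.prime_dvd_prime_iff_eq hr Nat.prime_two).1 h10)

end Cfsg.Agent.Lib.Helper21.S76FIELDODD
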