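import Mathlib
import Cfsg.Agent.Lib.Helper52.SP8EBDefs

/-! SP8-EB (sub-project of S5823, architect helper52), piece MINB: move a quaternion factor to
another position by a swap of the tensor factors. -/

set_option autoImplicit false

namespace Cfsg.Agent.Lib.Helper52.SP8EB

open Matrix Cfsg.Geo Cfsg.Agent.Lib.Helper71.Asch

variable {n : ℕ} {F : Type*} [Field F] [Fintype F]

/-- MINB. -/
theorem MINB (f : (Fin n → F) → (Fin n → F) → F) (e : Fin n ≃ (Fin 3 → Fin 2)) (P : GL (Fin n) F)
    (hpg : HPermG f e P) (hpgl : HPermGL e P) (hpc : HPermConj F) (hglof : HGlof e P)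
    (hinv : HQinv F) (L' : Subgroup (GL (Fin n) F)) (hN : Nrm (Gsub f e P) L') (i₀ : Fin 3)
    (h : HasFactor e P L' i₀) (i : Fin 3) : HasFactor e P L' i := by
  intro y hy g hg
  have hσs : (Equiv.swap i₀ i).symm = Equiv.swap i₀ i := Equiv.symm_swap i₀ i
  obtain ⟨gσ, hgσ, hgσi⟩ := hpgl (Equiv.swap i₀ i)
  have hgσG : gσ ∈ Gsub f e P := hpg (Equiv.swap i₀ i) gσ hgσ
  obtain ⟨y', hy', hyy', hy'y⟩ := hinv y hy
  obtain ⟨g₀, hg₀, -⟩ := hglof (Function.update (fun _ => 1) i₀ y)
    (Function.update (fun _ => 1) i₀ y') (by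
      intro j
      by_cases hj : j = i₀
      · subst hj
        rw [Function.update_self, Function.update_self]
        exact hyy'
      · rw [Function.update_of_ne hj, Function.update_of_ne hj, mul_one])
  have hg₀' : g₀.1 = tw e P (iota i₀ y) := by rw [hg₀, iota_eq_pt]
  have hg₀L : g₀ ∈ L' := h y hy g₀ hg₀'
  have hconj : gσ * g₀ * gσ⁻¹ ∈ L' := hN gσ hgσG g₀ hg₀L
  have heq : g = gσ * g₀ * gσ⁻¹ := by
    apply Units.ext
    rw [Units.val_mul, Units.val_mul, hg, hgσ, hg₀', hgσi, tw_mul, tw_mul]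
    congr 1
    rw [iota_eq_pt i₀ y, hpc (Equiv.swap i₀ i), iota_eq_pt i y]
    congr 1
    funext j
    rw [hσs]
    by_cases hj : j = i
    · subst hj
      rw [Equiv.swap_apply_right, Function.update_self, Function.update_self]
    · rw [Function.update_of_ne hj]
      have hne : Equiv.swap i₀ i j ≠ i₀ := by
        intro h1
        apply hj
        have h2 : Equiv.swap i₀ i (Equiv.swap i₀ i j) = Equiv.swap i₀ i i₀ := congrArg _ h1
        rw [Equiv.swap_apply_self, Equiv.swap_apply_left] at h2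
        exact h2
      rw [Function.update_of_ne hne]
  rw [heq]
  exact hconj

end Cfsg.Agent.Lib.Helper52.SP8EB
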