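import Mathlib
import Cfsg.Prelude.Def_GeometricClasses
import Cfsg.Prelude.Def_LieClassical
import Cfsg.Agent.Lib.Helper46.SPPNS4

/-! Project SP8 (helper71; S5823), piece NS8: `Sp_{2m}(q)` is contained in no tensor-wreath
subgroup (pure tensors are preserved). -/

set_option autoImplicit false

namespace Cfsg.Agent.Lib.Helper21.SP8NS8

open Matrix Cfsg.Geo

variable {n : ℕ} {F : Type*} [Field F] [Fintype F]

/-- the pure tensors -/
def Pure (k t : ℕ) (F : Type*) [Field F] : Set ((Fin t → Fin k) → F) :=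
  {x | ∃ w : Fin t → Fin k → F, x = fun a => ∏ i, w i (a i)}

omit [Fintype F] in
theorem pure_tensor_mulVec {k t : ℕ} (M : Matrix (Fin t → Fin k) (Fin t → Fin k) F)
    (gs : Fin t → Matrix (Fin k) (Fin k) F)
    (hM : ∀ x y, M x y = ∏ i, gs i (x i) (y i)) (w : Fin t → Fin k → F) :
    M *ᵥ (fun a => ∏ i, w i (a i)) = fun a => ∏ i, (gs i *ᵥ w i) (a i) := by
  funext a
  have e2 : (M *ᵥ fun a : Fin t → Fin k => ∏ j, w j (a j)) a
      = ∑ b : Fin t → Fin k, (∏ i, gs i (a i) (b i)) * ∏ j, w j (b j) := by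
    show ∑ b, M a b * _ = _
    exact Finset.sum_congr rfl (fun b _ => by rw [hM])
  rw [e2]
  simp only [← Finset.prod_mul_distrib]
  have e3 : ∀ i, (gs i *ᵥ w i) (a i) = ∑ u, gs i (a i) u * w i u := fun i => rfl
  simp only [e3]
  rw [Finset.prod_univ_sum]
  simp

omit [Fintype F] in
theorem factor_perm_mulVec {k t : ℕ} (M : Matrix (Fin t → Fin k) (Fin t → Fin k) F)
    (σ : Equiv.Perm (Fin t))
    (hM : ∀ x y, M x y = if y = x ∘ σ then 1 else 0) (w : Fin t → Fin k → F) :
    M *ᵥ (fun a => ∏ i, w i (a i)) = fun a => ∏ j, w (σ.symm j) (a j) := by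
  funext a
  have e : (M *ᵥ (fun a : Fin t → Fin k => ∏ i, w i (a i))) a
      = ∑ y : Fin t → Fin k, (if y = a ∘ σ then (1 : F) else 0) * ∏ i, w i (y i) := by
    show ∑ b, M a b * _ = _
    exact Finset.sum_congr rfl (fun b _ => by rw [hM])
  rw [e]
  simp only [ite_mul, one_mul, zero_mul, Finset.sum_ite_eq', Finset.mem_univ, if_true]
  rw [← Equiv.prod_comp σ (fun j => w (σ.symm j) (a j))]
  simp

/-- the tensor-wreath group preserves the pure tensors -/
theorem wreath_pure {k t : ℕ} (g : GL (Fin t → Fin k) F) (hg : g ∈ tensorWreathStandard k t F) :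
    ∀ x ∈ Pure k t F, g.1 *ᵥ x ∈ Pure k t F := by
  classical
  have hone : ∀ x ∈ Pure k t F, (1 : GL (Fin t → Fin k) F).1 *ᵥ x ∈ Pure k t F := by
    intro x hx
    rw [Units.val_one, Matrix.one_mulVec]; exact hx
  have hmul : ∀ a b : GL (Fin t → Fin k) F, (∀ x ∈ Pure k t F, a.1 *ᵥ x ∈ Pure k t F) →
      (∀ x ∈ Pure k t F, b.1 *ᵥ x ∈ Pure k t F) → ∀ x ∈ Pure k t F, (a * b).1 *ᵥ x ∈ Pure k t F := by
    intro a b ha hb x hx
    rw [Units.val_mul, ← Matrix.mulVec_mulVec]
    exact ha _ (hb x hx)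
  have hpow : ∀ a : GL (Fin t → Fin k) F, (∀ x ∈ Pure k t F, a.1 *ᵥ x ∈ Pure k t F) →
      ∀ j : ℕ, ∀ x ∈ Pure k t F, (a ^ j).1 *ᵥ x ∈ Pure k t F := by
    intro a ha j
    induction j with
    | zero => rw [pow_zero]; exact hone
    | succ j ih => rw [pow_succ]; exact hmul _ _ ih ha
  unfold tensorWreathStandard at hg
  induction hg using Subgroup.closure_induction with
  | mem g hg =>
    rcases hg with ⟨gs, hgs⟩ | ⟨σ, hσ⟩
    · rintro x ⟨w, rfl⟩
      exact ⟨fun i => (gs i).1 *ᵥ w i, pure_tensor_mulVec g.1 (fun i => (gs i).1) hgs w⟩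
    · rintro x ⟨w, rfl⟩
      exact ⟨fun i => w (σ.symm i), factor_perm_mulVec g.1 σ hσ w⟩
  | one => exact hone
  | mul a b _ _ ha hb => exact hmul a b ha hb
  | inv a _ ha =>
    have hinv : a⁻¹ = a ^ (orderOf a - 1) := by
      apply inv_eq_of_mul_eq_one_right
      rw [← pow_succ', Nat.sub_add_cancel (orderOf_pos a), pow_orderOf_eq_one]
    rw [hinv]
    exact hpow a ha _

/-- NS8 -/
theorem NS8 (m : ℕ) {k t : ℕ} (hk : 2 ≤ k) (ht : 2 ≤ t) (e : (Fin m ⊕ Fin m) ≃ (Fin t → Fin k))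
    (P : GL (Fin m ⊕ Fin m) F) : ¬ Cfsg.spGL m F ≤ tensorWreathSubgroup k t e P := by
  classical
  unfold tensorWreathSubgroup
  intro hle
  let c0 : Fin k := ⟨0, by omega⟩
  let c1 : Fin k := ⟨1, by omega⟩
  let i0 : Fin t := ⟨0, by omega⟩
  let i1 : Fin t := ⟨1, by omega⟩
  have hc : c0 ≠ c1 := by
    intro h
    have h' := congrArg Fin.val h
    simp [c0, c1] at h'
  have hi : i0 ≠ i1 := by
    intro h
    have h' := congrArg Fin.val h
    simp [i0, i1] at h'
  let a0 : Fin t → Fin k := fun _ => c0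
  let a1 : Fin t → Fin k := fun i => if i = i0 ∨ i = i1 then c1 else c0
  let b0 : Fin t → Fin k := Function.update a0 i0 c1
  let b1 : Fin t → Fin k := Function.update a1 i0 c0
  have ha01 : a0 ≠ a1 := by
    intro h
    have h' := congrFun h i0
    simp [a0, a1] at h'
    exact hc h'
  have hb0a0 : b0 ≠ a0 := by
    intro h
    have h' := congrFun h i0
    simp [a0, b0] at h'
    exact hc h'.symm
  have hb0a1 : b0 ≠ a1 := by
    intro h
    have h' := congrFun h i1
    simp [a0, a1, b0, Function.update_of_ne hi.symm] at h'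
    exact hc h'
  have hy : (Pi.single a0 1 : (Fin t → Fin k) → F) ∈ Pure k t F := by
    refine ⟨fun _ => Pi.single c0 1, ?_⟩
    funext a
    by_cases ha : a = a0
    · subst ha
      simp [a0]
    · rw [Pi.single_apply, if_neg ha]
      have hex : ∃ i, a i ≠ c0 := by
        by_contra hcon
        push Not at hcon
        exact ha (funext hcon)
      obtain ⟨i, hi'⟩ := hex
      symm
      apply Finset.prod_eq_zero (Finset.mem_univ i)
      show (Pi.single c0 (1 : F) : Fin k → F) (a i) = 0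
      rw [Pi.single_apply, if_neg hi']
  have hx : (Pi.single a0 1 + Pi.single a1 1 : (Fin t → Fin k) → F) ∉ Pure k t F := by
    rintro ⟨w, hw⟩
    have e0 := congrFun hw a0
    have e1 := congrFun hw a1
    have e2 := congrFun hw b0
    have hprod : (∏ i, w i (a0 i)) * (∏ i, w i (a1 i)) = (∏ i, w i (b0 i)) * (∏ i, w i (b1 i)) := by
      rw [← Finset.prod_mul_distrib, ← Finset.prod_mul_distrib]
      apply Finset.prod_congr rfl
      intro i _
      by_cases hii : i = i0
      · subst hii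
        simp only [b0, b1, Function.update_self]
        simp only [a0, a1, true_or, if_true]
        exact mul_comm _ _
      · simp only [b0, b1, Function.update_of_ne hii]
    simp only [Pi.add_apply, Pi.single_apply, if_true, if_neg ha01, if_neg ha01.symm, if_neg hb0a0,
      if_neg hb0a1, add_zero, zero_add] at e0 e1 e2
    rw [← e0, ← e1, ← e2, zero_mul, one_mul] at hprod
    exact one_ne_zero hprod
  have hy0 : (Pi.single a0 1 : (Fin t → Fin k) → F) ≠ 0 := by
    intro h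
    have e1 := congrFun h a0
    simp at e1
  have hx0 : (Pi.single a0 1 + Pi.single a1 1 : (Fin t → Fin k) → F) ≠ 0 := by
    intro h
    have e1 := congrFun h a0
    simp only [Pi.add_apply, Pi.single_apply, if_true, if_neg ha01, add_zero, Pi.zero_apply] at e1
    exact one_ne_zero e1
  have hinjP := Cfsg.Agent.Lib.Helper46.SPPNS4.ns4_mulVec_inj P
  have hne : ∀ z : (Fin t → Fin k) → F, z ≠ 0 → P.1 *ᵥ (z ∘ e) ≠ 0 := by
    intro z hz h0
    apply hz
    have h3 : z ∘ e = 0 := by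
      apply hinjP
      show P.1 *ᵥ (z ∘ e) = P.1 *ᵥ 0
      rw [h0, Matrix.mulVec_zero]
    funext a
    have h4 := congrFun h3 (e.symm a)
    simpa using h4
  obtain ⟨g, hg, hgv⟩ := Cfsg.Agent.Lib.Helper46.SPPNS4.ns4_trans m _ _ (hne _ hy0) (hne _ hx0)
  obtain ⟨h, ⟨w, hw, rfl⟩, rfl⟩ := hle hg
  have h1' : ((MulAut.conj P).toMonoidHom ((glReindex e.symm).toMonoidHom w) :
      GL (Fin m ⊕ Fin m) F).1 *ᵥ
      (P.1 *ᵥ ((Pi.single a0 1 : (Fin t → Fin k) → F) ∘ e)) =
      P.1 *ᵥ ((w.1 *ᵥ (Pi.single a0 1 : (Fin t → Fin k) → F)) ∘ e) := by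
    have e1 : ((MulAut.conj P).toMonoidHom ((glReindex e.symm).toMonoidHom w) :
        GL (Fin m ⊕ Fin m) F) = P * glReindex e.symm w * P⁻¹ := rfl
    rw [e1, Units.val_mul, Units.val_mul, Matrix.mulVec_mulVec, mul_assoc, mul_assoc,
      ← Units.val_mul P⁻¹ P, inv_mul_cancel, Units.val_one, mul_one, ← Matrix.mulVec_mulVec,
      Cfsg.Agent.Lib.Helper46.SPPNS4.ns4_glReindex_mulVec]
  rw [h1'] at hgv
  have h2' := hinjP hgv
  apply hx
  have h3 : w.1 *ᵥ (Pi.single a0 1 : (Fin t → Fin k) → F) =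
      Pi.single a0 1 + Pi.single a1 1 := by
    funext a
    have h4 := congrFun h2' (e.symm a)
    simpa using h4
  rw [← h3]
  exact wreath_pure w hw _ hy

end Cfsg.Agent.Lib.Helper21.SP8NS8
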