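import Mathlib
import Cfsg.Prelude.Def_GeometricClasses
import Cfsg.Prelude.Def_LieClassical
import Cfsg.Agent.Lib.Helper7.GUOrder

/-!
# Project SUP (helper71, S5811 / S5856), piece U1

`U1`: a reducible subgroup of `GU_n(q)` stabilises a non-zero totally singular subspace or a
non-zero non-degenerate subspace of dimension at most `n / 2` (consider `W ⊓ W^⊥` for an
invariant subspace `W`).
-/

set_option autoImplicit false

namespace Cfsg.Agent.Lib.Helper21.SUPU1

open Matrix Cfsg.Geo
open Cfsg.Agent.Lib.Helper7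

variable {n : ℕ} {F : Type*} [Field F] [Fintype F] {q : ℕ}

set_option linter.unusedSectionVars false
set_option linter.deprecated false

/-- the Hermitian form is non-degenerate -/
theorem U1_nondeg (v : Fin n → F) (hv : ∀ y, Cfsg.hermForm n F q y v = 0) : v = 0 := by
  classical
  funext j
  have h := hv (Pi.single j 1)
  unfold Cfsg.hermForm at h
  rw [Finset.sum_eq_single j] at h
  · rw [Pi.single_eq_same, one_mul] at h
    have hq0 : q ≠ 0 := by
      rintro rfl
      rw [pow_zero] at h
      exact one_ne_zero h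
    exact (pow_eq_zero_iff hq0).1 h
  · intro i _ hij
    rw [Pi.single_eq_of_ne hij, zero_mul]
  · intro hj
    exact absurd (Finset.mem_univ j) hj

/-- a subgroup mapping a subspace into itself stabilises it -/
theorem U1_stab (H : Subgroup (GL (Fin n) F)) (X : Submodule F (Fin n → F))
    (hX : ∀ g ∈ H, ∀ v ∈ X, (g : Matrix (Fin n) (Fin n) F) *ᵥ v ∈ X) :
    H ≤ subspaceStabilizer X := by
  intro g hg
  show ∀ v, v ∈ (X : Set (Fin n → F)) ↔
    (glToMat (Fin n) F g) *ᵥ v ∈ (X : Set (Fin n → F))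
  intro v
  constructor
  · intro hv
    exact hX g hg v hv
  · intro hv
    have h1 := hX g⁻¹ (H.inv_mem hg) _ hv
    have h2 : ((g⁻¹ : GL (Fin n) F) : Matrix (Fin n) (Fin n) F) *ᵥ
        ((glToMat (Fin n) F g) *ᵥ v) = v := by
      show ((g⁻¹ : GL (Fin n) F) : Matrix (Fin n) (Fin n) F) *ᵥ
        ((g : Matrix (Fin n) (Fin n) F) *ᵥ v) = v
      rw [Matrix.mulVec_mulVec, ← Units.val_mul, inv_mul_cancel, Units.val_one,
        Matrix.one_mulVec]
    rw [h2] at h1
    exact h1

/-- the dimension of the orthogonal complement -/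
theorem U1_finrank_perp (hF : Fintype.card F = q ^ 2) (W Wp : Submodule F (Fin n → F))
    (hWp : ∀ v, v ∈ Wp ↔ ∀ w ∈ W, Cfsg.hermForm n F q w v = 0) :
    n ≤ Module.finrank F W + Module.finrank F Wp := by
  classical
  obtain ⟨b⟩ : Nonempty (Module.Basis (Fin (Module.finrank F W)) F W) := ⟨Module.finBasis F W⟩
  obtain ⟨φ, hφ⟩ : ∃ φ : (Fin n → F) →ₗ[F] (Fin (Module.finrank F W) → F),
      ∀ v i, φ v i = Cfsg.hermForm n F q v (b i : Fin n → F) :=
    ⟨{ toFun := fun v i => Cfsg.hermForm n F q v (b i : Fin n → F)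
       map_add' := by
         intro u v
         funext i
         exact hf_add_left n u v _
       map_smul' := by
         intro c v
         funext i
         simp only [RingHom.id_apply, Pi.smul_apply, smul_eq_mul]
         exact hf_smul_left n c v _ }, fun v i => rfl⟩
  have hker : LinearMap.ker φ = Wp := by
    ext v
    rw [LinearMap.mem_ker, hWp]
    constructor
    · intro hv w hw
      apply hf_eq_zero_symm hF
      have hw' : w = ∑ i, (b.repr ⟨w, hw⟩ i) • (b i : Fin n → F) := by
        have h1 := congrArg Subtype.val (b.sum_repr ⟨w, hw⟩)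
        rw [Submodule.coe_sum] at h1
        simp only [Submodule.coe_smul] at h1
        exact h1.symm
      rw [hw', hf_sum_right hF]
      refine Finset.sum_eq_zero fun i _ => ?_
      rw [hf_smul_right]
      have h2 : Cfsg.hermForm n F q v (b i : Fin n → F) = 0 := by
        rw [← hφ, hv]
        rfl
      rw [h2, mul_zero]
    · intro hv
      funext i
      rw [hφ]
      exact hf_eq_zero_symm hF n _ _ (hv (b i) (b i).2)
  have h1 := LinearMap.finrank_range_add_finrank_ker φ
  have h2 : Module.finrank F (LinearMap.range φ) ≤ Module.finrank F W := by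
    have h3 := Submodule.finrank_le (LinearMap.range φ)
    rwa [Module.finrank_fin_fun] at h3
  rw [hker, Module.finrank_fin_fun] at h1
  omega

/-- U1: a reducible subgroup of `GU` stabilises a non-zero totally singular subspace or a
non-zero non-degenerate subspace of dimension at most `n / 2`. -/
theorem U1 (hF : Fintype.card F = q ^ 2) (H : Subgroup (GL (Fin n) F)) (hH : H ≤ Cfsg.GU n F q)
    (h : ¬ ActsIrreducibly (matrixSet H)) :
    (∃ W : Submodule F (Fin n → F), W ≠ ⊥ ∧ IsTotallySingularFor (Cfsg.hermForm n F q) W ∧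
      H ≤ subspaceStabilizer W) ∨
    (∃ W : Submodule F (Fin n → F), W ≠ ⊥ ∧ IsNondegenerateOn (Cfsg.hermForm n F q) W ∧
      2 * Module.finrank F W ≤ n ∧ H ≤ subspaceStabilizer W) := by
  classical
  unfold ActsIrreducibly at h
  push Not at h
  obtain ⟨W, hW, hWbot, hWtop⟩ := h
  have hWinv : ∀ g ∈ H, ∀ w ∈ W, (g : Matrix (Fin n) (Fin n) F) *ᵥ w ∈ W := by
    intro g hg w hw
    have h1 := hW (g : Matrix (Fin n) (Fin n) F) ⟨g, hg, rfl⟩
    have h2 : Matrix.toLin' (g : Matrix (Fin n) (Fin n) F) w ∈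
        W.map (Matrix.toLin' (g : Matrix (Fin n) (Fin n) F)) := Submodule.mem_map_of_mem hw
    have h3 := h1 h2
    rwa [Matrix.toLin'_apply] at h3
  obtain ⟨Wp, hWp⟩ : ∃ Wp : Submodule F (Fin n → F),
      ∀ v, v ∈ Wp ↔ ∀ w ∈ W, Cfsg.hermForm n F q w v = 0 :=
    ⟨{ carrier := {v | ∀ w ∈ W, Cfsg.hermForm n F q w v = 0}
       add_mem' := by
         intro a b ha hb w hw
         rw [hf_add_right hF, ha w hw, hb w hw, add_zero]
       zero_mem' := by
         intro w _
         exact hf_zero_right hF n w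
       smul_mem' := by
         intro c x hx w hw
         rw [hf_smul_right, hx w hw, mul_zero] }, fun v => Iff.rfl⟩
  have hWpinv : ∀ g ∈ H, ∀ v ∈ Wp, (g : Matrix (Fin n) (Fin n) F) *ᵥ v ∈ Wp := by
    intro g hg v hv
    rw [hWp]
    intro w hw
    have hgU : g ∈ Cfsg.GU n F q := hH hg
    have h1 : (g : Matrix (Fin n) (Fin n) F) *ᵥ
        (((g⁻¹ : GL (Fin n) F) : Matrix (Fin n) (Fin n) F) *ᵥ w) = w := by
      rw [Matrix.mulVec_mulVec, ← Units.val_mul, mul_inv_cancel, Units.val_one,
        Matrix.one_mulVec]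
    have h2 := (mem_GU_iff g).1 hgU (((g⁻¹ : GL (Fin n) F) : Matrix (Fin n) (Fin n) F) *ᵥ w) v
    rw [h1] at h2
    rw [h2]
    exact (hWp v).1 hv _ (hWinv g⁻¹ (H.inv_mem hg) w hw)
  have hstabW : H ≤ subspaceStabilizer W := U1_stab H W hWinv
  have hstabWp : H ≤ subspaceStabilizer Wp := U1_stab H Wp hWpinv
  by_cases hR : W ⊓ Wp = ⊥
  · right
    have hdim := U1_finrank_perp hF W Wp hWp
    have hsup := Submodule.finrank_sup_add_finrank_inf_eq W Wp
    rw [hR, finrank_bot, add_zero] at hsup
    have hle : Module.finrank F ↥(W ⊔ Wp) ≤ n := by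
      have h3 := Submodule.finrank_le (W ⊔ Wp)
      rwa [Module.finrank_fin_fun] at h3
    have hWnd : IsNondegenerateOn (Cfsg.hermForm n F q) W := by
      intro w hw hw0
      have hnot : w ∉ Wp := by
        intro hwp
        have h3 : w ∈ W ⊓ Wp := ⟨hw, hwp⟩
        rw [hR] at h3
        exact hw0 ((Submodule.mem_bot F).1 h3)
      rw [hWp] at hnot
      push Not at hnot
      obtain ⟨x, hx, hxw⟩ := hnot
      refine ⟨⟨x, hx, hxw⟩, ⟨x, hx, ?_⟩⟩
      rw [hf_conj hF n x w]
      exact pow_ne_zero _ hxw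
    by_cases h2 : 2 * Module.finrank F W ≤ n
    · exact ⟨W, hWbot, hWnd, h2, hstabW⟩
    · have htop : W ⊔ Wp = ⊤ := by
        apply Submodule.eq_top_of_finrank_eq
        rw [Module.finrank_fin_fun]
        omega
      have hWpbot : Wp ≠ ⊥ := by
        intro hb
        rw [hb, finrank_bot] at hdim
        have hlt : Module.finrank F W < Module.finrank F (Fin n → F) :=
          Submodule.finrank_lt hWtop
        rw [Module.finrank_fin_fun] at hlt
        omega
      refine ⟨Wp, hWpbot, ?_, by omega, hstabWp⟩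
      intro v hv hv0
      have hex : ∃ y, Cfsg.hermForm n F q y v ≠ 0 := by
        by_contra hcon
        push Not at hcon
        exact hv0 (U1_nondeg v hcon)
      obtain ⟨y, hy⟩ := hex
      have hymem : y ∈ W ⊔ Wp := by
        rw [htop]
        exact Submodule.mem_top
      obtain ⟨w, hw, x, hx, rfl⟩ := Submodule.mem_sup.1 hymem
      rw [hf_add_left, (hWp v).1 hv w hw, zero_add] at hy
      refine ⟨⟨x, hx, hy⟩, ⟨x, hx, ?_⟩⟩
      rw [hf_conj hF n x v]
      exact pow_ne_zero _ hy
  · left
    refine ⟨W ⊓ Wp, hR, ?_, U1_stab H (W ⊓ Wp) ?_⟩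
    · intro u hu v hv
      exact (hWp v).1 hv.2 u hu.1
    · intro g hg v hv
      exact ⟨hWinv g hg v hv.1, hWpinv g hg v hv.2⟩

end Cfsg.Agent.Lib.Helper21.SUPU1
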