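import Mathlib
import Cfsg.Agent.Lib.Helper91.SpU

/-!
# S5171, piece H1f: from a short root element in `T` to a long root element in `T`
-/

set_option autoImplicit false

namespace Cfsg.Agent.Lib.Helper21.SpH1f

open Matrix Cfsg.Agent.Lib.Helper91.SpU

theorem sq_congr (m : ℕ) (K : Type*) [Field K] (B B' : Matrix (Fin m) (Fin m) K) (hB : Bᵀ = B)
    (hB' : B'ᵀ = B') (h : B = B') : sq m K B hB = sq m K B' hB' := by
  subst h
  rfl

theorem short_to_long (m : ℕ) (K : Type*) [Field K]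
    (U : Subgroup (Matrix.symplecticGroup (Fin m) K)) (hU : ∀ g, g ∈ U ↔ InU m K g)
    (T : Subgroup (Matrix.symplecticGroup (Fin m) K)) (hT : T ≤ U)
    (hc : ∀ x ∈ T, ∀ g : Matrix.symplecticGroup (Fin m) K, g * x * g⁻¹ ∈ U → g * x * g⁻¹ ∈ T)
    (i₀ i₁ : Fin m) (h01 : i₀ < i₁) (d : K)
    (hB : (Matrix.single i₀ i₁ d + Matrix.single i₁ i₀ d)ᵀ =
      Matrix.single i₀ i₁ d + Matrix.single i₁ i₀ d)
    (hmem : sq m K (Matrix.single i₀ i₁ d + Matrix.single i₁ i₀ d) hB ∈ T)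
    (hw : ∃ g : Matrix.symplecticGroup (Fin m) K,
      g * sq m K (Matrix.single i₀ i₁ d + Matrix.single i₁ i₀ d) hB * g⁻¹ =
        slphi m K (SpecialLinearGroup.transvection (ne_of_lt h01) d)) :
    yy m K i₀ (d * d) ∈ T := by
  have hne : i₀ ≠ i₁ := ne_of_lt h01
  obtain ⟨A, hA⟩ : ∃ A : GL (Fin m) K,
      A = SpecialLinearGroup.toGL (SpecialLinearGroup.transvection hne d) := ⟨_, rfl⟩
  have hA1 : A.1 = 1 + Matrix.single i₀ i₁ d := by
    rw [hA]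
    rfl
  have hUT : IsUT m K A.1 := by
    rw [hA1]
    refine ⟨?_, ?_⟩
    · intro i j hji
      rw [Matrix.add_apply, Matrix.one_apply_ne (ne_of_gt hji), zero_add]
      apply Matrix.single_apply_of_ne
      rintro ⟨rfl, rfl⟩
      exact absurd h01 (not_lt.mpr hji.le)
    · intro i
      rw [Matrix.add_apply, Matrix.one_apply_eq, Matrix.single_apply_of_ne, add_zero]
      rintro ⟨rfl, h⟩
      exact hne h.symm
  have hx : slphi m K (SpecialLinearGroup.transvection hne d) = sphi m K A := by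
    rw [hA]
    rfl
  have hxU : sphi m K A ∈ U := (hU _).mpr (sphi_inU m K A hUT)
  have hxT : sphi m K A ∈ T := by
    obtain ⟨g, hg⟩ := hw
    rw [hx] at hg
    have h := hc _ hmem g (by rw [hg]; exact hxU)
    rwa [hg] at h
  have huU : yy m K i₁ 1 ∈ U := (hU _).mpr (yy_inU m K i₁ 1)
  have h1 : yy m K i₁ 1 * (sphi m K A)⁻¹ * (yy m K i₁ 1)⁻¹ ∈ T :=
    hc _ (T.inv_mem hxT) _ (U.mul_mem (U.mul_mem huU (U.inv_mem hxU)) (U.inv_mem huU))
  have h2 : sphi m K A * (yy m K i₁ 1 * (sphi m K A)⁻¹ * (yy m K i₁ 1)⁻¹) *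
      (sq m K (Matrix.single i₀ i₁ d + Matrix.single i₁ i₀ d) hB)⁻¹ ∈ T :=
    T.mul_mem (T.mul_mem hxT h1) (T.inv_mem hmem)
  have hS0 : (Matrix.single i₁ i₁ (1 : K))ᵀ = Matrix.single i₁ i₁ (1 : K) :=
    Matrix.transpose_single _ _ _
  have hM : (A.1 * Matrix.single i₁ i₁ (1 : K) * A.1ᵀ)ᵀ
      = A.1 * Matrix.single i₁ i₁ (1 : K) * A.1ᵀ := by
    rw [Matrix.transpose_mul, Matrix.transpose_mul, Matrix.transpose_transpose, hS0,
      Matrix.mul_assoc]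
  have hS1 : (Matrix.single i₁ i₁ (-1 : K))ᵀ = Matrix.single i₁ i₁ (-1 : K) :=
    Matrix.transpose_single _ _ _
  have hS2 : (-(Matrix.single i₀ i₁ d + Matrix.single i₁ i₀ d))ᵀ
      = -(Matrix.single i₀ i₁ d + Matrix.single i₁ i₀ d) := by
    rw [Matrix.transpose_neg, hB]
  have h12 : (A.1 * Matrix.single i₁ i₁ (1 : K) * A.1ᵀ + Matrix.single i₁ i₁ (-1 : K))ᵀ
      = A.1 * Matrix.single i₁ i₁ (1 : K) * A.1ᵀ + Matrix.single i₁ i₁ (-1 : K) := by
    rw [Matrix.transpose_add, hM, hS1]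
  have h123 : (A.1 * Matrix.single i₁ i₁ (1 : K) * A.1ᵀ + Matrix.single i₁ i₁ (-1 : K)
      + -(Matrix.single i₀ i₁ d + Matrix.single i₁ i₀ d))ᵀ
      = A.1 * Matrix.single i₁ i₁ (1 : K) * A.1ᵀ + Matrix.single i₁ i₁ (-1 : K)
      + -(Matrix.single i₀ i₁ d + Matrix.single i₁ i₀ d) := by
    rw [Matrix.transpose_add, h12, hS2]
  have c1 : sphi m K A * yy m K i₁ 1 * (sphi m K A)⁻¹
      = sq m K (A.1 * Matrix.single i₁ i₁ (1 : K) * A.1ᵀ) hM :=
    sphi_conj_sq m K A _ _ hM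
  have c2 : (yy m K i₁ 1)⁻¹ = sq m K (Matrix.single i₁ i₁ (-1 : K)) hS1 := yy_inv m K i₁ 1
  have c3 : (sq m K (Matrix.single i₀ i₁ d + Matrix.single i₁ i₀ d) hB)⁻¹
      = sq m K (-(Matrix.single i₀ i₁ d + Matrix.single i₁ i₀ d)) hS2 := sq_inv m K _ hB hS2
  have hmat : A.1 * Matrix.single i₁ i₁ (1 : K) * A.1ᵀ + Matrix.single i₁ i₁ (-1 : K)
      + -(Matrix.single i₀ i₁ d + Matrix.single i₁ i₀ d) = Matrix.single i₀ i₀ (d * d) := by
    have t1 : (1 + Matrix.single i₀ i₁ d) * Matrix.single i₁ i₁ (1 : K)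
        = Matrix.single i₁ i₁ 1 + Matrix.single i₀ i₁ d := by
      rw [Matrix.add_mul, Matrix.one_mul, Matrix.single_mul_single_same, mul_one]
    have t2 : (1 + Matrix.single i₀ i₁ d)ᵀ = 1 + Matrix.single i₁ i₀ d := by
      rw [Matrix.transpose_add, Matrix.transpose_one, Matrix.transpose_single]
    have t3 : (Matrix.single i₁ i₁ (1 : K) + Matrix.single i₀ i₁ d) * (1 + Matrix.single i₁ i₀ d)
        = Matrix.single i₁ i₁ 1 + Matrix.single i₀ i₁ d + Matrix.single i₁ i₀ d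
          + Matrix.single i₀ i₀ (d * d) := by
      rw [Matrix.mul_add, Matrix.mul_one, Matrix.add_mul, Matrix.single_mul_single_same,
        Matrix.single_mul_single_same, one_mul]
      abel
    have t4 : Matrix.single i₁ i₁ (-1 : K) = -Matrix.single i₁ i₁ (1 : K) := by
      rw [eq_neg_iff_add_eq_zero, ← Matrix.single_add, neg_add_cancel, Matrix.single_zero]
    rw [hA1, t1, t2, t3, t4]
    abel
  have h3 : sphi m K A * (yy m K i₁ 1 * (sphi m K A)⁻¹ * (yy m K i₁ 1)⁻¹) *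
      (sq m K (Matrix.single i₀ i₁ d + Matrix.single i₁ i₀ d) hB)⁻¹ = yy m K i₀ (d * d) := by
    have e1 : sphi m K A * (yy m K i₁ 1 * (sphi m K A)⁻¹ * (yy m K i₁ 1)⁻¹)
        = (sphi m K A * yy m K i₁ 1 * (sphi m K A)⁻¹) * (yy m K i₁ 1)⁻¹ := by
      group
    rw [e1, c1, c2, c3, sq_mul m K _ _ hM hS1 h12, sq_mul m K _ _ h12 hS2 h123]
    exact sq_congr m K _ _ _ _ hmat
  rw [← h3]
  exact h2

end Cfsg.Agent.Lib.Helper21.SpH1f
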