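import Mathlib
import Cfsg.Agent.Lib.Helper91.SpU

/-!
# S5171, piece P1: the subgroup `P` of `U` with vanishing `(e_last, f_last)` entry
-/

set_option autoImplicit false

namespace Cfsg.Agent.Lib.Helper21.SpP1

open Matrix Cfsg.Agent.Lib.Helper91.SpU

/-- For a symplectic `[A B; 0 D]`: `Aᵀ * D = 1`. -/
theorem block_AD (m : ℕ) (K : Type*) [Field K] (g : Matrix.symplecticGroup (Fin m) K)
    (hg : g.1.toBlocks₂₁ = 0) : g.1.toBlocks₁₁ᵀ * g.1.toBlocks₂₂ = 1 := by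
  have h : fromBlocks g.1.toBlocks₁₁ g.1.toBlocks₁₂ g.1.toBlocks₂₁ g.1.toBlocks₂₂
      ∈ Matrix.symplecticGroup (Fin m) K := by
    rw [Matrix.fromBlocks_toBlocks]
    exact g.2
  rw [SymplecticGroup.fromBlocks_mem_iff] at h
  obtain ⟨-, -, h3⟩ := h
  rw [hg, Matrix.transpose_zero, Matrix.zero_mul, sub_zero] at h3
  exact h3

/-- For a symplectic `[A B; 0 D]`: `Bᵀ * D = Dᵀ * B`. -/
theorem block_BD (m : ℕ) (K : Type*) [Field K] (g : Matrix.symplecticGroup (Fin m) K) :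
    g.1.toBlocks₁₂ᵀ * g.1.toBlocks₂₂ = g.1.toBlocks₂₂ᵀ * g.1.toBlocks₁₂ := by
  have h : fromBlocks g.1.toBlocks₁₁ g.1.toBlocks₁₂ g.1.toBlocks₂₁ g.1.toBlocks₂₂
      ∈ Matrix.symplecticGroup (Fin m) K := by
    rw [Matrix.fromBlocks_toBlocks]
    exact g.2
  rw [SymplecticGroup.fromBlocks_mem_iff] at h
  exact h.2.1

/-- The last row of an upper unitriangular matrix is the last basis vector. -/
theorem row_last (m : ℕ) (K : Type*) [Field K] (i₀ : Fin m) (hi₀ : (i₀ : ℕ) + 1 = m)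
    (A : Matrix (Fin m) (Fin m) K) (hA : IsUT m K A) (k : Fin m) :
    A i₀ k = if k = i₀ then 1 else 0 := by
  by_cases h : k = i₀
  · subst h
    rw [if_pos rfl]
    exact hA.2 k
  · rw [if_neg h]
    apply hA.1
    have hk := k.2
    apply lt_of_le_of_ne _ h
    rw [Fin.le_def]
    omega

/-- The last column of `D` is the last basis vector. -/
theorem col_last (m : ℕ) (K : Type*) [Field K] (i₀ : Fin m) (hi₀ : (i₀ : ℕ) + 1 = m)
    (g : Matrix.symplecticGroup (Fin m) K) (hg : InU m K g) (k : Fin m) :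
    g.1.toBlocks₂₂ k i₀ = if k = i₀ then 1 else 0 := by
  have h1 := block_AD m K g hg.1
  have h2 : g.1.toBlocks₂₂ * g.1.toBlocks₁₁ᵀ = 1 := mul_eq_one_comm.mp h1
  have h3 := congrFun (congrFun h2 k) i₀
  rw [Matrix.mul_apply] at h3
  have h4 : ∑ l, g.1.toBlocks₂₂ k l * (g.1.toBlocks₁₁ᵀ) l i₀ = g.1.toBlocks₂₂ k i₀ := by
    rw [Finset.sum_eq_single i₀]
    · rw [Matrix.transpose_apply, hg.2.2 i₀, mul_one]
    · intro l _ hl
      rw [Matrix.transpose_apply, row_last m K i₀ hi₀ _ hg.2 l, if_neg hl, mul_zero]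
    · intro h
      exact absurd (Finset.mem_univ _) h
  rw [h4] at h3
  rw [h3, Matrix.one_apply]

theorem U_entry_mul (m : ℕ) (K : Type*) [Field K] (i₀ : Fin m) (hi₀ : (i₀ : ℕ) + 1 = m)
    (g h : Matrix.symplecticGroup (Fin m) K) (hg : InU m K g) (hh : InU m K h) :
    (g * h).1.toBlocks₁₂ i₀ i₀ = g.1.toBlocks₁₂ i₀ i₀ + h.1.toBlocks₁₂ i₀ i₀ := by
  show (g.1 * h.1) (Sum.inl i₀) (Sum.inr i₀)
    = g.1 (Sum.inl i₀) (Sum.inr i₀) + h.1 (Sum.inl i₀) (Sum.inr i₀)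
  rw [Matrix.mul_apply, Fintype.sum_sum_type]
  have s1 : ∑ k : Fin m, g.1 (Sum.inl i₀) (Sum.inl k) * h.1 (Sum.inl k) (Sum.inr i₀)
      = h.1 (Sum.inl i₀) (Sum.inr i₀) := by
    rw [Finset.sum_eq_single i₀]
    · have e1 : g.1 (Sum.inl i₀) (Sum.inl i₀) = 1 := hg.2.2 i₀
      rw [e1, one_mul]
    · intro k _ hk
      have e1 : g.1 (Sum.inl i₀) (Sum.inl k) = 0 := by
        have h5 := row_last m K i₀ hi₀ _ hg.2 k
        rw [if_neg hk] at h5
        exact h5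
      rw [e1, zero_mul]
    · intro h6
      exact absurd (Finset.mem_univ _) h6
  have s2 : ∑ k : Fin m, g.1 (Sum.inl i₀) (Sum.inr k) * h.1 (Sum.inr k) (Sum.inr i₀)
      = g.1 (Sum.inl i₀) (Sum.inr i₀) := by
    rw [Finset.sum_eq_single i₀]
    · have e1 : h.1 (Sum.inr i₀) (Sum.inr i₀) = 1 := by
        have h5 := col_last m K i₀ hi₀ h hh i₀
        rw [if_pos rfl] at h5
        exact h5
      rw [e1, mul_one]
    · intro k _ hk
      have e1 : h.1 (Sum.inr k) (Sum.inr i₀) = 0 := by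
        have h5 := col_last m K i₀ hi₀ h hh k
        rw [if_neg hk] at h5
        exact h5
      rw [e1, mul_zero]
    · intro h6
      exact absurd (Finset.mem_univ _) h6
  rw [s1, s2, add_comm]

theorem exists_Plong (m : ℕ) (K : Type*) [Field K]
    (U : Subgroup (Matrix.symplecticGroup (Fin m) K)) (hU : ∀ g, g ∈ U ↔ InU m K g)
    (i₀ : Fin m) (hi₀ : (i₀ : ℕ) + 1 = m) :
    ∃ P : Subgroup (Matrix.symplecticGroup (Fin m) K),
      ∀ g, g ∈ P ↔ g ∈ U ∧ g.1.toBlocks₁₂ i₀ i₀ = 0 := by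
  have h1 : (1 : Matrix.symplecticGroup (Fin m) K).1.toBlocks₁₂ i₀ i₀ = 0 := by
    show (1 : Matrix (Fin m ⊕ Fin m) (Fin m ⊕ Fin m) K) (Sum.inl i₀) (Sum.inr i₀) = 0
    exact Matrix.one_apply_ne (by simp)
  refine ⟨{ carrier := {g | g ∈ U ∧ g.1.toBlocks₁₂ i₀ i₀ = 0}
            mul_mem' := ?_
            one_mem' := ⟨U.one_mem, h1⟩
            inv_mem' := ?_ }, fun g => Iff.rfl⟩
  · rintro a b ⟨ha, ha0⟩ ⟨hb, hb0⟩
    refine ⟨U.mul_mem ha hb, ?_⟩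
    rw [U_entry_mul m K i₀ hi₀ a b ((hU a).mp ha) ((hU b).mp hb), ha0, hb0, add_zero]
  · rintro a ⟨ha, ha0⟩
    refine ⟨U.inv_mem ha, ?_⟩
    have h2 := U_entry_mul m K i₀ hi₀ a a⁻¹ ((hU a).mp ha) ((hU _).mp (U.inv_mem ha))
    rw [mul_inv_cancel, ha0, zero_add] at h2
    rw [← h2]
    exact h1

end Cfsg.Agent.Lib.Helper21.SpP1
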