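import Mathlib
import Cfsg.Agent.Lib.Helper25.StDefs
import Cfsg.Agent.Lib.Helper90.Gate
import Cfsg.Agent.Lib.Helper21.StBorelAux

/-!
# Piece P5 "StBorel" of the Steinberg-character project (S2313 cluster, helper25)

For `b ∈ B`, the alternating sum `stSum` of the parabolic permutation characters at `b` equals the
number of `b`-fixed points of `G ⧸ B` whose Bruhat cell has no right ascent.
-/

set_option autoImplicit false

namespace Cfsg.Agent.Lib.Helper25

open Cfsg Cfsg.Agent.Lib.Helper8

variable {G : Type*} [Group G]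

theorem stSum_borel [Finite G] (P : BNPair G) (σ : ℕ → G) (r : ℕ)
    (hσ : Set.InjOn σ (Finset.range r : Set ℕ)) (hS : P.S = σ '' (Finset.range r : Set ℕ))
    (b : G) (hb : b ∈ P.B) :
    stSum P σ r b = (Nat.card {x : G ⧸ P.B // b • x = x ∧
      ∃ w : W P, InCell P x w ∧ NoRAsc (SW P) w} : ℂ) :=
  have _ := hσ
  stb_stSum_borel_of_gate P σ r hS b hb (fun hJ g => gate_exists P hJ g)
    (fun hJ _ _ hp hg hgp => gate_unique P hJ hp hg hgp)

end Cfsg.Agent.Lib.Helper25
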