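import Mathlib
import Cfsg.Agent.Lib.Helper91.SuU

/-!
# S5172, piece EP1: the subgroup `P` of `U` with vanishing `(e_last, f_last)` entry (unitary case)
-/

set_option autoImplicit false

namespace Cfsg.Agent.Lib.Helper21.SuEP1

open Matrix Cfsg.Agent.Lib.Helper91.SpU Cfsg.Agent.Lib.Helper91.SuU

/-- For a unitary `[A B; 0 D]`: `Aᵀ * σ(D) = 1`. -/
theorem block_AD (l : ℕ) (K : Type*) [Field K] (σ : K →+* K) (g : GU l K σ)
    (hg : (mat l K σ g).toBlocks₂₁ = 0) :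
    (mat l K σ g).toBlocks₁₁ᵀ * (mat l K σ g).toBlocks₂₂.map σ = 1 := by
  have h := mat_mem l K σ g
  rw [← Matrix.fromBlocks_toBlocks (mat l K σ g), hg] at h
  rw [Matrix.fromBlocks_transpose, Matrix.fromBlocks_map, JJ, Matrix.fromBlocks_multiply,
    Matrix.fromBlocks_multiply] at h
  have h2 := congrArg Matrix.toBlocks₁₂ h
  rw [Matrix.toBlocks_fromBlocks₁₂, Matrix.toBlocks_fromBlocks₁₂] at h2
  simpa using h2

/-- The last row of an upper unitriangular matrix is the last basis vector. -/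
theorem row_last (m : ℕ) (K : Type*) [Field K] (i₀ : Fin m) (hi₀ : (i₀ : ℕ) + 1 = m)
    (A : Matrix (Fin m) (Fin m) K) (hA : IsUT m K A) (k : Fin m) :
    A i₀ k = if k = i₀ then 1 else 0 := by
  by_cases h : k = i₀
  · subst h
    rw [if_pos rfl]
    exact hA.2 k
  · rw [if_neg h]
    apply hA.1
    have hk := k.2
    apply lt_of_le_of_ne _ h
    rw [Fin.le_def]
    omega

/-- The last column of `D` is the last basis vector. -/
theorem col_last (l : ℕ) (K : Type*) [Field K] (σ : K →+* K) (hσ : ∀ x, σ (σ x) = x)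
    (i₀ : Fin l) (hi₀ : (i₀ : ℕ) + 1 = l)
    (g : GU l K σ) (hg : InU l K σ g) (k : Fin l) :
    (mat l K σ g).toBlocks₂₂ k i₀ = if k = i₀ then 1 else 0 := by
  have h1 := block_AD l K σ g hg.1
  have h2 : (mat l K σ g).toBlocks₂₂.map σ * (mat l K σ g).toBlocks₁₁ᵀ = 1 :=
    mul_eq_one_comm.mp h1
  have h3 := congrFun (congrFun h2 k) i₀
  rw [Matrix.mul_apply] at h3
  have h4 : ∑ j, ((mat l K σ g).toBlocks₂₂.map σ) k j * ((mat l K σ g).toBlocks₁₁ᵀ) j i₀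
      = σ ((mat l K σ g).toBlocks₂₂ k i₀) := by
    rw [Finset.sum_eq_single i₀]
    · rw [Matrix.transpose_apply, hg.2.2 i₀, mul_one, Matrix.map_apply]
    · intro j _ hj
      rw [Matrix.transpose_apply, row_last l K i₀ hi₀ _ hg.2 j, if_neg hj, mul_zero]
    · intro h
      exact absurd (Finset.mem_univ _) h
  rw [h4] at h3
  have h5 := congrArg σ h3
  rw [hσ] at h5
  rw [h5, Matrix.one_apply]
  split_ifs
  · exact map_one σ
  · exact map_zero σ

theorem U_entry_mul (l : ℕ) (K : Type*) [Field K] (σ : K →+* K) (hσ : ∀ x, σ (σ x) = x)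
    (i₀ : Fin l) (hi₀ : (i₀ : ℕ) + 1 = l)
    (g h : GU l K σ) (hg : InU l K σ g) (hh : InU l K σ h) :
    (mat l K σ (g * h)).toBlocks₁₂ i₀ i₀
      = (mat l K σ g).toBlocks₁₂ i₀ i₀ + (mat l K σ h).toBlocks₁₂ i₀ i₀ := by
  show (mat l K σ g * mat l K σ h) (Sum.inl i₀) (Sum.inr i₀)
    = mat l K σ g (Sum.inl i₀) (Sum.inr i₀) + mat l K σ h (Sum.inl i₀) (Sum.inr i₀)
  rw [Matrix.mul_apply, Fintype.sum_sum_type]
  have s1 : ∑ k : Fin l, mat l K σ g (Sum.inl i₀) (Sum.inl k) * mat l K σ h (Sum.inl k) (Sum.inr i₀)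
      = mat l K σ h (Sum.inl i₀) (Sum.inr i₀) := by
    rw [Finset.sum_eq_single i₀]
    · have e1 : mat l K σ g (Sum.inl i₀) (Sum.inl i₀) = 1 := hg.2.2 i₀
      rw [e1, one_mul]
    · intro k _ hk
      have e1 : mat l K σ g (Sum.inl i₀) (Sum.inl k) = 0 := by
        have h5 := row_last l K i₀ hi₀ _ hg.2 k
        rw [if_neg hk] at h5
        exact h5
      rw [e1, zero_mul]
    · intro h6
      exact absurd (Finset.mem_univ _) h6
  have s2 : ∑ k : Fin l, mat l K σ g (Sum.inl i₀) (Sum.inr k) * mat l K σ h (Sum.inr k) (Sum.inr i₀)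
      = mat l K σ g (Sum.inl i₀) (Sum.inr i₀) := by
    rw [Finset.sum_eq_single i₀]
    · have e1 : mat l K σ h (Sum.inr i₀) (Sum.inr i₀) = 1 := by
        have h5 := col_last l K σ hσ i₀ hi₀ h hh i₀
        rw [if_pos rfl] at h5
        exact h5
      rw [e1, mul_one]
    · intro k _ hk
      have e1 : mat l K σ h (Sum.inr k) (Sum.inr i₀) = 0 := by
        have h5 := col_last l K σ hσ i₀ hi₀ h hh k
        rw [if_neg hk] at h5
        exact h5
      rw [e1, mul_zero]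
    · intro h6
      exact absurd (Finset.mem_univ _) h6
  rw [s1, s2, add_comm]

theorem exists_Plong (l : ℕ) (K : Type*) [Field K] (σ : K →+* K) (hσ : ∀ x, σ (σ x) = x)
    (U : Subgroup (GU l K σ)) (hU : ∀ g, g ∈ U ↔ InU l K σ g)
    (i₀ : Fin l) (hi₀ : (i₀ : ℕ) + 1 = l) :
    ∃ P : Subgroup (GU l K σ), ∀ g, g ∈ P ↔ g ∈ U ∧ (mat l K σ g).toBlocks₁₂ i₀ i₀ = 0 := by
  have h1 : (mat l K σ (1 : GU l K σ)).toBlocks₁₂ i₀ i₀ = 0 := by
    show (1 : Matrix (Fin l ⊕ Fin l) (Fin l ⊕ Fin l) K) (Sum.inl i₀) (Sum.inr i₀) = 0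
    exact Matrix.one_apply_ne (by simp)
  refine ⟨{ carrier := {g | g ∈ U ∧ (mat l K σ g).toBlocks₁₂ i₀ i₀ = 0}
            mul_mem' := ?_
            one_mem' := ⟨U.one_mem, h1⟩
            inv_mem' := ?_ }, fun g => Iff.rfl⟩
  · rintro a b ⟨ha, ha0⟩ ⟨hb, hb0⟩
    refine ⟨U.mul_mem ha hb, ?_⟩
    rw [U_entry_mul l K σ hσ i₀ hi₀ a b ((hU a).mp ha) ((hU b).mp hb), ha0, hb0, add_zero]
  · rintro a ⟨ha, ha0⟩
    refine ⟨U.inv_mem ha, ?_⟩
    have h2 := U_entry_mul l K σ hσ i₀ hi₀ a a⁻¹ ((hU a).mp ha) ((hU _).mp (U.inv_mem ha))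
    rw [mul_inv_cancel, ha0, zero_add] at h2
    rw [← h2]
    exact h1

end Cfsg.Agent.Lib.Helper21.SuEP1
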