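import Mathlib
import Cfsg.Prelude.Def_Blocks
import Cfsg.Agent.Lib.Helper79.DOCL2
import Cfsg.Agent.Lib.Helper79.PReg
import Cfsg.Agent.Lib.Helper83.Quot
import Cfsg.Agent.Lib.Helper81.IrrEquiv
import Cfsg.Agent.Lib.Helper81.PSolv2

/-!
# S4442, piece TGC-K: the `p`-complement `K` of `C_G(P)` and the restriction of `θ` to it
-/

set_option autoImplicit false

namespace Cfsg.Agent.Lib.Helper21.TGC

open Cfsg

variable {G : Type*} [Group G] [Fintype G] (p : ℕ) [Fact p.Prime]

/-- PIECE TGC-K : the `p`-complement `K` of `C` and the restriction of `θ` to it. -/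
theorem exists_K (P : Sylow p G) (hP : Nat.card P = p)
    (z : G) (hz : z ∈ (P : Subgroup G)) (hz1 : z ≠ 1)
    (θ : IrrCharacter (Subgroup.centralizer ((P : Subgroup G) : Set G)))
    (hθP : ∀ x : Subgroup.centralizer ((P : Subgroup G) : Set G), (x : G) ∈ (P : Subgroup G) →
      (θ : Subgroup.centralizer ((P : Subgroup G) : Set G) → ℂ) x =
        (θ : Subgroup.centralizer ((P : Subgroup G) : Set G) → ℂ) 1) :
    ∃ (K : Subgroup G) (θK : IrrCharacter K),
      (∀ y : G, y ∈ K ↔ (y * z = z * y ∧ ¬ p ∣ orderOf y)) ∧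
      (∀ (y : K) (c : Subgroup.centralizer ((P : Subgroup G) : Set G)), (c : G) = (y : G) →
        (θK : K → ℂ) y = (θ : Subgroup.centralizer ((P : Subgroup G) : Set G) → ℂ) c) ∧
      charDegree (θK : K → ℂ) =
        charDegree (θ : Subgroup.centralizer ((P : Subgroup G) : Set G) → ℂ) := by
  classical
  have hp : p.Prime := Fact.out
  have hP' : Nat.card (P : Subgroup G) = p := hP
  have hzo : orderOf z = p := by
    have h1 : orderOf z ∣ p := by
      rw [← hP']
      exact Subgroup.orderOf_dvd_natCard _ hz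
    rcases (Nat.dvd_prime hp).mp h1 with h | h
    · exact absurd (orderOf_eq_one_iff.mp h) hz1
    · exact h
  have hPz : (P : Subgroup G) = Subgroup.zpowers z :=
    Cfsg.Agent.Lib.Helper79.DO.sylow_eq_zpowers P hP' z hz hzo
  -- the centralizer of `P` is the centralizer of `z`
  have hC : Subgroup.centralizer ((P : Subgroup G) : Set G) = Subgroup.centralizer ({z} : Set G) := by
    ext x
    rw [Subgroup.mem_centralizer_iff, Subgroup.mem_centralizer_iff]
    constructor
    · intro h w hw
      rw [Set.mem_singleton_iff] at hw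
      subst hw
      exact h w hz
    · intro h w hw
      have hw' : w ∈ Subgroup.zpowers z := by rw [← hPz]; exact hw
      obtain ⟨k, rfl⟩ := Subgroup.mem_zpowers_iff.mp hw'
      have hc : Commute z x := h z rfl
      exact (Commute.zpow_left hc k).eq
  have hidx := Cfsg.Agent.Lib.Helper79.DO.centralizer_pPrimeCore_index P hP' z hz hzo
  haveI hKn : (pPrimeCore p (Subgroup.centralizer ({z} : Set G))).Normal :=
    Cfsg.Agent.Lib.Helper81.pPrimeCore_normal p
  have hmemE : ∀ e : Subgroup.centralizer ({z} : Set G),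
      e ∈ pPrimeCore p (Subgroup.centralizer ({z} : Set G)) ↔ ¬ p ∣ orderOf e :=
    Cfsg.Agent.Lib.Helper79.mem_iff_pRegular_of_index
      (pPrimeCore p (Subgroup.centralizer ({z} : Set G))) 1 hidx
      (Cfsg.Agent.Lib.Helper81.pPrimeCore_coprime p)
  set K : Subgroup G := (pPrimeCore p (Subgroup.centralizer ({z} : Set G))).map
    (Subgroup.centralizer ({z} : Set G)).subtype with hKdef
  have hKmem : ∀ y : G, y ∈ K ↔ (y * z = z * y ∧ ¬ p ∣ orderOf y) := by
    intro y
    constructor
    · rintro ⟨e, he, rfl⟩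
      refine ⟨?_, ?_⟩
      · have := e.2
        rw [Subgroup.mem_centralizer_iff] at this
        exact (this z rfl).symm
      · have := (hmemE e).mp he
        rwa [← Subgroup.orderOf_coe] at this
    · rintro ⟨h1, h2⟩
      have hyE : y ∈ Subgroup.centralizer ({z} : Set G) := by
        rw [Subgroup.mem_centralizer_iff]
        intro w hw
        rw [Set.mem_singleton_iff] at hw
        subst hw
        exact h1.symm
      refine ⟨⟨y, hyE⟩, (hmemE _).mpr ?_, rfl⟩
      rw [← Subgroup.orderOf_coe]
      exact h2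
  have hKC : K ≤ Subgroup.centralizer ((P : Subgroup G) : Set G) := by
    intro y hy
    rw [hC, Subgroup.mem_centralizer_iff]
    intro w hw
    rw [Set.mem_singleton_iff] at hw
    subst hw
    exact ((hKmem y).mp hy).1.symm
  -- `P` as a normal subgroup of `C`
  set PC : Subgroup (Subgroup.centralizer ((P : Subgroup G) : Set G)) :=
    (P : Subgroup G).subgroupOf (Subgroup.centralizer ((P : Subgroup G) : Set G)) with hPCdef
  haveI hPCn : PC.Normal := by
    constructor
    intro n hn g
    have hn' : (n : G) ∈ (P : Subgroup G) := Subgroup.mem_subgroupOf.mp hn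
    have hg := g.2
    rw [Subgroup.mem_centralizer_iff] at hg
    have hgn : (n : G) * (g : G) = (g : G) * (n : G) := hg _ hn'
    rw [Subgroup.mem_subgroupOf]
    have : ((g * n * g⁻¹ : Subgroup.centralizer ((P : Subgroup G) : Set G)) : G) = (n : G) := by
      push_cast
      rw [← hgn, mul_inv_cancel_right]
    rw [this]
    exact hn'
  have hθ' : ∀ x ∈ PC, (θ : Subgroup.centralizer ((P : Subgroup G) : Set G) → ℂ) x =
      (θ : Subgroup.centralizer ((P : Subgroup G) : Set G) → ℂ) 1 :=
    fun x hx => hθP x (Subgroup.mem_subgroupOf.mp hx)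
  obtain ⟨ψ, hψ⟩ := Cfsg.Agent.Lib.Helper83.exists_inflate_eq PC θ hθ'
  -- `K ≃* C ⧸ P`
  set f : K →* (Subgroup.centralizer ((P : Subgroup G) : Set G)) ⧸ PC :=
    (QuotientGroup.mk' PC).comp (Subgroup.inclusion hKC) with hfdef
  have hfinj : Function.Injective f := by
    rw [injective_iff_map_eq_one]
    intro y hy
    have h1 : Subgroup.inclusion hKC y ∈ PC := by
      rw [← QuotientGroup.eq_one_iff]
      exact hy
    have h2 : (y : G) ∈ (P : Subgroup G) := Subgroup.mem_subgroupOf.mp h1
    have h3 : orderOf (y : G) ∣ p := by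
      rw [← hP']
      exact Subgroup.orderOf_dvd_natCard _ h2
    have h4 : ¬ p ∣ orderOf (y : G) := ((hKmem y).mp y.2).2
    rcases (Nat.dvd_prime hp).mp h3 with h | h
    · apply Subtype.ext
      exact orderOf_eq_one_iff.mp h
    · exact absurd (h ▸ dvd_rfl) h4
  have hcard : Nat.card K =
      Nat.card ((Subgroup.centralizer ((P : Subgroup G) : Set G)) ⧸ PC) := by
    have h1 : Nat.card K = Nat.card (pPrimeCore p (Subgroup.centralizer ({z} : Set G))) :=
      Subgroup.card_map_of_injective (Subgroup.subtype_injective _)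
    have h2 : Nat.card (Subgroup.centralizer ({z} : Set G)) = p * Nat.card K := by
      rw [h1, ← Subgroup.index_mul_card (pPrimeCore p (Subgroup.centralizer ({z} : Set G))), hidx,
        pow_one]
    have h3 : Nat.card (Subgroup.centralizer ((P : Subgroup G) : Set G)) =
        Nat.card ((Subgroup.centralizer ((P : Subgroup G) : Set G)) ⧸ PC) * Nat.card PC :=
      Subgroup.card_eq_card_quotient_mul_card_subgroup PC
    have hPle : (P : Subgroup G) ≤ Subgroup.centralizer ((P : Subgroup G) : Set G) := by
      rw [hC]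
      exact Cfsg.Agent.Lib.Helper79.DO.sylow_le_centralizer P hP' z hz hzo
    have h4 : Nat.card PC = p :=
      (Nat.card_congr (Subgroup.subgroupOfEquivOfLe hPle).toEquiv).trans hP'
    have h5 : Nat.card (Subgroup.centralizer ((P : Subgroup G) : Set G)) =
        Nat.card (Subgroup.centralizer ({z} : Set G)) := by rw [hC]
    rw [h4, h5, h2, mul_comm] at h3
    exact Nat.eq_of_mul_eq_mul_right hp.pos h3
  have hfbij : Function.Bijective f :=
    (Nat.bijective_iff_injective_and_card f).mpr ⟨hfinj, hcard⟩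
  set φ : K ≃* (Subgroup.centralizer ((P : Subgroup G) : Set G)) ⧸ PC :=
    MulEquiv.ofBijective f hfbij with hφdef
  refine ⟨K, Cfsg.Agent.Lib.Helper81.irrMap φ.symm ψ, hKmem, ?_, ?_⟩
  · intro y c hc
    have hcy : c = Subgroup.inclusion hKC y := Subtype.ext hc
    rw [Cfsg.Agent.Lib.Helper81.irrMap_apply, hcy, ← hψ]
    rfl
  · unfold charDegree
    rw [Cfsg.Agent.Lib.Helper81.irrMap_apply, ← hψ]
    have : (φ.symm.symm (1 : K)) = ((1 : Subgroup.centralizer ((P : Subgroup G) : Set G)) : _ ⧸ PC) := by
      rw [MulEquiv.symm_symm, map_one]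
      rfl
    rw [this]
    rfl

end Cfsg.Agent.Lib.Helper21.TGC
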