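import Mathlib
import Cfsg.Agent.Lib.Helper47.PrimeOrd
import Cfsg.Agent.Lib.Helper47.DualPoly

/-!
# S5984 project (helper98), piece U84-TDEF2

`selfdual_of_deg_ge_two`: a monic irreducible factor `f` of degree `≥ 2` of the `r`-th cyclotomic
polynomial over the field with `q²` elements, with `ord_r(q) ≡ 2 (mod 4)`, is self-dual, does not
divide a power of `X - 1`, and `F` has no non-trivial `r`-th roots of unity.
-/

set_option autoImplicit false

namespace Cfsg.Agent.Lib.Helper98.U84

open Matrix Polynomial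

/-! ### U84-TDEF2 -/
theorem selfdual_of_deg_ge_two {F : Type*} [Field F] [Fintype F] {p q : ℕ} [Fact p.Prime]
    [CharP F p] (hF : Fintype.card F = q ^ 2) {r : ℕ} (hr : r.Prime) (hr2 : r ≠ 2) (hrp : r ≠ p)
    (σ : F →+* F) (hσq : ∀ x, σ x = x ^ q) (hi : orderOf (q : ZMod r) % 4 = 2)
    (f : F[X]) (hf : Cfsg.Agent.Lib.Helper47.IsCycFactor r f) (hb : 2 ≤ f.natDegree) :
    Cfsg.Agent.Lib.Helper47.dualP σ f = f ∧ (∀ c : ℕ, ¬ f ∣ (X - 1) ^ c * 1) ∧
      (∀ lam : F, lam ^ r = 1 → lam = 1) := by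
  refine ⟨(Cfsg.Agent.Lib.Helper47.dualP_eq_self_iff hF hσq hr hr2 hrp hf).2 hi, ?_, ?_⟩
  · intro c hc
    rw [mul_one] at hc
    have h1 : f ∣ (X - 1 : F[X]) := hf.2.1.prime.dvd_of_dvd_pow hc
    have h2 : f.natDegree ≤ (X - 1 : F[X]).natDegree :=
      Polynomial.natDegree_le_of_dvd h1 (Polynomial.X_sub_C_ne_zero (1 : F))
    have h3 : (X - 1 : F[X]).natDegree = 1 := Polynomial.natDegree_X_sub_C (1 : F)
    omega
  · intro lam hlam
    by_contra hne
    have hroot : (cyclotomic r F).IsRoot lam := by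
      have h1 : cyclotomic r F * (X - 1) = X ^ r - 1 :=
        haveI : Fact r.Prime := ⟨hr⟩
        Polynomial.cyclotomic_prime_mul_X_sub_one F r
      have h2 := congrArg (Polynomial.eval lam) h1
      simp only [Polynomial.eval_mul, Polynomial.eval_sub, Polynomial.eval_X, Polynomial.eval_one,
        Polynomial.eval_pow, hlam, sub_self] at h2
      rcases mul_eq_zero.1 h2 with h3 | h3
      · exact h3
      · exact absurd (sub_eq_zero.1 h3) hne
    have hg : Cfsg.Agent.Lib.Helper47.IsCycFactor r (X - C lam : F[X]) :=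
      ⟨Polynomial.monic_X_sub_C lam, Polynomial.irreducible_X_sub_C lam,
        Polynomial.dvd_iff_isRoot.2 hroot⟩
    have h4 := hg.natDegree_eq hF hr hrp
    have h5 := hf.natDegree_eq hF hr hrp
    rw [Polynomial.natDegree_X_sub_C] at h4
    omega

end Cfsg.Agent.Lib.Helper98.U84
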