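import Cfsg.Agent.Lib.Helper47.UniDefs

/-!
# S2676, piece CHANGE: layer maps preserving the layer forms give a new frame
-/

set_option autoImplicit false

namespace Cfsg.Agent.Lib.Helper21.Uni

open Cfsg.Agent.Lib.Helper47 Module

universe u

variable {F : Type u} [Field F]

theorem change_sum_left {V' : Type*} [AddCommGroup V'] [Module F V'] {B' : V' → V' → F}
    (hB' : IsSForm (RingHom.id F) (-1) B') {κ : Type*} (s : Finset κ) (f : κ → V') (z : V') :
    B' (∑ k ∈ s, f k) z = ∑ k ∈ s, B' (f k) z := by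
  classical
  induction s using Finset.induction_on with
  | empty => rw [Finset.sum_empty, Finset.sum_empty, hB'.zero_left]
  | insert a s ha ih => rw [Finset.sum_insert ha, Finset.sum_insert ha, hB'.add_left, ih]

theorem change_sum_right {V' : Type*} [AddCommGroup V'] [Module F V'] {B' : V' → V' → F}
    (hB' : IsSForm (RingHom.id F) (-1) B') {κ : Type*} (s : Finset κ) (f : κ → V') (z : V') :
    B' z (∑ k ∈ s, f k) = ∑ k ∈ s, B' z (f k) := by
  classical
  induction s using Finset.induction_on with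
  | empty => rw [Finset.sum_empty, Finset.sum_empty, hB'.zero_right]
  | insert a s ha ih => rw [Finset.sum_insert ha, Finset.sum_insert ha, hB'.add_right, ih]

/-- bilinear expansion of `B'` on two linear combinations -/
theorem change_expand {V' : Type*} [AddCommGroup V'] [Module F V'] {B' : V' → V' → F}
    (hB' : IsSForm (RingHom.id F) (-1) B') {κ κ' : Type*} [Fintype κ] [Fintype κ']
    (c : κ → F) (u : κ → V') (c' : κ' → F) (w : κ' → V') :
    B' (∑ k, c k • u k) (∑ m, c' m • w m) = ∑ k, ∑ m, c k * c' m * B' (u k) (w m) := by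
  rw [change_sum_left hB']
  apply Finset.sum_congr rfl
  intro k _
  rw [change_sum_right hB']
  apply Finset.sum_congr rfl
  intro m _
  rw [hB'.smul_left, hB'.smul_right, RingHom.id_apply, mul_assoc]

/-- the gram computation inside one layer -/
theorem change_gram_same {V' : Type*} [AddCommGroup V'] [Module F V']
    {ι ι' : Type*} [Fintype ι] [Fintype ι'] {B' : V' → V' → F} {N' : V' →ₗ[F] V'}
    {d : ι → ℕ} {G : ι → ι → F} {d' : ι' → ℕ} {G' : ι' → ι' → F} {x' : ι' → V'}
    (hB' : IsSForm (RingHom.id F) (-1) B') (hx' : IsFrame B' N' d' G' x')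
    (ψ : ∀ j, ({i : ι // d i = j} → F) →ₗ[F] ({i : ι' // d' i = j} → F))
    (hψ : ∀ j v w, layerForm d' G' j (ψ j v) (ψ j w) = layerForm d G j v w)
    [∀ j, DecidableEq {i : ι // d i = j}]
    (j : ℕ) (s t : {i : ι // d i = j}) (a b : ℕ) :
    B' ((N' ^ a) (∑ k : {k : ι' // d' k = j}, ψ j (Pi.single s 1) k • x' k))
       ((N' ^ b) (∑ k : {k : ι' // d' k = j}, ψ j (Pi.single t 1) k • x' k))
      = if a + b + 1 = j then (-1) ^ a * G s t else 0 := by
  rw [map_sum, map_sum]
  simp only [map_smul]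
  rw [change_expand hB']
  have hg : ∀ k m : {k : ι' // d' k = j}, B' ((N' ^ a) (x' k)) ((N' ^ b) (x' m))
      = if a + b + 1 = j then (-1) ^ a * G' k m else 0 := by
    intro k m
    rw [hx'.gram]
    by_cases h : a + b + 1 = j
    · rw [if_pos h, if_pos ⟨k.2.trans m.2.symm, h.trans k.2.symm⟩]
    · rw [if_neg h, if_neg (fun h2 => h (h2.2.trans k.2))]
  simp only [hg]
  by_cases h : a + b + 1 = j
  · simp only [if_pos h]
    have h1 : ∑ k : {k : ι' // d' k = j}, ∑ m : {k : ι' // d' k = j},
        ψ j (Pi.single s 1) k * ψ j (Pi.single t 1) m * ((-1) ^ a * G' k m)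
        = (-1) ^ a * layerForm d' G' j (ψ j (Pi.single s 1)) (ψ j (Pi.single t 1)) := by
      unfold layerForm gForm
      rw [Finset.mul_sum]
      apply Finset.sum_congr rfl
      intro k _
      rw [Finset.mul_sum]
      apply Finset.sum_congr rfl
      intro m _
      ring
    rw [h1, hψ]
    congr 1
    unfold layerForm gForm
    rw [Finset.sum_eq_single s]
    · rw [Finset.sum_eq_single t]
      · rw [Pi.single_eq_same, Pi.single_eq_same, one_mul, mul_one]
      · intro m _ hm
        rw [Pi.single_eq_of_ne hm, mul_zero]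
      · intro hh
        exact absurd (Finset.mem_univ _) hh
    · intro k _ hk
      apply Finset.sum_eq_zero
      intro m _
      rw [Pi.single_eq_of_ne hk, zero_mul, zero_mul]
    · intro hh
      exact absurd (Finset.mem_univ _) hh
  · simp only [if_neg h, mul_zero, Finset.sum_const_zero]

/-- the gram computation between different layers -/
theorem change_gram_diff {V' : Type*} [AddCommGroup V'] [Module F V']
    {ι' : Type*} [Fintype ι'] {B' : V' → V' → F} {N' : V' →ₗ[F] V'}
    {d' : ι' → ℕ} {G' : ι' → ι' → F} {x' : ι' → V'}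
    (hB' : IsSForm (RingHom.id F) (-1) B') (hx' : IsFrame B' N' d' G' x')
    (j j' : ℕ) (hjj : j ≠ j') (c : {k : ι' // d' k = j} → F) (c' : {k : ι' // d' k = j'} → F)
    (a b : ℕ) :
    B' ((N' ^ a) (∑ k : {k : ι' // d' k = j}, c k • x' k))
       ((N' ^ b) (∑ k : {k : ι' // d' k = j'}, c' k • x' k)) = 0 := by
  rw [map_sum, map_sum]
  simp only [map_smul]
  rw [change_expand hB']
  apply Finset.sum_eq_zero
  intro k _
  apply Finset.sum_eq_zero
  intro m _
  rw [hx'.gram, if_neg, mul_zero]
  intro h2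
  exact hjj (k.2.symm.trans (h2.1.trans m.2))

-- PIECE CHANGE
theorem frame_change {V' : Type*} [AddCommGroup V'] [Module F V']
    {ι ι' : Type*} [Fintype ι] [Fintype ι'] {B' : V' → V' → F} {N' : V' →ₗ[F] V'}
    {d : ι → ℕ} {G : ι → ι → F} {d' : ι' → ℕ} {G' : ι' → ι' → F} {x' : ι' → V'}
    (hB' : IsSForm (RingHom.id F) (-1) B') (hx' : IsFrame B' N' d' G' x')
    (hpos : ∀ i, 0 < d i) (hnd : ∀ j, Nondeg (layerForm d G j))
    (hcard : ∑ i, d i = finrank F V')
    (ψ : ∀ j, ({i : ι // d i = j} → F) →ₗ[F] ({i : ι' // d' i = j} → F))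
    (hψ : ∀ j v w, layerForm d' G' j (ψ j v) (ψ j w) = layerForm d G j v w) :
    ∃ y : ι → V', IsFrame B' N' d G y := by
  classical
  -- the new vectors, layer by layer
  set yj : ∀ j, {i : ι // d i = j} → V' :=
    fun j s => ∑ k : {k : ι' // d' k = j}, ψ j (Pi.single s 1) k • x' k with hyj
  refine ⟨fun i => yj (d i) ⟨i, rfl⟩, hpos, ?_, ?_, hnd, hcard⟩
  · intro i
    show (N' ^ d i) (∑ k : {k : ι' // d' k = d i}, ψ (d i) (Pi.single ⟨i, rfl⟩ 1) k • x' k) = 0
    rw [map_sum]
    apply Finset.sum_eq_zero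
    intro k _
    rw [map_smul]
    have hk : (N' ^ d i) (x' k) = 0 := by
      have := hx'.kill (k : ι')
      rw [k.2] at this
      exact this
    rw [hk, smul_zero]
  · intro i l a b
    by_cases h : d i = d l
    · have key : ∀ (j : ℕ) (hi : d i = j) (hl : d l = j),
          B' ((N' ^ a) (yj j ⟨i, hi⟩)) ((N' ^ b) (yj j ⟨l, hl⟩))
            = if a + b + 1 = j then (-1) ^ a * G i l else 0 := by
        intro j hi hl
        exact change_gram_same hB' hx' ψ hψ j ⟨i, hi⟩ ⟨l, hl⟩ a b
      have hcast : ∀ (j j' : ℕ) (hjj : j = j') (hl : d l = j) (hl' : d l = j'),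
          yj j ⟨l, hl⟩ = yj j' ⟨l, hl'⟩ := by
        intro j j' hjj hl hl'
        subst hjj
        rfl
      have h3 := key (d i) rfl h.symm
      rw [hcast (d i) (d l) h h.symm rfl] at h3
      rw [h3]
      by_cases h4 : a + b + 1 = d i
      · rw [if_pos h4, if_pos ⟨h, h4⟩]
      · rw [if_neg h4, if_neg (fun h5 => h4 h5.2)]
    · rw [if_neg (fun h5 => h h5.1)]
      exact change_gram_diff hB' hx' (d i) (d l) h _ _ a b

end Cfsg.Agent.Lib.Helper21.Uni
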